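import Cfsg.Agent.Screen.ThousandTools
import Cfsg.Agent.SmallOrder.SelfCentExclude
import Cfsg.Agent.SmallOrder.DegreeSucc
import Cfsg.Agent.Transfer.Gruen
import Mathlib

/-! # Individual orders in the sieve to 1092 -/

set_option autoImplicit false

namespace Cfsg.Agent.Screen.Thousand

open Cfsg.Agent.SmallOrder

variable {G : Type*} [Group G] [Finite G] [IsSimpleGroup G] {p : ℕ} [hp : Fact p.Prime]

/-- Centralizer and normalizer of a Sylow subgroup of prime order. -/
theorem cent_data (hG : ¬ IsMulCommutative G) (P : Sylow p G) (hP : Nat.card P = p) {n r : ℕ}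
    (hn : Nat.card (Sylow p G) = n) (hc : Nat.card G = p * r * n) :
    ∃ c e : ℕ, Nat.card (Subgroup.centralizer ((P : Subgroup G) : Set G)) = p * c ∧ c * e = r ∧
      e ∣ p - 1 ∧ e ≠ 1 ∧ Nat.card (Subgroup.normalizer ((P : Subgroup G) : Set G)) = p * r := by
  have hn0 : 0 < n := hn ▸ Nat.card_pos
  have hN : Nat.card (Subgroup.normalizer ((P : Subgroup G) : Set G)) = p * r := by
    have h := card_normalizer_mul_card_sylow P
    rw [hn, hc] at h
    exact Nat.eq_of_mul_eq_mul_right hn0 h
  obtain ⟨h1, h2⟩ := relIndex_prime_sylow hG P hP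
  haveI : IsCyclic (P : Subgroup G) := isCyclic_of_prime_card hP
  have hPC : (P : Subgroup G) ≤ Subgroup.centralizer ((P : Subgroup G) : Set G) := Subgroup.le_centralizer _
  obtain ⟨c, hcc⟩ := hP ▸ Subgroup.card_dvd_of_le hPC
  refine ⟨c, _, hcc, ?_, h1, h2, hN⟩
  have h := Subgroup.relIndex_mul_relIndex ⊥ _ _ bot_le
    (Subgroup.centralizer_le_normalizer ((P : Subgroup G) : Set G))
  rw [Subgroup.relIndex_bot_left, Subgroup.relIndex_bot_left, hcc, hN, mul_assoc] at h
  exact Nat.eq_of_mul_eq_mul_left hp.out.pos h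

/-- Thirty-six Sylow subgroups and a centralizer of order `2p`. -/
theorem false_of_thirtysix (hG : ¬ IsMulCommutative G) (P : Sylow p G) (hP : Nat.card P = p) (hp5 : p = 5 ∨ p = 7)
    (hn : Nat.card (Sylow p G) = 36) (hc : Nat.card G = p * 4 * 36)
    (hC : Nat.card (Subgroup.centralizer ((P : Subgroup G) : Set G)) = p * 2)
    (hN : Nat.card (Subgroup.normalizer ((P : Subgroup G) : Set G)) = p * 4) : False := by
  classical
  haveI : Fact (Nat.Prime 2) := ⟨Nat.prime_two⟩
  obtain ⟨x, t, hx, hxP, ht, hxt⟩ := exists_commuting P hP (q := 2) (hC ▸ dvd_mul_left 2 p)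
  set C := Subgroup.centralizer ((P : Subgroup G) : Set G) with hCdef
  have hP' : Subgroup.zpowers x = (P : Subgroup G) :=
    Subgroup.eq_of_le_of_card_ge (Subgroup.zpowers_le.2 hxP) (by rw [Nat.card_zpowers, hx, hP])
  have hmemC : ∀ y : G, Commute x y → y ∈ C := fun y hy => Subgroup.mem_centralizer_iff.2 fun z hz => by
    replace hz : z ∈ Subgroup.zpowers x := hP'.symm ▸ hz
    obtain ⟨i, rfl⟩ := Subgroup.mem_zpowers_iff.1 hz
    exact hy.zpow_left i
  have hoxt : orderOf (x * t) = p * 2 := by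
    rw [hxt.orderOf_mul_eq_mul_orderOf_of_coprime (by
      rw [hx, ht]; rcases hp5 with h | h <;> subst h <;> norm_num), hx, ht]
  have hCz : Subgroup.zpowers (x * t) = C := Subgroup.eq_of_le_of_card_ge
    (Subgroup.zpowers_le.2 (C.mul_mem (hmemC x (Commute.refl x)) (hmemC t hxt)))
    (by rw [Nat.card_zpowers, hoxt, hC])
  have hCc : IsCyclic C := hCz ▸ inferInstance
  set K := Subgroup.centralizer ({t} : Set G) with hKdef
  have hNK : Subgroup.normalizer ((P : Subgroup G) : Set G) ≤ K := by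
    intro g hg
    refine Subgroup.mem_centralizer_singleton_iff.2 (mul_inv_eq_iff_eq_mul.1 ?_)
    refine eq_of_orderOf_eq_two_of_isCyclic hCc ?_ (hmemC t hxt)
      ((MulEquiv.orderOf_eq (MulAut.conj g) t).trans ht) ht
    refine Subgroup.mem_centralizer_iff.2 fun z hz => ?_
    have h1 : g⁻¹ * z * g ∈ (P : Subgroup G) := (Subgroup.mem_normalizer_iff''.1 hg z).1 hz
    have h2 := Subgroup.mem_centralizer_iff.1 (hmemC t hxt) _ h1
    calc z * (g * t * g⁻¹) = g * (g⁻¹ * z * g * t) * g⁻¹ := by group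
      _ = g * (t * (g⁻¹ * z * g)) * g⁻¹ := by rw [h2]
      _ = g * t * g⁻¹ * z := by group
  have hPK : (P : Subgroup G) ≤ K := Subgroup.le_normalizer.trans hNK
  have hsylK : Nat.card (Sylow p K) * Nat.card (Subgroup.normalizer ((P : Subgroup G) : Set G)) = Nat.card K := by
    rw [(P.subtype hPK).card_eq_index_normalizer]
    have hnorm : Subgroup.normalizer ((P.subtype hPK : Sylow p K) : Set K) =
        (Subgroup.normalizer ((P : Subgroup G) : Set G)).subgroupOf K := by
      show Subgroup.normalizer (((P.subtype hPK : Sylow p K) : Subgroup K) : Set K) = _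
      rw [Sylow.coe_subtype]
      exact (Subgroup.subgroupOf_normalizer_eq hPK).symm
    rw [hnorm, mul_comm, ← Nat.card_congr (Subgroup.subgroupOfEquivOfLe hNK).toEquiv]
    exact Subgroup.card_mul_index _
  have hmod : Nat.card (Sylow p K) % p = 1 := (card_sylow_dvd_and_mod (P.subtype hPK)).2
  have hKne : K ≠ ⊤ := by
    intro h
    have hz : t ∈ Subgroup.center G := Subgroup.mem_center_iff.2 fun g =>
      Subgroup.mem_centralizer_singleton_iff.1 (show g ∈ K by rw [h]; exact Subgroup.mem_top g)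
    rcases (inferInstance : (Subgroup.center G).Normal).eq_bot_or_eq_top with hb | hb
    · rw [hb, Subgroup.mem_bot] at hz
      rw [hz, orderOf_one] at ht
      omega
    · exact hG ⟨⟨fun a b => (Subgroup.mem_center_iff.1 (hb ▸ Subgroup.mem_top b) a)⟩⟩
  have hKi := two_mul_card_dvd_factorial hG K hKne
  have hmul := K.card_mul_index
  have hK1 := K.one_lt_index_of_ne_top hKne
  rw [← hsylK, hN, hc] at hmul
  have hK4 : Nat.card K = p * 4 := by
    have hs : Nat.card (Sylow p K) * K.index = 36 :=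
      Nat.eq_of_mul_eq_mul_left (Nat.mul_pos hp.out.pos (by norm_num) : 0 < p * 4) (by rw [← hmul]; ring)
    have hsd : Nat.card (Sylow p K) ∣ 36 := Dvd.intro _ hs
    have h1 : ∀ s ∈ Nat.divisors 36, (s % 5 = 1 → s = 1 ∨ s = 6 ∨ s = 36) ∧ (s % 7 = 1 → s = 1 ∨ s = 36) := by
      decide +kernel
    obtain ⟨h5, h7⟩ := h1 _ (Nat.mem_divisors.2 ⟨hsd, by norm_num⟩)
    rw [← hsylK, hN]
    rcases hp5 with h | h <;> subst h
    · rcases h5 hmod with e | e | e
      · rw [e, one_mul]
      · exfalso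
        rw [e] at hs
        rw [hc, show K.index = 6 by omega] at hKi
        revert hKi
        decide +kernel
      · rw [e] at hs; omega
    · rcases h7 hmod with e | e
      · rw [e, one_mul]
      · rw [e] at hs; omega
  refine false_of_four_centralizer hG (m := 9 * p) (by rw [hc]; ring) ?_ ht ?_
  · rcases hp5 with h | h <;> subst h <;> decide
  · show ¬ 8 ∣ Nat.card K
    rw [hK4]
    rcases hp5 with h | h <;> subst h <;> norm_num

omit hp in
theorem ne_420 (hG : ¬ IsMulCommutative G) : Nat.card G ≠ 420 := by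
  intro h
  haveI : Fact (Nat.Prime 7) := ⟨by norm_num⟩
  obtain ⟨P⟩ := (inferInstance : Nonempty (Sylow 7 G))
  obtain ⟨hP, -, hd, hm⟩ := sylow_arith P (a := 1) (m := 60) (by rw [h]; norm_num) (by norm_num)
  rw [pow_one] at hP
  have hn : Nat.card (Sylow 7 G) = 15 :=
    (by decide +kernel : ∀ s ∈ Nat.divisors 60, s % 7 = 1 → s ≠ 1 → s = 15) _
      (Nat.mem_divisors.2 ⟨hd, by norm_num⟩) hm (card_sylow_ne_one hG (by rw [h]; norm_num))
  obtain ⟨c, e, hC, hce, he, he1, -⟩ := cent_data hG P hP hn (r := 4) (by rw [h])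
  have he6 := Nat.le_of_dvd (by norm_num) he
  have hc2 : 2 ∣ c := by interval_cases e <;> omega
  exact false_of_commuting_two_succ hG P hP (by rw [hn]) (by decide) (hC ▸ hc2.mul_left 7)

omit hp in
theorem ne_840 (hG : ¬ IsMulCommutative G) : Nat.card G ≠ 840 := by
  intro h
  haveI : Fact (Nat.Prime 7) := ⟨by norm_num⟩
  obtain ⟨P⟩ := (inferInstance : Nonempty (Sylow 7 G))
  obtain ⟨hP, -, hd, hm⟩ := sylow_arith P (a := 1) (m := 120) (by rw [h]; norm_num) (by norm_num)
  rw [pow_one] at hP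
  rcases (by decide +kernel : ∀ s ∈ Nat.divisors 120, s % 7 = 1 → s ≠ 1 → s = 8 ∨ s = 15 ∨ s = 120) _
      (Nat.mem_divisors.2 ⟨hd, by norm_num⟩) hm (card_sylow_ne_one hG (by rw [h]; norm_num)) with hn | hn | hn
  · exact false_of_succ hG (by norm_num) P hP hn (r := 15) (by rw [h]) (by norm_num)
  · obtain ⟨c, e, hC, hce, he, he1, -⟩ := cent_data hG P hP hn (r := 8) (by rw [h])
    have he6 := Nat.le_of_dvd (by norm_num) he
    have hc2 : 2 ∣ c := by interval_cases e <;> omega
    exact false_of_commuting_two_succ hG P hP (by rw [hn]) (by decide) (hC ▸ hc2.mul_left 7)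
  · exact false_of_prime_card_sylow hG P hP hn (by norm_num) (r := 1) (by rw [h]) (by norm_num)

omit hp in
theorem ne_1008 (hG : ¬ IsMulCommutative G) : Nat.card G ≠ 1008 := by
  intro h
  haveI : Fact (Nat.Prime 7) := ⟨by norm_num⟩
  obtain ⟨P⟩ := (inferInstance : Nonempty (Sylow 7 G))
  obtain ⟨hP, -, hd, hm⟩ := sylow_arith P (a := 1) (m := 144) (by rw [h]; norm_num) (by norm_num)
  rw [pow_one] at hP
  rcases (by decide +kernel : ∀ s ∈ Nat.divisors 144, s % 7 = 1 → s ≠ 1 → s = 8 ∨ s = 36) _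
      (Nat.mem_divisors.2 ⟨hd, by norm_num⟩) hm (card_sylow_ne_one hG (by rw [h]; norm_num)) with hn | hn
  · exact false_of_succ hG (by norm_num) P hP hn (r := 18) (by rw [h]) (by norm_num)
  · obtain ⟨c, e, hC, hce, he, he1, hN⟩ := cent_data hG P hP hn (r := 4) (by rw [h])
    have he6 := Nat.le_of_dvd (by norm_num) he
    have hc2 : c = 2 := by interval_cases e <;> omega
    exact false_of_thirtysix hG P hP (Or.inr rfl) hn (by rw [h]) (by rw [hC, hc2]) hN

omit hp in
theorem ne_612 (hG : ¬ IsMulCommutative G) : Nat.card G ≠ 612 := by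
  intro h
  haveI : Fact (Nat.Prime 17) := ⟨by norm_num⟩
  have hn : Nat.card (Sylow 17 G) = 17 + 1 := card_sylow_eq_succ hG (m := 36) (by rw [h]; norm_num) (by norm_num)
    (by decide +kernel)
  rcases degree_succ_cases hG hn (d := 2) (by rw [h]) (by norm_num)
    (fun q => ne_two_pow (by simp) q) with ⟨h1, -⟩ | ⟨h1, -⟩ <;> omega

omit hp in
theorem ne_1040 (hG : ¬ IsMulCommutative G) : Nat.card G ≠ 1040 := by
  intro h
  haveI := Fintype.ofFinite G
  haveI : Fact (Nat.Prime 13) := ⟨by norm_num⟩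
  obtain ⟨P⟩ := (inferInstance : Nonempty (Sylow 13 G))
  obtain ⟨-, -, hd, hm⟩ := sylow_arith P (a := 1) (m := 80) (by rw [h]; norm_num) (by norm_num)
  have hn : Nat.card (Sylow 13 G) = 40 :=
    (by decide +kernel : ∀ s ∈ Nat.divisors 80, s % 13 = 1 → s ≠ 1 → s = 40) _
      (Nat.mem_divisors.2 ⟨hd, by norm_num⟩) hm (card_sylow_ne_one hG (by rw [h]; norm_num))
  obtain ⟨x, hx, hC, he⟩ := exists_selfcent (r := 2) hG Nat.prime_two hn (by rw [h]) (by norm_num)
  obtain ⟨A, B, -, hAB, hA, hB, hAd, hBd, hA1, hB1, hsq⟩ :=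
    SelfCentDeg.degrees_two hx hC (commutator_eq_top hG) he (by norm_num)
  rw [h] at hAd hsq
  have hltA : A.natAbs < 33 := by nlinarith
  have key : ∀ a < 33, a ∣ 1040 → 1 < a → ¬ (a % 13 = 1 ∨ a % 13 = 12) := by decide +kernel
  exact key _ hltA hAd hA1 (by omega)

omit hp in
/-- The Sylow 3-subgroups of a simple group of order 756 or larger subgroups containing one. -/
theorem ne_756 (hG : ¬ IsMulCommutative G) : Nat.card G ≠ 756 := by
  intro h
  haveI : Fact (Nat.Prime 3) := ⟨Nat.prime_three⟩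
  have h3 : 3 ∣ Nat.card G := by rw [h]; norm_num
  obtain ⟨P⟩ := (inferInstance : Nonempty (Sylow 3 G))
  have harith : ∀ Q : Sylow 3 G, Nat.card Q = 27 ∧ (Q : Subgroup G).index = 28 := fun Q =>
    let ⟨a, b, _, _⟩ := sylow_arith Q (a := 3) (m := 28) (by rw [h]; norm_num) (by norm_num)
    ⟨a.trans (by norm_num), b⟩
  obtain ⟨-, -, hd, hm⟩ := sylow_arith P (a := 3) (m := 28) (by rw [h]; norm_num) (by norm_num)
  have hfac : ∀ H : Subgroup G, H ≠ ⊤ → H.index ∣ 28 → H.index = 14 ∨ H.index = 28 := by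
    intro H hH hdvd
    have := two_mul_card_dvd_factorial hG H hH
    rw [h] at this
    exact (by decide +kernel : ∀ i ∈ Nat.divisors 28, 2 * 756 ∣ i.factorial → i = 14 ∨ i = 28) _
      (Nat.mem_divisors.2 ⟨hdvd, by norm_num⟩) this
  have hn : Nat.card (Sylow 3 G) = 28 := by
    have hne := card_sylow_ne_one hG h3
    rcases hfac _ (normalizer_ne_top hG h3 P) (P.card_eq_index_normalizer ▸ hd) with e | e <;>
      have e' := (P.card_eq_index_normalizer).trans e
    · rw [e'] at hm; omega
    · exact e'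
  have hNP : ∀ Q : Sylow 3 G, Subgroup.normalizer ((Q : Subgroup G) : Set G) = Q := fun Q =>
    (Subgroup.eq_of_le_of_card_ge Subgroup.le_normalizer (by
      have hq := card_normalizer_mul_card_sylow Q
      rw [hn, h] at hq
      rw [(harith Q).1]
      omega)).symm
  -- overgroups of a Sylow subgroup
  have hover : ∀ (Q : Sylow 3 G) (V : Subgroup G), (Q : Subgroup G) ≤ V → V = Q ∨ V = ⊤ := by
    intro Q V hQV
    by_cases hV : V = ⊤
    · exact Or.inr hV
    left
    rcases hfac V hV ((harith Q).2 ▸ Subgroup.index_dvd_of_le hQV) with e | e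
    · exfalso
      have hrel := Subgroup.relIndex_mul_index hQV
      rw [(harith Q).2, e] at hrel
      have h2 : ((Q : Subgroup G).subgroupOf V).index = 2 := by
        show (Q : Subgroup G).relIndex V = 2
        omega
      haveI := Subgroup.normal_of_index_eq_two h2
      have hle : V ≤ Subgroup.normalizer ((Q : Subgroup G) : Set G) :=
        (Subgroup.normal_subgroupOf_iff_le_normalizer hQV).1 inferInstance
      rw [hNP Q] at hle
      rw [le_antisymm hle hQV, (harith Q).2] at e
      omega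
    · exact (Subgroup.eq_of_le_of_card_ge hQV (by
        have h1 := V.card_mul_index
        rw [e, h] at h1
        rw [(harith Q).1]
        omega)).symm
  have hPne : (P : Subgroup G) ≠ ⊤ := fun e => by
    have := (harith P).2
    rw [e, Subgroup.index_top] at this
    omega
  have hPle : ∀ V : Subgroup G, (P : Subgroup G) ≤ V → V ≠ ⊤ → V = P := fun V hV hne =>
    (hover P V hV).resolve_right hne
  set Z := (Subgroup.center (P : Subgroup G)).map (P : Subgroup G).subtype with hZ
  have hZP : Z ≤ (P : Subgroup G) := Subgroup.map_subtype_le _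
  have hZC : Z ≤ Subgroup.centralizer ((P : Subgroup G) : Set G) := by
    rintro _ ⟨z, hz, rfl⟩
    exact Subgroup.mem_centralizer_iff.2 fun y hy => congrArg Subtype.val (Subgroup.mem_center_iff.1 hz ⟨y, hy⟩)
  have hpP : IsPGroup 3 (P : Subgroup G) := P.2
  haveI : Nontrivial (P : Subgroup G) := Finite.one_lt_card_iff_nontrivial.1 (by rw [(harith P).1]; norm_num)
  have hcnt : Nontrivial (Subgroup.center (P : Subgroup G)) := hpP.center_nontrivial
  have hZbot : Z ≠ ⊥ := by
    intro e
    rw [hZ, Subgroup.map_eq_bot_iff, Subgroup.ker_subtype, le_bot_iff] at e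
    exact (Subgroup.nontrivial_iff_ne_bot _).1 hcnt e
  -- centralizers of elements
  have hcent : ∀ (Q : Sylow 3 G) (u : G), u ≠ 1 → (∀ y ∈ (Q : Subgroup G), y * u = u * y) →
      Subgroup.centralizer ({u} : Set G) = Q := by
    intro Q u hu hy
    refine (hover Q _ fun y hy' => Subgroup.mem_centralizer_singleton_iff.2 (hy y hy')).resolve_right fun e => ?_
    have hz : u ∈ Subgroup.center G := Subgroup.mem_center_iff.2 fun g =>
      Subgroup.mem_centralizer_singleton_iff.1 (e ▸ Subgroup.mem_top g)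
    rcases (inferInstance : (Subgroup.center G).Normal).eq_bot_or_eq_top with hb | hb
    · exact hu (Subgroup.mem_bot.1 (hb ▸ hz))
    · exact hG ⟨⟨fun a b => (Subgroup.mem_center_iff.1 (hb ▸ Subgroup.mem_top b) a)⟩⟩
  by_cases hW : Cfsg.IsWeaklyClosed Z (P : Subgroup G)
  · have hV : Subgroup.normalizer (Z : Set G) = P := by
      refine hPle _ ((fun y hy => Subgroup.centralizer_le_normalizer _ ?_)) fun e => ?_
      · refine Subgroup.mem_centralizer_iff.2 fun z hz => ?_
        exact (Subgroup.mem_centralizer_iff.1 (hZC hz) y hy).symm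
      · rcases (Subgroup.normalizer_eq_top_iff.1 e).eq_bot_or_eq_top with hb | hb
        · exact hZbot hb
        · exact hPne (top_le_iff.1 (hb ▸ hZP))
    have hle := Transfer.commutator_inf_le_of_weaklyClosed P hZC hW hV.le
    rw [commutator_eq_top hG, top_inf_eq, ← Subgroup.map_subtype_commutator] at hle
    haveI := hpP.isNilpotent
    have hlt : commutator (P : Subgroup G) ≠ ⊤ := fun e => by
      haveI : Nontrivial (P : Subgroup G) := inferInstance
      exact (not_solvable_of_mem_derivedSeries (G := (P : Subgroup G))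
        (g := (exists_ne (1 : (P : Subgroup G))).choose) (exists_ne (1 : (P : Subgroup G))).choose_spec
        (fun n => by
          induction n with
          | zero => exact Subgroup.mem_top _
          | succ n ih =>
            have htop : ∀ k, derivedSeries (P : Subgroup G) k = ⊤ := by
              intro k
              induction k with
              | zero => rfl
              | succ k ihk => rw [derivedSeries_succ, ihk]; exact e
            rw [htop]; exact Subgroup.mem_top _)) inferInstance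
    apply hlt
    rw [eq_top_iff]
    intro y _
    obtain ⟨w, hw, e⟩ := hle y.2
    rwa [← Subtype.ext e]
  -- a conjugate of a central element
  rw [Cfsg.IsWeaklyClosed] at hW
  push Not at hW
  obtain ⟨g, hg, hgne⟩ := hW hZP
  obtain ⟨z', hz'g, hz'Z⟩ : ∃ z' ∈ Z.map (MulAut.conj g).toMonoidHom, z' ∉ Z := by
    by_contra hcon
    push Not at hcon
    exact hgne (Subgroup.eq_of_le_of_card_ge hcon
      (Nat.card_congr (Subgroup.equivMapOfInjective Z _ (MulAut.conj g).injective).toEquiv).le)
  obtain ⟨z₁, hz₁, rfl⟩ := hz'g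
  have hz'P : g * z₁ * g⁻¹ ∈ (P : Subgroup G) := hg ⟨z₁, hz₁, rfl⟩
  have hz'Z' : g * z₁ * g⁻¹ ∉ Z := hz'Z
  have hz10 : z₁ ≠ 1 := fun e => hz'Z' (by rw [e, mul_one, mul_inv_cancel]; exact Z.one_mem)
  set Q : Sylow 3 G := g • P with hQ
  have hQmem : ∀ y : G, y ∈ (Q : Subgroup G) ↔ g⁻¹ * y * g ∈ (P : Subgroup G) := by
    intro y
    rw [hQ, Sylow.coe_subgroup_smul, Subgroup.mem_pointwise_smul_iff_inv_smul_mem]
    simp [MulAut.smul_def, mul_assoc]
  have hCQ : Subgroup.centralizer ({g * z₁ * g⁻¹} : Set G) = Q := by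
    refine hcent Q _ (fun e => hz'Z' (by rw [e]; exact Z.one_mem)) fun y hy => ?_
    have h1 := Subgroup.mem_centralizer_iff.1 (hZC hz₁) _ ((hQmem y).1 hy)
    calc y * (g * z₁ * g⁻¹) = g * (g⁻¹ * y * g * z₁) * g⁻¹ := by group
      _ = g * (z₁ * (g⁻¹ * y * g)) * g⁻¹ := by rw [h1]
      _ = g * z₁ * g⁻¹ * y := by group
  have hPQ : P ≠ Q := by
    intro e
    apply hz'Z'
    refine ⟨⟨_, hz'P⟩, Subgroup.mem_center_iff.2 fun y => Subtype.ext ?_, rfl⟩
    have hy : (y : G) ∈ (Q : Subgroup G) := by rw [← e]; exact y.2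
    rw [← hCQ] at hy
    exact Subgroup.mem_centralizer_singleton_iff.1 hy
  -- the intersection has index 3 in both
  set D := (P : Subgroup G) ⊓ (Q : Subgroup G) with hD
  have hz'Q : g * z₁ * g⁻¹ ∈ (Q : Subgroup G) := by
    rw [← hCQ]; exact Subgroup.mem_centralizer_singleton_iff.2 rfl
  have hZQ : Z ≤ (Q : Subgroup G) := by
    intro y hy
    rw [← hCQ]
    exact Subgroup.mem_centralizer_singleton_iff.2 ((Subgroup.mem_centralizer_iff.1 (hZC hy) _ hz'P).symm)
  have hD9 : Nat.card D = 9 := by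
    have hd27 : Nat.card D ∣ 3 ^ 3 := by
      have := Subgroup.card_dvd_of_le (inf_le_left : D ≤ (P : Subgroup G))
      rwa [(harith P).1] at this
    obtain ⟨i, hi, hi'⟩ := (Nat.dvd_prime_pow Nat.prime_three).1 hd27
    have hlt : Z < D := lt_of_le_of_ne (le_inf hZP hZQ) fun e => hz'Z' (e ▸ ⟨hz'P, hz'Q⟩)
    have hZ1 : 1 < Nat.card Z := Subgroup.one_lt_card_iff_ne_bot _ |>.2 hZbot
    have hZD : Nat.card Z < Nat.card D := lt_of_le_of_ne (Subgroup.card_le_of_le hlt.le)
      fun e => hlt.ne (Subgroup.eq_of_le_of_card_ge hlt.le e.ge)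
    have hZd : Nat.card Z ∣ 3 ^ 3 := (Subgroup.card_dvd_of_le hlt.le).trans hd27
    obtain ⟨j, hj, hj'⟩ := (Nat.dvd_prime_pow Nat.prime_three).1 hZd
    have hne27 : Nat.card D ≠ 27 := fun e => hPQ (by
      apply Sylow.ext
      have h1 := Subgroup.eq_of_le_of_card_ge (inf_le_left : D ≤ (P : Subgroup G)) (by rw [(harith P).1, e])
      have h2 := Subgroup.eq_of_le_of_card_ge (inf_le_right : D ≤ (Q : Subgroup G)) (by rw [(harith Q).1, e])
      exact h1.symm.trans h2)
    rw [hi'] at hne27 hZD ⊢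
    rw [hj'] at hZD hZ1
    interval_cases i <;> interval_cases j <;> omega
  have hnorm : ∀ R : Sylow 3 G, D ≤ R → (R : Subgroup G) ≤ Subgroup.normalizer (D : Set G) := by
    intro R hR
    refine (Subgroup.normal_subgroupOf_iff_le_normalizer hR).1 (Subgroup.normal_of_index_eq_minFac_card ?_)
    have h1 := (D.subgroupOf (R : Subgroup G)).card_mul_index
    rw [Nat.card_congr (Subgroup.subgroupOfEquivOfLe hR).toEquiv, hD9, (harith R).1] at h1
    rw [(harith R).1, show (27 : ℕ) = 3 ^ 3 from rfl, Nat.pow_minFac (by norm_num), Nat.prime_three.minFac_eq]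
    omega
  rcases hover P _ (hnorm P inf_le_left) with e | e
  · exact hPQ (Sylow.ext (Subgroup.eq_of_le_of_card_ge (e ▸ hnorm Q inf_le_right)
      (by rw [(harith P).1, (harith Q).1])).symm)
  · rcases (Subgroup.normalizer_eq_top_iff.1 e).eq_bot_or_eq_top with hb | hb
    · rw [hb, Subgroup.card_bot] at hD9; omega
    · exact hPne (top_le_iff.1 (hb ▸ inf_le_left))

omit hp in
theorem ne_1080 (hG : ¬ IsMulCommutative G) : Nat.card G ≠ 1080 := by
  classical
  intro h
  haveI : Fact (Nat.Prime 5) := ⟨by norm_num⟩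
  haveI : Fact (Nat.Prime 3) := ⟨Nat.prime_three⟩
  obtain ⟨P⟩ := (inferInstance : Nonempty (Sylow 5 G))
  obtain ⟨hP, -, hd, hm⟩ := sylow_arith P (a := 1) (m := 216) (by rw [h]; norm_num) (by norm_num)
  rw [pow_one] at hP
  have hn : Nat.card (Sylow 5 G) = 36 := by
    rcases (by decide +kernel : ∀ s ∈ Nat.divisors 216, s % 5 = 1 → s ≠ 1 → s = 6 ∨ s = 36 ∨ s = 216) _
        (Nat.mem_divisors.2 ⟨hd, by norm_num⟩) hm (card_sylow_ne_one hG (by rw [h]; norm_num)) with hn | hn | hn
    · have := two_mul_card_dvd_factorial_sylow (p := 5) hG (by rw [h]; norm_num)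
      rw [h, hn] at this
      exact absurd this (by decide +kernel)
    · exact hn
    · exact (false_of_prime_card_sylow hG P hP hn (by norm_num) (r := 1) (by rw [h]) (by norm_num)).elim
  obtain ⟨c, e, hC, hce, he, he1, -⟩ := cent_data hG P hP hn (r := 6) (by rw [h])
  have he4 := Nat.le_of_dvd (by norm_num) he
  have hc3 : 3 ∣ c := by interval_cases e <;> omega
  obtain ⟨x, y, hx, -, hy, hxy⟩ := exists_commuting P hP (q := 3) (hC ▸ hc3.mul_left 5)
  obtain ⟨Q⟩ := (inferInstance : Nonempty (Sylow 3 G))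
  obtain ⟨-, -, hd3, hm3⟩ := sylow_arith Q (a := 3) (m := 40) (by rw [h]; norm_num) (by norm_num)
  have hfac : ∀ H : Subgroup G, H ≠ ⊤ → H.index ∣ 10 → H.index = 10 := by
    intro H hH hdvd
    have := two_mul_card_dvd_factorial hG H hH
    rw [h] at this
    exact (by decide +kernel : ∀ i ∈ Nat.divisors 10, 2 * 1080 ∣ i.factorial → i = 10) _
      (Nat.mem_divisors.2 ⟨hdvd, by norm_num⟩) this
  obtain ⟨H, hH, hHi⟩ : ∃ H : Subgroup G, H ≠ ⊤ ∧ H.index = 10 := by
    rcases (by decide +kernel : ∀ s ∈ Nat.divisors 40, s % 3 = 1 → s ≠ 1 → s = 4 ∨ s = 10 ∨ s = 40) _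
        (Nat.mem_divisors.2 ⟨hd3, by norm_num⟩) hm3 (card_sylow_ne_one hG (by rw [h]; norm_num)) with hn | hn | hn
    · have := two_mul_card_dvd_factorial_sylow (p := 3) hG (by rw [h]; norm_num)
      rw [h, hn] at this
      exact absurd this (by decide +kernel)
    · exact ⟨_, normalizer_ne_top hG (by rw [h]; norm_num) Q, Q.card_eq_index_normalizer.symm.trans hn⟩
    · obtain ⟨K, hK, s, hs1, hsp, hsd⟩ := exists_index_of_sylow_inf (p := 3) (a := 3) (m := 40)
        (by rw [h]; norm_num) (by norm_num) (by norm_num) (by rw [hn]; norm_num)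
      refine ⟨K, hK, hfac K hK ?_⟩
      have hs4 := (by decide +kernel : ∀ s ∈ Nat.divisors 40, s % 3 = 1 → s ≠ 1 → s = 4 ∨ s = 10 ∨ s = 40) _
        (Nat.mem_divisors.2 ⟨(dvd_mul_right _ _).trans hsd, by norm_num⟩) hsp hs1
      rcases hs4 with e | e | e <;> subst e
      · exact Nat.dvd_of_mul_dvd_mul_left (by norm_num : 0 < 4) hsd
      · have hd4 : K.index ∣ 4 := Nat.dvd_of_mul_dvd_mul_left (by norm_num : 0 < 10) hsd
        have := two_mul_card_dvd_factorial hG K hK
        rw [h] at this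
        exact absurd this ((by decide +kernel : ∀ i ∈ Nat.divisors 4, ¬ 2 * 1080 ∣ i.factorial) _
          (Nat.mem_divisors.2 ⟨hd4, by norm_num⟩))
      · exact (Nat.dvd_of_mul_dvd_mul_left (by norm_num : 0 < 40) (hsd : 40 * K.index ∣ 40 * 1)).trans
          (one_dvd _)
  haveI : Fintype (G ⧸ H) := Fintype.ofFinite _
  set f := MulAction.toPermHom G (G ⧸ H) with hf
  have hinj : Function.Injective f := toPermHom_injective hH
  have hox : orderOf (f x) = 5 := by rw [orderOf_injective f hinj, hx]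
  have hoy : orderOf (f y) = 3 := by rw [orderOf_injective f hinj, hy]
  have hcard : Fintype.card (G ⧸ H) = 10 := by rw [← Nat.card_eq_fintype_card, ← Subgroup.index_eq_card, hHi]
  obtain ⟨k, hk⟩ := Equiv.Perm.cycleType_prime_order (σ := f x) (by rw [hox]; norm_num)
  rw [hox] at hk
  have hsupp : (f x).support = Finset.univ := by
    refine Finset.eq_univ_of_forall fun a => Equiv.Perm.mem_support.2 fun ha => ?_
    obtain ⟨g, rfl⟩ := QuotientGroup.mk_surjective a
    have ha' : ((x * g : G) : G ⧸ H) = (g : G ⧸ H) := ha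
    have hmem : g⁻¹ * x * g ∈ H := by
      have h1 := H.inv_mem (QuotientGroup.eq.mp ha')
      simpa [mul_assoc] using h1
    have h5 := Subgroup.orderOf_dvd_natCard _ hmem
    rw [show orderOf (g⁻¹ * x * g) = 5 by
      rw [← hx]; simpa using MulEquiv.orderOf_eq (MulAut.conj g⁻¹) x] at h5
    have h2 := H.card_mul_index
    rw [hHi, h] at h2
    omega
  have hsum := Equiv.Perm.sum_cycleType (f x)
  rw [hk, Multiset.sum_replicate, hsupp, Finset.card_univ, hcard, smul_eq_mul] at hsum
  have hk1 : k = 1 := by omega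
  have hC' := Equiv.Perm.nat_card_centralizer (g := f x)
  rw [hk, hk1, Multiset.sum_replicate, Multiset.prod_replicate, hcard, smul_eq_mul] at hC'
  have hyC : f y ∈ Subgroup.centralizer {f x} := Subgroup.mem_centralizer_singleton_iff.2 (hxy.map f).symm
  have h3 := Subgroup.orderOf_dvd_natCard _ hyC
  rw [hoy, hC', Multiset.toFinset_replicate, if_neg (by norm_num), Finset.prod_singleton,
    Multiset.count_replicate_self] at h3
  revert h3
  decide +kernel

end Cfsg.Agent.Screen.Thousand
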