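import Cfsg.Agent.SmallOrder.SelfCentInvolution
import Cfsg.Agent.Chars.SelfCentralising
import Cfsg.Agent.Screen.ThousandCases
import Mathlib

/-! # No simple group of order 720 -/

set_option autoImplicit false

open scoped ComplexConjugate

namespace Cfsg.Agent.Screen.Thousand

open Cfsg Cfsg.Agent Cfsg.Agent.SmallOrder Cfsg.Agent.SmallOrder.SelfCentDeg

section Count

open scoped Classical

universe u

variable {G : Type u} [Group G] [Fintype G] {p : ℕ} [hp : Fact p.Prime] {x : G}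

/-- The counting for an inverting involution: `M` is the order of its centralizer. -/
theorem involution_count_odd (hx : orderOf x = p) (hC : Subgroup.centralizer ({x} : Set G) = Subgroup.zpowers x)
    (hp3 : 3 ≤ p) {t : G} (ht : orderOf t = 2) (hinv : t * x * t⁻¹ = x⁻¹) (i : ZMod p) (hi : i ≠ 0) :
    Nat.card {y // y ∈ (OddChar.clOf t).image (t * ·) ∧ IsConj y (x ^ i.val)} =
      Nat.card (Subgroup.centralizer ({t} : Set G)) := by
  classical
  have h2 : t * t = 1 := by rw [← sq, ← ht]; exact pow_orderOf_eq_one t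
  have hti : t⁻¹ = t := inv_eq_of_mul_eq_one_right h2
  set J := OddChar.clOf t with hJ
  symm
  have hmem : ∀ g : G, g ∈ Subgroup.centralizer ({t} : Set G) → g * x ^ i.val * g⁻¹ ∈ J.image (t * ·) ∧
      IsConj (g * x ^ i.val * g⁻¹) (x ^ i.val) := by
    intro g hg
    refine ⟨Finset.mem_image.2 ⟨t * (g * x ^ i.val * g⁻¹), OddChar.mem_clOf.2 ?_, by rw [← mul_assoc, h2, one_mul]⟩,
      (isConj_iff.2 ⟨g, rfl⟩).symm⟩
    -- `t` is conjugate to `t * x^i` under a power of `x`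
    set j : ℕ := (-(i * (2 : ZMod p)⁻¹)).val with hj
    refine isConj_iff.2 ⟨g * x ^ j, ?_⟩
    have hgc : g⁻¹ * t * g = t := by
      rw [mul_assoc, ← Subgroup.mem_centralizer_singleton_iff.1 hg, ← mul_assoc, inv_mul_cancel, one_mul]
    have e1 : x ^ j * t * (x ^ j)⁻¹ = t * ((x ^ j)⁻¹ * (x ^ j)⁻¹) := by
      have := inverts_pow t hinv j
      calc x ^ j * t * (x ^ j)⁻¹ = t * (t⁻¹ * x ^ j * t) * (x ^ j)⁻¹ := by group
        _ = _ := by rw [hti]; rw [hti] at this; rw [this, mul_assoc]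
    have e2 : (x ^ j)⁻¹ * (x ^ j)⁻¹ = x ^ i.val := by
      rw [← mul_inv_rev, ← pow_add]
      refine inv_eq_of_mul_eq_one_right ?_
      rw [← pow_add, ← orderOf_dvd_iff_pow_eq_one, hx, ← ZMod.natCast_eq_zero_iff]
      push_cast
      rw [hj, ZMod.natCast_zmod_val, ZMod.natCast_zmod_val]
      have h20 : (2 : ZMod p) ≠ 0 := by
        intro h
        have := (ZMod.natCast_eq_zero_iff 2 p).1 (by exact_mod_cast h)
        have := Nat.le_of_dvd (by norm_num) this
        omega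
      calc -(i * (2 : ZMod p)⁻¹) + -(i * (2 : ZMod p)⁻¹) + i = i - i * ((2 : ZMod p) * (2 : ZMod p)⁻¹) := by ring
        _ = 0 := by rw [mul_inv_cancel₀ h20, mul_one, sub_self]
    calc g * x ^ j * t * (g * x ^ j)⁻¹ = g * (x ^ j * t * (x ^ j)⁻¹) * g⁻¹ := by group
      _ = g * (t * x ^ i.val) * g⁻¹ := by rw [e1, e2]
      _ = g * t * g⁻¹ * (g * x ^ i.val * g⁻¹) := by group
      _ = t * (g * x ^ i.val * g⁻¹) := by
          rw [Subgroup.mem_centralizer_singleton_iff.1 hg, mul_inv_cancel_right]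
  refine Nat.card_eq_of_bijective
    (fun g : Subgroup.centralizer ({t} : Set G) => (⟨(g : G) * x ^ i.val * (g : G)⁻¹, hmem g g.2⟩ :
      {y // y ∈ J.image (t * ·) ∧ IsConj y (x ^ i.val)})) ⟨?_, ?_⟩
  · intro g g' h
    have e := congrArg Subtype.val h
    simp only at e
    have hcx : ((g' : G)⁻¹ * (g : G)) ∈ Subgroup.centralizer ({x ^ i.val} : Set G) := by
      rw [Subgroup.mem_centralizer_singleton_iff]
      calc (g' : G)⁻¹ * g * x ^ i.val = (g' : G)⁻¹ * ((g : G) * x ^ i.val * (g : G)⁻¹) * g := by group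
        _ = _ := by rw [e]; group
    have hct : ((g' : G)⁻¹ * (g : G)) ∈ Subgroup.centralizer ({t} : Set G) := mul_mem (inv_mem g'.2) g.2
    have hd1 := Subgroup.orderOf_dvd_natCard _ hcx
    rw [centralizer_pow hx hC hi] at hd1
    rcases hp.out.eq_one_or_self_of_dvd _ hd1 with h' | h'
    · rw [orderOf_eq_one_iff] at h'
      exact Subtype.ext (eq_of_inv_mul_eq_one h').symm
    exfalso
    have hle : Subgroup.centralizer ({x} : Set G) ≤ Subgroup.centralizer ({x ^ i.val} : Set G) := fun y hy =>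
      Subgroup.mem_centralizer_singleton_iff.2 (Commute.pow_right (Subgroup.mem_centralizer_singleton_iff.1 hy) _)
    have heq : Subgroup.zpowers ((g' : G)⁻¹ * g) = Subgroup.centralizer ({x ^ i.val} : Set G) :=
      Subgroup.eq_of_le_of_card_ge (Subgroup.zpowers_le.2 hcx) (by rw [Nat.card_zpowers, h', centralizer_pow hx hC hi])
    have hxg : x ∈ Subgroup.centralizer ({t} : Set G) := by
      have hx' : x ∈ Subgroup.zpowers ((g' : G)⁻¹ * g) := by
        rw [heq]; exact hle (Subgroup.mem_centralizer_singleton_iff.2 rfl)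
      exact Subgroup.zpowers_le.2 hct hx'
    have : x⁻¹ = x := by
      rw [← hinv, ← Subgroup.mem_centralizer_singleton_iff.1 hxg, mul_inv_cancel_right]
    have hsq : x ^ 2 = 1 := by rw [sq]; nth_rw 1 [← this]; rw [inv_mul_cancel]
    have := Nat.le_of_dvd (by norm_num) (hx ▸ orderOf_dvd_of_pow_eq_one hsq)
    omega
  · rintro ⟨z, hz, hzc⟩
    obtain ⟨y, hy, rfl⟩ := Finset.mem_image.1 hz
    obtain ⟨h, hh⟩ := isConj_iff.1 hzc.symm
    obtain ⟨w, hw⟩ := isConj_iff.1 (OddChar.mem_clOf.1 hy)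
    have hy2 : y * y = 1 := by
      rw [← hw, show w * t * w⁻¹ * (w * t * w⁻¹) = w * (t * t) * w⁻¹ by group, h2]; group
    -- `h⁻¹ t h` inverts `x`
    have hinv' : (h⁻¹ * t * h) * x * (h⁻¹ * t * h)⁻¹ = x⁻¹ := by
      have e0 : (h⁻¹ * t * h) * x ^ i.val * (h⁻¹ * t * h)⁻¹ = (x ^ i.val)⁻¹ := by
        rw [show (h⁻¹ * t * h) * x ^ i.val * (h⁻¹ * t * h)⁻¹ = h⁻¹ * (t * (h * x ^ i.val * h⁻¹) * t⁻¹) * h by group,
          hh, show t * (t * y) * t⁻¹ = (t * t) * y * t⁻¹ by group, h2, one_mul]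
        rw [show (x ^ i.val)⁻¹ = h⁻¹ * (h * x ^ i.val * h⁻¹)⁻¹ * h by group, hh, mul_inv_rev,
          inv_eq_of_mul_eq_one_right hy2]
      have e1 := congrArg (· ^ i⁻¹.val) e0
      simp only [inv_pow, conj_pow, pow_val_mul hx, mul_inv_cancel₀ hi, pow_val_one hx] at e1
      exact e1
    have hmem' : t⁻¹ * (h⁻¹ * t * h) ∈ Subgroup.centralizer ({x} : Set G) := by
      rw [Subgroup.mem_centralizer_singleton_iff]
      calc t⁻¹ * (h⁻¹ * t * h) * x = t⁻¹ * ((h⁻¹ * t * h) * x * (h⁻¹ * t * h)⁻¹) * (h⁻¹ * t * h) := by group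
        _ = t⁻¹ * (t * x * t⁻¹) * (h⁻¹ * t * h) := by rw [hinv', hinv]
        _ = _ := by group
    rw [hC] at hmem'
    obtain ⟨a, ha⟩ := (Submonoid.mem_powers_iff _ _).1 (mem_powers_iff_mem_zpowers.2 hmem')
    set j : ℕ := ((a : ZMod p) * (2 : ZMod p)⁻¹).val with hj
    have e2 : x ^ j * x ^ j = x ^ a := by
      rw [← pow_add, pow_eq_pow_iff_modEq, hx, ← ZMod.natCast_eq_natCast_iff]
      push_cast
      rw [hj, ZMod.natCast_zmod_val]
      have h20 : (2 : ZMod p) ≠ 0 := by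
        intro h
        have := (ZMod.natCast_eq_zero_iff 2 p).1 (by exact_mod_cast h)
        have := Nat.le_of_dvd (by norm_num) this
        omega
      calc (a : ZMod p) * (2 : ZMod p)⁻¹ + (a : ZMod p) * (2 : ZMod p)⁻¹ =
          (a : ZMod p) * ((2 : ZMod p) * (2 : ZMod p)⁻¹) := by ring
        _ = a := by rw [mul_inv_cancel₀ h20, mul_one]
    have e3 : h⁻¹ * t * h = (x ^ j)⁻¹ * t * x ^ j := by
      have e4 : (x ^ j)⁻¹ * t = t * x ^ j := by
        rw [← inverts_pow t hinv j]; group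
      rw [e4, mul_assoc t, e2, ha, mul_inv_cancel_left]
    refine ⟨⟨h * (x ^ j)⁻¹, Subgroup.mem_centralizer_singleton_iff.2 ?_⟩, Subtype.ext ?_⟩
    · calc h * (x ^ j)⁻¹ * t = h * ((x ^ j)⁻¹ * t * x ^ j) * (x ^ j)⁻¹ := by group
        _ = _ := by rw [← e3]; group
    · show h * (x ^ j)⁻¹ * x ^ i.val * (h * (x ^ j)⁻¹)⁻¹ = t * y
      rw [← hh, show h * (x ^ j)⁻¹ * x ^ i.val * (h * (x ^ j)⁻¹)⁻¹ = h * ((x ^ j)⁻¹ * x ^ i.val * x ^ j) * h⁻¹ by group,
        mul_assoc (x ^ j)⁻¹, (Commute.pow_pow_self x i.val j).eq, inv_mul_cancel_left]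

end Count

theorem one_ne_zero_five : (1 : ZMod 5) ≠ 0 := by decide

/-- The possible degrees. -/
def dl : List ℕ := [4, 6, 9, 16, 24]

/-- The sign attached to a degree. -/
def sg (d : ℕ) : ℤ := if d % 5 = 4 then 1 else -1

/-- The divisors of 720. -/
def cl : List ℕ := [1, 2, 3, 4, 5, 6, 8, 9, 10, 12, 15, 16, 18, 20, 24, 30, 36, 40, 45, 48, 60, 72, 80, 90, 120, 144,
  180, 240, 360, 720]

/-- The values at an involution compatible with a degree. -/
def vl (d : ℕ) : List ℤ := (List.range (d / 2 + 1)).map fun k : ℕ => (d : ℤ) - 4 * (k : ℤ)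

/-- The arithmetic test. -/
def okB (d₁ d₂ d₃ d₄ : ℕ) : Bool :=
  decide (-1 + (sg d₁ * d₁ + sg d₂ * d₂ + sg d₃ * d₃ + sg d₄ * d₄) ≠ 0) ||
  decide (720 < 1 + (d₁ * d₁ + d₂ * d₂ + d₃ * d₃ + d₄ * d₄)) ||
  (vl d₁).all fun a₁ => (vl d₂).all fun a₂ => (vl d₃).all fun a₃ => (vl d₄).all fun a₄ =>
    decide (-1 + (sg d₁ * a₁ + sg d₂ * a₂ + sg d₃ * a₃ + sg d₄ * a₄) ≠ 0) ||
    cl.all fun c => decide ((c : ℤ) < 1 + (a₁ * a₁ + a₂ * a₂ + a₃ * a₃ + a₄ * a₄)) ||
      decide (720 * (-(d₁ * d₂ * d₃ * d₄ : ℤ) + (sg d₁ * a₁ * a₁ * (d₂ * d₃ * d₄) + sg d₂ * a₂ * a₂ * (d₁ * d₃ * d₄)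
        + sg d₃ * a₃ * a₃ * (d₁ * d₂ * d₄) + sg d₄ * a₄ * a₄ * (d₁ * d₂ * d₃))) ≠ -5 * c * c * (d₁ * d₂ * d₃ * d₄))

theorem deg_mem_one : ∀ n : ℕ, n < 27 → 2 ≤ n → n ∣ 720 → n % 5 = 1 → n ∈ dl := by
  have h : ((List.range 27).all fun n => decide (n < 2) || decide (720 % n ≠ 0) || decide (n % 5 ≠ 1) || decide (n ∈ dl)) = true := by
    decide +kernel
  simp only [List.all_eq_true, List.mem_range, Bool.or_eq_true, decide_eq_true_eq] at h
  intro n hn h2 hd hm
  rcases h n hn with ((e | e) | e) | e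
  · omega
  · exact absurd (Nat.mod_eq_zero_of_dvd hd) e
  · exact absurd hm e
  · exact e

theorem deg_mem_four : ∀ n : ℕ, n < 27 → 2 ≤ n → n ∣ 720 → n % 5 = 4 → n ∈ dl := by
  have h : ((List.range 27).all fun n => decide (n < 2) || decide (720 % n ≠ 0) || decide (n % 5 ≠ 4) || decide (n ∈ dl)) = true := by
    decide +kernel
  simp only [List.all_eq_true, List.mem_range, Bool.or_eq_true, decide_eq_true_eq] at h
  intro n hn h2 hd hm
  rcases h n hn with ((e | e) | e) | e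
  · omega
  · exact absurd (Nat.mod_eq_zero_of_dvd hd) e
  · exact absurd hm e
  · exact e

theorem divisor_mem : ∀ n ≤ 720, n ∣ 720 → n ∈ cl := by decide +kernel

theorem okB_all : (dl.all fun a => dl.all fun b => dl.all fun c => dl.all fun d => okB a b c d) = true := by
  decide +kernel

variable {G : Type*} [Group G] [Finite G] [IsSimpleGroup G]

theorem ne_720_selfcent [Fintype G] [Fact (Nat.Prime 5)] (hG : ¬ IsMulCommutative G) (h : Nat.card G = 720) {x : G}
    (hx : orderOf x = 5) (hC : Subgroup.centralizer ({x} : Set G) = Subgroup.zpowers x)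
    (he : (expSet 5 x).card = 4) {t : G} (ht : orderOf t = 2) (hinv : t * x * t⁻¹ = x⁻¹) : False := by
  have hone : (1 : ZMod 5) ≠ 0 := one_ne_zero_five
  classical
  have hE : expSet 5 x = Finset.univ.erase 0 := Finset.eq_of_subset_of_card_le
    (fun r hr => Finset.mem_erase.2 ⟨ne_zero_of_mem hx hr, Finset.mem_univ _⟩)
    (by rw [he, Finset.card_erase_of_mem (Finset.mem_univ _), Finset.card_univ, ZMod.card])
  obtain ⟨d, χ₀, D, hD, hD0, hD1, hd0, hdz, hm, hsq, hdeg, hD2, hχ₀, hY⟩ := exists_table hx hC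
  have hval : ∀ k l : ZMod 5, k ≠ 0 → l ≠ 0 → ∑ χ, d χ k * d χ l = 5 := by
    intro k l hk hl
    have hex : ∃ r ∈ expSet 5 x, k = l * r :=
      ⟨k * l⁻¹, by rw [hE]; exact Finset.mem_erase.2 ⟨mul_ne_zero hk (inv_ne_zero hl), Finset.mem_univ _⟩,
        by rw [mul_comm k, mul_inv_cancel_left₀ hl]⟩
    rw [hsq k l hk hl, he, if_pos hex]
    rfl
  set c : IrrCharacter G → ℤ := fun χ => d χ 1 with hc
  have hconst : ∀ χ, ∀ k : ZMod 5, k ≠ 0 → d χ k = c χ := by
    intro χ k hk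
    have h0 : ∑ ψ, (d ψ k - d ψ 1) ^ 2 = 0 := by
      have e : ∀ ψ, (d ψ k - d ψ 1) ^ 2 = d ψ k * d ψ k - (d ψ k * d ψ 1 + d ψ k * d ψ 1) + d ψ 1 * d ψ 1 :=
        fun ψ => by ring
      simp only [e, Finset.sum_add_distrib, Finset.sum_sub_distrib, hval k k hk hk, hval k 1 hk hone,
        hval 1 1 hone hone]
      norm_num
    have := (Finset.sum_eq_zero_iff_of_nonneg fun ψ _ => sq_nonneg _).1 h0 χ (Finset.mem_univ _)
    exact sub_eq_zero.1 ((pow_eq_zero_iff two_ne_zero).1 this)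
  have hsum : ∀ χ, ∑ k, d χ k = 4 * c χ := by
    intro χ
    rw [← Finset.add_sum_erase _ _ (Finset.mem_univ (0 : ZMod 5)), hdz χ, zero_add,
      Finset.sum_congr rfl (fun k hk => hconst χ k (Finset.ne_of_mem_erase hk)), Finset.sum_const,
      Finset.card_erase_of_mem (Finset.mem_univ _), Finset.card_univ, ZMod.card, nsmul_eq_mul]
    rfl
  have hc0 : c χ₀ = -1 := hd0 1 hone
  set T := (Finset.univ.erase χ₀).filter (fun χ => c χ ≠ 0) with hT
  have hsplit : ∀ F : IrrCharacter G → ℤ, (∀ χ, c χ = 0 → F χ = 0) → ∑ χ, F χ = F χ₀ + ∑ χ ∈ T, F χ := by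
    intro F hF
    rw [← Finset.add_sum_erase _ _ (Finset.mem_univ χ₀), hT, Finset.sum_filter_of_ne]
    intro χ _ hne hcz
    exact hne (hF χ hcz)
  have hT4 : ∑ χ ∈ T, c χ * c χ = 4 := by
    have h1 : ∑ χ, c χ * c χ = c χ₀ * c χ₀ + ∑ χ ∈ T, c χ * c χ :=
      hsplit _ (fun χ hz => by rw [hz, mul_zero])
    have h2 : ∑ χ, c χ * c χ = 5 := hval 1 1 hone hone
    rw [hc0] at h1
    omega
  have hTD : ∑ χ ∈ T, (D χ : ℤ) * c χ = 1 := by
    have h1 : ∑ χ, (D χ : ℤ) * c χ = (D χ₀ : ℤ) * c χ₀ + ∑ χ ∈ T, (D χ : ℤ) * c χ :=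
      hsplit _ (fun χ hz => by rw [hz, mul_zero])
    have h2 : ∑ χ, (D χ : ℤ) * c χ = 0 := hdeg 1 hone
    rw [hc0, hD0] at h1
    omega
  have hD2' : ∀ χ ∈ T, 2 ≤ D χ := by
    intro χ hχ
    have h1 := hD1 (commutator_eq_top hG) χ
    have h2 := (hD χ).2.1
    have h3 := (Finset.mem_erase.1 (Finset.mem_filter.1 hχ).1).1
    by_contra hlt
    exact h3 (h1 (by omega))
  have hunit : ∀ χ ∈ T, c χ = 1 ∨ c χ = -1 := by
    intro χ hχ
    have hne : c χ ≠ 0 := (Finset.mem_filter.1 hχ).2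
    by_contra hcon
    obtain ⟨hn1, hn2⟩ := not_or.1 hcon
    have h4 : 4 ≤ c χ * c χ := by
      rcases lt_or_gt_of_ne hne with h0 | h0
      · have : c χ ≤ -2 := by omega
        nlinarith
      · have : 2 ≤ c χ := by omega
        nlinarith
    have hTsing : T = {χ} := by
      refine Finset.eq_singleton_iff_unique_mem.2 ⟨hχ, fun ψ hψ => ?_⟩
      by_contra hψχ
      have h1 : c χ * c χ + c ψ * c ψ ≤ ∑ ξ ∈ T, c ξ * c ξ := by
        rw [← Finset.sum_pair (Ne.symm hψχ) (f := fun ξ => c ξ * c ξ)]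
        exact Finset.sum_le_sum_of_subset_of_nonneg (by
          intro a ha; rcases Finset.mem_insert.1 ha with rfl | ha; exact hχ; rwa [Finset.mem_singleton.1 ha])
          fun ξ _ _ => mul_self_nonneg _
      have := mul_self_pos.2 (Finset.mem_filter.1 hψ).2
      linarith
    rw [hTsing, Finset.sum_singleton] at hTD
    rcases Int.eq_one_or_neg_one_of_mul_eq_one hTD with h | h
    · have := hD2' χ hχ; omega
    · have := hD2' χ hχ; omega
  have hcard : T.card = 4 := by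
    have : ∑ χ ∈ T, c χ * c χ = ∑ χ ∈ T, (1 : ℤ) := Finset.sum_congr rfl fun χ hχ => by
      rcases hunit χ hχ with e | e <;> rw [e] <;> norm_num
    rw [this, Finset.sum_const, nsmul_eq_mul, mul_one] at hT4
    exact_mod_cast hT4
  -- the values at the involution
  have hna : ¬ ∀ a b : G, a * b = b * a := fun hh => hG ⟨⟨hh⟩⟩
  have hva : ∀ χ : IrrCharacter G, ∃ v : ℤ, v ∈ vl (D χ) ∧ (χ : G → ℂ) t = v := by
    intro χ
    obtain ⟨k, hk, hv⟩ := Chars.SelfCentralising.apply_involution hna χ (by rw [← ht]; exact pow_orderOf_eq_one t)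
    have hcd : charDegree (χ : G → ℂ) = D χ := by
      have := (Blocks.charDegree_eq χ.2).1
      rw [(hD χ).1] at this
      exact_mod_cast this.symm
    rw [hcd] at hk hv
    refine ⟨(D χ : ℤ) - 4 * k, List.mem_map.2 ⟨k, List.mem_range.2 (show k < D χ / 2 + 1 by omega), rfl⟩, ?_⟩
    rw [hv]; push_cast; ring
  choose v hv hvt using hva
  have hv0 : v χ₀ = 1 := by
    have := hvt χ₀
    rw [hχ₀] at this
    exact_mod_cast this.symm
  have hxi : ∀ i : ZMod 5, i ≠ 0 → orderOf (x ^ i.val) = 5 := fun i hi => by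
    rw [Nat.Coprime.orderOf_pow, hx]
    rw [hx, (Fact.out : (5 : ℕ).Prime).coprime_iff_not_dvd]
    exact fun hd => hi ((ZMod.val_eq_zero i).1 (Nat.eq_zero_of_dvd_of_lt hd (ZMod.val_lt i)))
  have hTv : ∑ χ ∈ T, v χ * c χ = 1 := by
    have h1 := hY {t} 0 (fun i hi => by
      rw [Nat.card_eq_zero]
      left
      refine ⟨fun ⟨y, hy, hyc⟩ => ?_⟩
      rw [Finset.mem_singleton] at hy
      obtain ⟨g, hg⟩ := isConj_iff.1 hyc
      have := MulEquiv.orderOf_eq (MulAut.conj g) y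
      rw [MulAut.conj_apply, hg, hxi i hi, hy, ht] at this
      omega) 1 hone
    simp only [Finset.sum_singleton, hvt, Nat.cast_zero, mul_zero, neg_zero] at h1
    have h2 : ∑ χ, v χ * c χ = 0 := by exact_mod_cast h1
    have h3 : ∑ χ, v χ * c χ = v χ₀ * c χ₀ + ∑ χ ∈ T, v χ * c χ := hsplit _ (fun χ hz => by rw [hz, mul_zero])
    rw [hc0, hv0] at h3
    omega
  set J := OddChar.clOf t with hJ
  set cc := Nat.card (Subgroup.centralizer ({t} : Set G)) with hcc
  have hJc : (J.card : ℤ) * cc = 720 := by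
    rw [hJ, OddChar.card_clOf, hcc]
    exact_mod_cast (Subgroup.index_mul_card _).trans h
  have hS : (J.card : ℂ) * (∑ χ : IrrCharacter G, (v χ : ℂ) * v χ * c χ / D χ) = -(5 * (cc : ℂ)) := by
    have h3 := hY (J.image (t * ·)) cc (fun i hi => involution_count_odd hx hC (by norm_num) ht hinv i hi) 1 hone
    rw [Finset.mul_sum]
    rw [Nat.cast_ofNat] at h3
    rw [← h3]
    refine Finset.sum_congr rfl fun χ _ => ?_
    have hsum : ∑ y ∈ J.image (t * ·), (χ : G → ℂ) y = ∑ y ∈ J, (χ : G → ℂ) (t * y) :=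
      Finset.sum_image fun a _ b _ e => mul_left_cancel e
    have hcl := OddChar.irr_class_sum_mul χ.2 t t
    rw [← hJ, ← hsum, (hD χ).1, hvt χ] at hcl
    have hDne : (D χ : ℂ) ≠ 0 := Nat.cast_ne_zero.2 (hD χ).2.1.ne'
    show _ = _ * (c χ : ℂ)
    rw [mul_div_assoc', div_eq_iff hDne]
    linear_combination -(c χ : ℂ) * hcl
  have hcol : 1 + ∑ χ ∈ T, v χ * v χ ≤ (cc : ℤ) := by
    have hcol := Chars.column_orth t t
    rw [if_pos (IsConj.refl t)] at hcol
    have h1 : ∀ χ : IrrCharacter G, (χ : G → ℂ) t * conj ((χ : G → ℂ) t) = ((v χ * v χ : ℤ) : ℂ) := fun χ => by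
      rw [hvt χ, map_intCast]; push_cast; ring
    simp only [h1] at hcol
    have hcol' : ∑ χ, v χ * v χ = (cc : ℤ) := by
      rw [hcc]; exact_mod_cast hcol
    rw [← hcol', ← Finset.add_sum_erase _ _ (Finset.mem_univ χ₀), hv0, one_mul]
    exact (add_le_add_iff_left _).2 (Finset.sum_le_sum_of_subset_of_nonneg (Finset.filter_subset _ _)
      fun ξ _ _ => mul_self_nonneg _)
  have hsqD : 1 + ∑ χ ∈ T, (D χ : ℤ) * D χ ≤ 720 := by
    have h720 : ∑ χ, (D χ : ℤ) ^ 2 = 720 := by rw [hD2, h]; norm_num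
    rw [← h720, ← Finset.add_sum_erase _ _ (Finset.mem_univ χ₀), hD0, Nat.cast_one, one_pow]
    simp only [sq]
    exact (add_le_add_iff_left _).2 (Finset.sum_le_sum_of_subset_of_nonneg (Finset.filter_subset _ _)
      fun ξ _ _ => mul_self_nonneg _)
  obtain ⟨a, b, e, f, hab, hae, haf, hbe, hbf, hef, hTeq⟩ := Finset.card_eq_four.1 hcard
  have hmem : ∀ χ ∈ T, D χ ∈ dl ∧ c χ = sg (D χ) := by
    intro χ hχ
    obtain ⟨m, hm'⟩ := hm χ
    rw [hsum] at hm'
    have hlt : D χ < 27 := by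
      have := Finset.single_le_sum (f := fun ξ => (D ξ : ℤ) * D ξ) (fun ξ _ => mul_self_nonneg _) hχ
      nlinarith [hsqD]
    have hdvd := (hD χ).2.2
    rw [h] at hdvd
    rcases hunit χ hχ with e1 | e1 <;> rw [e1] at hm'
    · have h5 : D χ % 5 = 4 := by omega
      refine ⟨deg_mem_four _ hlt (hD2' χ hχ) hdvd h5, ?_⟩
      rw [e1, sg, if_pos h5]
    · have h5 : D χ % 5 = 1 := by omega
      refine ⟨deg_mem_one _ hlt (hD2' χ hχ) hdvd h5, ?_⟩
      rw [e1, sg, if_neg (by omega)]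
  have hsum4 : ∀ F : IrrCharacter G → ℤ, ∑ χ ∈ T, F χ = F a + F b + F e + F f := by
    intro F
    rw [hTeq, Finset.sum_insert (by simp [hab, hae, haf]), Finset.sum_insert (by simp [hbe, hbf]),
      Finset.sum_pair hef]
    ring
  have hsumC : (∑ χ : IrrCharacter G, (v χ : ℂ) * v χ * c χ / D χ) = -1 + ((v a : ℂ) * v a * c a / D a
      + (v b : ℂ) * v b * c b / D b + (v e : ℂ) * v e * c e / D e + (v f : ℂ) * v f * c f / D f) := by
    rw [← Finset.add_sum_erase _ _ (Finset.mem_univ χ₀),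
      ← Finset.sum_filter_of_ne (p := fun χ => c χ ≠ 0) (fun χ _ hne hz => hne (by simp [hz]))]
    rw [← hT, hTeq, Finset.sum_insert (by simp [hab, hae, haf]), Finset.sum_insert (by simp [hbe, hbf]),
      Finset.sum_pair hef, hc0, hv0, hD0]
    push_cast
    ring
  rw [hsumC] at hS
  have hTa : a ∈ T := by rw [hTeq]; simp
  have hTb : b ∈ T := by rw [hTeq]; simp
  have hTe : e ∈ T := by rw [hTeq]; simp
  have hTf : f ∈ T := by rw [hTeq]; simp
  obtain ⟨la, ca⟩ := hmem a hTa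
  obtain ⟨lb, cb⟩ := hmem b hTb
  obtain ⟨le, ce⟩ := hmem e hTe
  obtain ⟨lf, cf⟩ := hmem f hTf
  rw [hsum4] at hTD hTv hcol hsqD
  have hcl : cc ∈ cl := divisor_mem _
    (Nat.le_of_dvd (by norm_num) (h ▸ Subgroup.card_subgroup_dvd_card _)) (h ▸ Subgroup.card_subgroup_dvd_card _)
  have hall := okB_all
  simp only [List.all_eq_true] at hall
  have hok := hall _ la _ lb _ le _ lf
  simp only [okB, Bool.or_eq_true, decide_eq_true_eq, List.all_eq_true] at hok
  rcases hok with (hok | hok) | hok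
  · exact hok (by rw [← ca, ← cb, ← ce, ← cf]; linarith)
  · have : (720 : ℤ) < 1 + ((D a : ℤ) * D a + D b * D b + D e * D e + D f * D f) := by exact_mod_cast hok
    linarith
  rcases hok _ (hv a) _ (hv b) _ (hv e) _ (hv f) with hok | hok
  · exact hok (by rw [← ca, ← cb, ← ce, ← cf]; linarith)
  rcases hok cc hcl with hok | hok
  · linarith
  apply hok
  rw [← ca, ← cb, ← ce, ← cf]
  have hJc' : (J.card : ℂ) * cc = 720 := by exact_mod_cast hJc
  have hCeq : (720 : ℂ) * (-((D a : ℂ) * D b * D e * D f) + ((c a : ℂ) * v a * v a * (D b * D e * D f)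
      + c b * v b * v b * (D a * D e * D f) + c e * v e * v e * (D a * D b * D f)
      + c f * v f * v f * (D a * D b * D e))) = -5 * cc * cc * (D a * D b * D e * D f) := by
    have hne : ∀ χ, (D χ : ℂ) ≠ 0 := fun χ => Nat.cast_ne_zero.2 (hD χ).2.1.ne'
    have := hne a; have := hne b; have := hne e; have := hne f
    field_simp at hS
    linear_combination (cc : ℂ) * hS - (-((D a : ℂ) * D b * D e * D f) + ((c a : ℂ) * v a * v a * (D b * D e * D f)
      + c b * v b * v b * (D a * D e * D f) + c e * v e * v e * (D a * D b * D f)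
      + c f * v f * v f * (D a * D b * D e))) * hJc'
  exact_mod_cast hCeq

theorem ne_720 (hG : ¬ IsMulCommutative G) : Nat.card G ≠ 720 := by
  intro h
  haveI := Fintype.ofFinite G
  haveI : Fact (Nat.Prime 5) := ⟨by norm_num⟩
  obtain ⟨P⟩ := (inferInstance : Nonempty (Sylow 5 G))
  obtain ⟨hP, -, hd, hm⟩ := sylow_arith P (a := 1) (m := 144) (by rw [h]; norm_num) (by norm_num)
  rw [pow_one] at hP
  rcases (by decide +kernel : ∀ s ∈ Nat.divisors 144, s % 5 = 1 → s ≠ 1 → s = 6 ∨ s = 16 ∨ s = 36) _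
      (Nat.mem_divisors.2 ⟨hd, by norm_num⟩) hm (card_sylow_ne_one hG (by rw [h]; norm_num)) with hn | hn | hn
  · have := two_mul_card_dvd_factorial_sylow (p := 5) hG (by rw [h]; norm_num)
    rw [h, hn] at this
    exact absurd this (by decide +kernel)
  · exact false_of_prime_card_sylow hG P hP hn (by norm_num) (r := 9) (by rw [h]) (by norm_num)
  obtain ⟨c, e, hC, hce, he, he1, hN⟩ := cent_data hG P hP hn (r := 4) (by rw [h])
  have he4 := Nat.le_of_dvd (by norm_num) he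
  obtain hc2 | hc1 : c = 2 ∨ c = 1 := by interval_cases e <;> omega
  · exact false_of_thirtysix hG P hP (Or.inl rfl) hn (by rw [h]) (by rw [hC, hc2]) hN
  rw [hc1, mul_one] at hC
  obtain ⟨x, hx⟩ := exists_prime_orderOf_dvd_card' (G := (P : Subgroup G)) 5 (dvd_of_eq hP.symm)
  rw [← Subgroup.orderOf_coe] at hx
  have hPx : Subgroup.zpowers (x : G) = (P : Subgroup G) :=
    Subgroup.eq_of_le_of_card_ge (Subgroup.zpowers_le.2 x.2) (by rw [Nat.card_zpowers, hx, hP])
  have hCP : Subgroup.centralizer ((P : Subgroup G) : Set G) = P :=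
    (Subgroup.eq_of_le_of_card_ge (by
      haveI : IsCyclic (P : Subgroup G) := isCyclic_of_prime_card hP
      exact Subgroup.le_centralizer _) (by rw [hC, hP])).symm
  have hCx : Subgroup.centralizer ({(x : G)} : Set G) = Subgroup.zpowers (x : G) := by
    rw [hPx]
    conv_rhs => rw [← hCP, ← hPx, Subgroup.zpowers_eq_closure, Subgroup.centralizer_closure]
  have hexp : (expSet 5 (x : G)).card = 4 := by
    have hh := card_normalizer (p := 5) hx hCx
    rw [hPx, hN] at hh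
    omega
  obtain ⟨t, ht⟩ := exists_prime_orderOf_dvd_card' (G := Subgroup.normalizer ((P : Subgroup G) : Set G)) 2
    (by rw [hN]; norm_num)
  rw [← Subgroup.orderOf_coe] at ht
  refine ne_720_selfcent hG h hx hCx hexp ht ?_
  have h2 : (t : G) * t = 1 := by rw [← sq, ← ht]; exact pow_orderOf_eq_one _
  have hti : (t : G)⁻¹ = t := inv_eq_of_mul_eq_one_right h2
  have hmem : (t : G) * x * (t : G)⁻¹ ∈ Subgroup.zpowers (x : G) := by
    rw [hPx]; exact (Subgroup.mem_normalizer_iff.1 t.2 x).1 x.2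
  obtain ⟨n, hn'⟩ := (Submonoid.mem_powers_iff _ _).1 (mem_powers_iff_mem_zpowers.2 hmem)
  have key : (t : G) * ((t : G) * x * (t : G)⁻¹) * (t : G)⁻¹ = x := by
    rw [hti, show (t : G) * (t * x * t) * t = (t * t) * x * (t * t) by group, h2, one_mul, mul_one]
  rw [← hn', ← conj_pow, ← hn', ← pow_mul] at key
  have hmod : (n : ZMod 5) * n = 1 := by
    have h1 : n * n ≡ 1 [MOD orderOf (x : G)] := pow_eq_pow_iff_modEq.1 (by rw [key, pow_one])
    rw [hx, ← ZMod.natCast_eq_natCast_iff] at h1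
    exact_mod_cast h1
  rw [← hn']
  rcases mul_self_eq_one_iff.1 hmod with hh | hh
  · exfalso
    have e1 : (x : G) ^ n = x := by
      conv_rhs => rw [← pow_one (x : G)]
      rw [pow_eq_pow_iff_modEq, hx, ← ZMod.natCast_eq_natCast_iff, hh, Nat.cast_one]
    rw [e1] at hn'
    have hc' : (t : G) ∈ Subgroup.centralizer ({(x : G)} : Set G) :=
      Subgroup.mem_centralizer_singleton_iff.2 (mul_inv_eq_iff_eq_mul.1 hn'.symm)
    rw [hCx] at hc'
    have hd' := Subgroup.orderOf_dvd_natCard _ hc'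
    rw [ht, Nat.card_zpowers, hx] at hd'
    norm_num at hd'
  · refine eq_inv_of_mul_eq_one_left ?_
    rw [← pow_succ, ← orderOf_dvd_iff_pow_eq_one, hx, ← ZMod.natCast_eq_zero_iff]
    rw [Nat.cast_succ, hh, neg_add_cancel]

end Cfsg.Agent.Screen.Thousand
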