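import Cfsg.Agent.Screen.ThousandTools
import Cfsg.Agent.Core.BurnsidePQ
import Cfsg.Agent.S0499
import Mathlib

/-! # The automatic part of the sieve to 1092 -/

set_option autoImplicit false

namespace Cfsg.Agent.Screen.Thousand

open Cfsg.Agent.SmallOrder

/-- Trial division up to 34. -/
def primeB (p : ℕ) : Bool :=
  decide (2 ≤ p) && decide (p < 1156) && (List.range 34).all fun d => decide (d < 2) || decide (p ≤ d) || decide (p % d ≠ 0)

theorem primeB_sound {p : ℕ} (h : primeB p = true) : p.Prime := by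
  simp only [primeB, Bool.and_eq_true, Bool.or_eq_true, decide_eq_true_eq, List.all_eq_true,
    List.mem_range] at h
  obtain ⟨⟨h2, hlt⟩, hd⟩ := h
  by_contra hp
  have hm := Nat.minFac_sq_le_self (by omega) hp
  have hm2 := (Nat.minFac_prime (show p ≠ 1 by omega)).two_le
  have hml : p.minFac < 34 := by nlinarith
  rcases hd _ hml with (h | h) | h
  · omega
  · nlinarith
  · exact h (Nat.mod_eq_zero_of_dvd (Nat.minFac_dvd p))

/-- The least prime factor, by trial division. -/
def lp (n : ℕ) : ℕ := ((List.range 34).find? fun d => decide (2 ≤ d) && decide (n % d = 0)).getD n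

/-- Remove the prime `p`. -/
def strip (n p : ℕ) : ℕ := n / Nat.gcd n (p ^ 11)

/-- The exponent of `p`. -/
def expo (n p : ℕ) : ℕ := ((List.range 11).find? fun a => decide (n % p ^ (a + 1) ≠ 0)).getD 0

/-- `¬ 2n ∣ i!`, decided for small `i`. -/
def notFact (n i : ℕ) : Bool := decide (i < 40) && decide (i.factorial % (2 * n) ≠ 0)

/-- Why `s` cannot be the number of Sylow subgroups. -/
def badS (n p a m s : ℕ) : Bool :=
  notFact n s || (decide (a = 1) && decide (Nat.gcd (m / s) (p - 1) = 1)) ||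
    (decide (5 ≤ s) && decide (s < 40) && decide (s.factorial % (2 * n) = 0) &&
      decide (1 < s.factorial / (2 * n)) && decide (s.factorial / (2 * n) < s)) ||
    (decide (a = 1) && decide (s = p + 1) && decide (p ≠ 2) && decide ((p * (p - 1)) % (2 * (p * (m / s))) ≠ 0)) ||
    (decide (2 ≤ a) && decide (s % p ^ 2 ≠ 1) && (List.range (m + 1)).all fun i =>
      decide (m % i ≠ 0) || decide (i ≤ 1) || notFact n i ||
        (List.range (m / i + 1)).all fun t => decide (t ≤ 1) || decide (t % p ≠ 1) || decide ((m / i) % t ≠ 0))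

/-- The Sylow test at the prime `p`. -/
def sylB (n p : ℕ) : Bool :=
  let a := expo n p
  let m := n / p ^ a
  primeB p && decide (0 < a) && decide (n = p ^ a * m) && decide (m % p ≠ 0) &&
    (List.range (m + 1)).all fun s =>
      decide (m % s ≠ 0) || decide (s ≤ 1) || decide (s % p ≠ 1) || badS n p a m s

/-- The orders left for individual treatment, and those that occur. -/
def rest : List ℕ := [60, 168, 360, 420, 504, 612, 660, 720, 756, 840, 1008, 1040, 1080, 1092]

/-- The complete test. -/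
def check (n : ℕ) : Bool :=
  let p := lp n
  let n1 := strip n p
  let q := if n1 = 1 then p else lp n1
  let n2 := strip n1 q
  let r := if n2 = 1 then p else lp n2
  let n3 := strip n2 r
  let s := if n3 = 1 then p else lp n3
  decide (n ∈ rest) || (primeB p && primeB q && decide ((p ^ 11 * q ^ 11) % n = 0)) ||
    (decide (n % 2 = 0) && decide (n % 12 ≠ 0) && decide (n % 16 ≠ 0) && decide (n % 56 ≠ 0)) ||
    sylB n p || sylB n q || sylB n r || sylB n s

set_option maxRecDepth 4000 in
theorem check_all : ((List.range 1091).all fun k => check (k + 2)) = true := by decide +kernel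

variable {G : Type*} [Group G] [Finite G] [IsSimpleGroup G]

theorem notFact_sound {n i : ℕ} (h : notFact n i = true) : ¬ 2 * n ∣ i.factorial := by
  simp only [notFact, Bool.and_eq_true, decide_eq_true_eq] at h
  exact fun hd => h.2 (Nat.mod_eq_zero_of_dvd hd)

theorem sylB_false (hG : ¬ IsMulCommutative G) {n p : ℕ} (hn : Nat.card G = n) (h : sylB n p = true) : False := by
  simp only [sylB, Bool.and_eq_true, Bool.or_eq_true, decide_eq_true_eq, List.all_eq_true, List.mem_range] at h
  obtain ⟨⟨⟨⟨hp, ha⟩, hnm⟩, hpm⟩, hall⟩ := h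
  set a := expo n p
  set m := n / p ^ a
  haveI : Fact p.Prime := ⟨primeB_sound hp⟩
  have hG' : Nat.card G = p ^ a * m := hn.trans hnm
  have hpm' : ¬ p ∣ m := fun hd => hpm (Nat.mod_eq_zero_of_dvd hd)
  have hd : p ∣ Nat.card G := hG' ▸ dvd_mul_of_dvd_left (dvd_pow_self p ha.ne') m
  have hm0 : m ≠ 0 := fun e => hpm' (e ▸ dvd_zero p)
  obtain ⟨P⟩ := (inferInstance : Nonempty (Sylow p G))
  obtain ⟨hP, -, hsd, hsm⟩ := sylow_arith P hG' hpm'
  have hs1 := card_sylow_ne_one hG hd
  have hs0 : 0 < Nat.card (Sylow p G) := Nat.card_pos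
  obtain ⟨s, hs⟩ : ∃ s, Nat.card (Sylow p G) = s := ⟨_, rfl⟩
  rw [hs] at hsd hsm hs1 hs0
  rcases hall s (Nat.lt_succ_of_le (Nat.le_of_dvd (Nat.pos_of_ne_zero hm0) hsd)) with ((h | h) | h) | h
  · exact h (Nat.mod_eq_zero_of_dvd hsd)
  · omega
  · exact h hsm
  simp only [badS, Bool.and_eq_true, Bool.or_eq_true, decide_eq_true_eq, List.all_eq_true, List.mem_range] at h
  rcases h with (((h | h) | h) | h) | h
  · have := two_mul_card_dvd_factorial_sylow (p := p) hG hd
    rw [hn, hs] at this
    exact notFact_sound h this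
  · obtain ⟨ha1, hg⟩ := h
    rw [ha1, pow_one] at hP hG'
    refine false_of_prime_card_sylow hG P hP hs hs0.ne' (r := m / s) ?_ hg
    rw [hG', mul_assoc, Nat.div_mul_cancel hsd]
  · obtain ⟨⟨⟨⟨h5, -⟩, hdiv⟩, hk1⟩, hkn⟩ := h
    refine false_of_small_index hG _ (normalizer_ne_top hG hd P) (n := s)
      (P.card_eq_index_normalizer.symm.trans hs) h5 ?_ hk1 hkn
    rw [hn]
    exact Nat.mul_div_cancel' (Nat.dvd_of_mod_eq_zero hdiv)
  · obtain ⟨⟨⟨ha1, hsp⟩, hp2⟩, hnd⟩ := h
    rw [ha1, pow_one] at hP hG'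
    refine false_of_succ hG hp2 P hP (hs.trans hsp) (r := m / s) ?_
      (fun hd => hnd (Nat.mod_eq_zero_of_dvd hd))
    rw [← hsp, hG', mul_assoc, Nat.div_mul_cancel hsd]
  · obtain ⟨⟨ha2, hs2⟩, hi⟩ := h
    obtain ⟨K, hK, t, ht1, htp, htd⟩ := exists_index_of_sylow_inf (p := p) hG' hpm' ha2 (by rwa [hs])
    have hKd : K.index ∣ m := (dvd_mul_left _ _).trans htd
    have hKle := Nat.le_of_dvd (Nat.pos_of_ne_zero hm0) hKd
    rcases hi K.index (Nat.lt_succ_of_le hKle) with ((h | h) | h) | h
    · exact h (Nat.mod_eq_zero_of_dvd hKd)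
    · have := K.one_lt_index_of_ne_top hK; omega
    · exact notFact_sound h (hn ▸ two_mul_card_dvd_factorial hG K hK)
    · have htd' : t ∣ m / K.index := Nat.dvd_div_of_mul_dvd (by rwa [mul_comm])
      have hpos : 0 < m / K.index := Nat.div_pos hKle (Nat.pos_of_ne_zero K.index_ne_zero_of_finite)
      rcases h t (Nat.lt_succ_of_le (Nat.le_of_dvd hpos htd')) with (h | h) | h
      · have ht0 : t ≠ 0 := by rintro rfl; simp at htp
        omega
      · exact h htp
      · exact h (Nat.mod_eq_zero_of_dvd htd')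

/-- Every order not exceeding 1092 is among the listed ones. -/
theorem mem_rest (hG : ¬ IsMulCommutative G) (h : Nat.card G ≤ 1092) : Nat.card G ∈ rest := by
  obtain ⟨n, hn⟩ : ∃ n, Nat.card G = n := ⟨_, rfl⟩
  have h2 : 1 < n := hn ▸ Finite.one_lt_card_iff_nontrivial.2 inferInstance
  rw [hn] at h ⊢
  have hc := List.all_eq_true.1 check_all (n - 2) (List.mem_range.2 (by omega))
  rw [show n - 2 + 2 = n by omega] at hc
  simp only [check, Bool.and_eq_true, Bool.or_eq_true, decide_eq_true_eq] at hc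
  rcases hc with (((((h0 | h0) | h0) | h0) | h0) | h0) | h0
  · exact h0
  · obtain ⟨⟨hp, hq⟩, hd⟩ := h0
    refine (hG (IsMulCommutative.of_comm <| IsSimpleGroup.comm_iff_isSolvable.2
      (Core.isSolvable_of_card_dvd_two_primes (a := 11) (b := 11) (primeB_sound hp) (primeB_sound hq) ?_))).elim
    rw [hn]
    exact Nat.dvd_of_mod_eq_zero hd
  · rcases S0499.result hG (by rw [hn, Nat.even_iff]; exact h0.1.1.1) with h' | h' | h' <;>
      rw [hn] at h' <;> omega
  all_goals exact (sylB_false hG hn h0).elim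

end Cfsg.Agent.Screen.Thousand
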