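import Cfsg.Agent.S1781
import Mathlib.GroupTheory.Nilpotent

/-!
Abelian trivial-intersection 2-subgroups which are not elementary: inside a 2-group the conjugates
commute.
-/

set_option autoImplicit false

namespace Cfsg.Agent.Screen.AbelianTI

open Subgroup
open scoped commutatorElement

variable {G : Type*} [Group G] [Finite G]

/-- The TI property. -/
def IsTI (A : Subgroup G) : Prop :=
  ∀ h : G, A.map (MulAut.conj h).toMonoidHom = A ∨ A.map (MulAut.conj h).toMonoidHom ⊓ A = ⊥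

/-- The conjugates by `g` and `t` commute elementwise. -/
def Cm (A : Subgroup G) (g t : G) : Prop :=
  ∀ x ∈ A, ∀ y ∈ A, Commute (g * x * g⁻¹) (t * y * t⁻¹)

theorem Cm.symm {A : Subgroup G} {g t : G} (h : Cm A g t) : Cm A t g :=
  fun x hx y hy => (h y hy x hx).symm

theorem Cm.smul {A : Subgroup G} {g t : G} (r : G) (h : Cm A g t) : Cm A (r * g) (r * t) := by
  intro x hx y hy
  have := (h x hx y hy).map (MulAut.conj r).toMonoidHom
  simp only [MulEquiv.coe_toMonoidHom, MulAut.conj_apply] at this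
  rwa [show r * (g * x * g⁻¹) * r⁻¹ = r * g * x * (r * g)⁻¹ by group,
    show r * (t * y * t⁻¹) * r⁻¹ = r * t * y * (r * t)⁻¹ by group] at this

/-- The main step. -/
theorem cm_of_normalizes {A : Subgroup G} (hA2 : IsPGroup 2 A) (hAa : IsMulCommutative A) (hti : IsTI A)
    {a : G} (ha : a ∈ A) (ha2 : a * a ≠ 1) {W : Subgroup G} (hW2 : IsPGroup 2 W)
    (hWc : ∀ x ∈ W, ∀ y ∈ W, Commute x y) {g t : G} (ht : ∀ y ∈ A, t * y * t⁻¹ ∈ W)
    (hg : ∀ x ∈ A, g * x * g⁻¹ ∈ normalizer (W : Set G)) : Cm A g t := by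
  set Ag := A.map (MulAut.conj g).toMonoidHom with hAg
  set At := A.map (MulAut.conj t).toMonoidHom with hAt
  have hcA : ∀ x ∈ A, ∀ y ∈ A, Commute x y := fun x hx y hy =>
    congrArg Subtype.val (hAa.is_comm.comm (⟨x, hx⟩ : A) ⟨y, hy⟩)
  have hcAg : ∀ x ∈ Ag, ∀ y ∈ Ag, Commute x y := by
    rintro _ ⟨x, hx, rfl⟩ _ ⟨y, hy, rfl⟩
    exact (hcA x hx y hy).map _
  have htig : IsTI Ag := fun h => S1781.ti_conj hti g h
  have hAtW : At ≤ W := by rintro _ ⟨y, hy, rfl⟩; exact ht y hy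
  by_cases hint : Ag ⊓ W = ⊥
  · have hsq : ∀ x ∈ A, x * x ≠ 1 → ∀ w ∈ W, Commute (g * x * g⁻¹) w := fun x hx hx2 =>
      S1781.central_of_sq_ne_one Ag W (hA2.map _) hW2 htig hcAg hWc hint ⟨x, hx, rfl⟩ (hg x hx)
        (by
          intro e
          apply hx2
          rwa [show g * x * g⁻¹ * (g * x * g⁻¹) = g * (x * x) * g⁻¹ by group, conj_eq_one_iff] at e)
    intro x hx y hy
    by_cases hx2 : x * x = 1
    · have hxa : (x * a) * (x * a) ≠ 1 := by
        rw [show x * a * (x * a) = x * (a * x) * a by group, ← (hcA x hx a ha).eq,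
          show x * (x * a) * a = (x * x) * (a * a) by group, hx2, one_mul]
        exact ha2
      have h1 := hsq _ (A.mul_mem hx ha) hxa _ (ht y hy)
      have h2 := hsq a ha ha2 _ (ht y hy)
      have h3 := h1.mul_left h2.inv_left
      rwa [show g * (x * a) * g⁻¹ * (g * a * g⁻¹)⁻¹ = g * x * g⁻¹ by group] at h3
    · exact hsq x hx hx2 _ (ht y hy)
  · obtain ⟨c, hc1⟩ := (Subgroup.ne_bot_iff_exists_ne_one.1 hint)
    have hWN : W ≤ normalizer (Ag : Set G) := fun w hw =>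
      S1781.mem_normalizer_of_fixed Ag htig c.2.1 (fun e => hc1 (Subtype.ext e)) (hWc w hw _ c.2.2)
    by_cases heq : At.map (MulAut.conj (g * t⁻¹)).toMonoidHom = At
    · have hAgAt : Ag = At := by
        rw [← heq, hAt, hAg, Subgroup.map_map]
        congr 1
        ext v
        simp [mul_assoc]
      intro x hx y hy
      exact hWc _ (hAtW (hAgAt ▸ (⟨x, hx, rfl⟩ : g * x * g⁻¹ ∈ Ag))) _ (ht y hy)
    have he : At.map (MulAut.conj (g * t⁻¹)).toMonoidHom = Ag := by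
      rw [hAt, hAg, Subgroup.map_map]
      congr 1
      ext v
      simp [mul_assoc]
    have hAtc : IsMulCommutative At := ⟨⟨fun u v => Subtype.ext (hWc _ (hAtW u.2) _ (hAtW v.2))⟩⟩
    rcases S1781.result At (hA2.map _) hAtc (fun h => S1781.ti_conj hti t h) (g * t⁻¹) heq with h | h
    · exfalso
      apply ha2
      rw [he, inf_eq_left.2 (hAtW.trans hWN)] at h
      have := h.2 (t * a * t⁻¹) ⟨a, ha, rfl⟩
      rwa [pow_two, show t * a * t⁻¹ * (t * a * t⁻¹) = t * (a * a) * t⁻¹ by group, conj_eq_one_iff] at this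
    · intro x hx y hy
      rw [he] at h
      have hm : ⁅t * y * t⁻¹, g * x * g⁻¹⁆ ∈ ⁅At, Ag⁆ :=
        Subgroup.commutator_mem_commutator ⟨y, hy, rfl⟩ ⟨x, hx, rfl⟩
      rw [h, Subgroup.mem_bot, commutatorElement_eq_one_iff_commute] at hm
      exact hm.symm

/-- Conjugates inside a 2-group commute. -/
theorem conj_commute {A : Subgroup G} (hA2 : IsPGroup 2 A) (hAa : IsMulCommutative A) (hti : IsTI A)
    {a : G} (ha : a ∈ A) (ha2 : a * a ≠ 1) {P : Subgroup G} (hP : IsPGroup 2 P) (hAP : A ≤ P) :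
    ∀ p ∈ P, Cm A p 1 := by
  haveI : Fact (Nat.Prime 2) := ⟨Nat.prime_two⟩
  have hcA : ∀ g : G, Cm A g g := fun g x hx y hy =>
    (show Commute x y from congrArg Subtype.val (hAa.is_comm.comm (⟨x, hx⟩ : A) ⟨y, hy⟩)).map (MulAut.conj g).toMonoidHom
  obtain ⟨S, ⟨hSP, h1S, hScm⟩, hmax⟩ := Set.Finite.exists_maximal (Set.toFinite
    {S : Set G | S ⊆ (P : Set G) ∧ 1 ∈ S ∧ ∀ s ∈ S, ∀ t ∈ S, Cm A s t})
    ⟨{1}, by simp [P.one_mem], rfl, fun s hs t ht => by
      rw [Set.mem_singleton_iff.1 hs, Set.mem_singleton_iff.1 ht]; exact hcA 1⟩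
  have hclosed : ∀ p ∈ P, (∀ s ∈ S, Cm A p s) → p ∈ S := by
    intro p hp hps
    refine hmax (y := insert p S) ⟨Set.insert_subset hp hSP, Set.mem_insert_of_mem _ h1S, ?_⟩
      (Set.subset_insert p S) (Set.mem_insert p S)
    rintro s (rfl | hs) t (rfl | ht)
    · exact hcA _
    · exact hps t ht
    · exact (hps s hs).symm
    · exact hScm s hs t ht
  let N : Subgroup G :=
    { carrier := {p | p ∈ P ∧ ∀ s ∈ S, p * s ∈ S}
      one_mem' := ⟨P.one_mem, fun s hs => by rwa [one_mul]⟩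
      mul_mem' := fun {p q} hp hq => ⟨P.mul_mem hp.1 hq.1, fun s hs => by
        rw [mul_assoc]; exact hp.2 _ (hq.2 s hs)⟩
      inv_mem' := fun {p} hp => ⟨P.inv_mem hp.1, fun s hs => by
        have hfin : S.Finite := Set.toFinite S
        obtain ⟨s', hs', he⟩ := ((hfin.injOn_iff_bijOn_of_mapsTo (f := fun s => p * s)
          (fun s hs => hp.2 s hs)).1 (fun x _ y _ h => mul_left_cancel h)).surjOn hs
        rw [← he, inv_mul_cancel_left]; exact hs'⟩ }
  by_cases hNP : P ≤ N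
  · intro p hp
    have h := (hNP hp).2 1 h1S
    rw [mul_one] at h
    exact hScm p h 1 h1S
  exfalso
  have hNle : N ≤ P := fun p hp => hp.1
  set N' := N.subgroupOf P
  have hlt : N' < ⊤ := lt_of_le_of_ne le_top fun e => hNP (Subgroup.subgroupOf_eq_top.1 e)
  have : Group.IsNilpotent P := hP.isNilpotent
  obtain ⟨r, hrn, hrN⟩ := SetLike.exists_of_lt (Group.normalizerCondition_of_isNilpotent N' hlt)
  -- the elements of the conjugates normalize
  have hAN : ∀ t ∈ S, ∀ y ∈ A, t * y * t⁻¹ ∈ N := by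
    intro t ht y hy
    have htP := hSP ht
    have hx : t * y * t⁻¹ ∈ P := P.mul_mem (P.mul_mem htP (hAP hy)) (P.inv_mem htP)
    refine ⟨hx, fun s hs => hclosed _ (P.mul_mem hx (hSP hs)) fun u hu => ?_⟩
    intro x hxA z hz
    have h1 : Commute (t * y * t⁻¹) (s * x * s⁻¹) := hScm t ht s hs y hy x hxA
    have e : t * y * t⁻¹ * s * x * (t * y * t⁻¹ * s)⁻¹ = s * x * s⁻¹ := by
      rw [show t * y * t⁻¹ * s * x * (t * y * t⁻¹ * s)⁻¹ = t * y * t⁻¹ * (s * x * s⁻¹) * (t * y * t⁻¹)⁻¹ by group,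
        h1.eq, mul_inv_cancel_right]
    rw [e]
    exact hScm s hs u hu x hxA z hz
  obtain ⟨s, hs, hrs⟩ : ∃ s ∈ S, (r : G) * s ∉ S := by
    by_contra hcon
    push Not at hcon
    exact hrN (Subgroup.mem_subgroupOf.2 ⟨r.2, hcon⟩)
  apply hrs
  refine hclosed _ (P.mul_mem r.2 (hSP hs)) fun t ht => ?_
  set W := Subgroup.closure {w : G | ∃ u ∈ S, ∃ y ∈ A, u * y * u⁻¹ = w} with hW
  have hWP : W ≤ P := by
    rw [hW, Subgroup.closure_le]
    rintro _ ⟨u, hu, y, hy, rfl⟩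
    exact P.mul_mem (P.mul_mem (hSP hu) (hAP hy)) (P.inv_mem (hSP hu))
  have hWc : ∀ x ∈ W, ∀ y ∈ W, Commute x y := by
    have h1 : W ≤ centralizer {w : G | ∃ u ∈ S, ∃ y ∈ A, u * y * u⁻¹ = w} := by
      rw [hW, Subgroup.closure_le]
      rintro _ ⟨u, hu, y, hy, rfl⟩
      rw [SetLike.mem_coe, Subgroup.mem_centralizer_iff]
      rintro _ ⟨u', hu', y', hy', rfl⟩
      exact hScm u' hu' u hu y' hy' y hy
    have h2 : W ≤ centralizer (W : Set G) := by
      rw [hW, Subgroup.closure_le]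
      rintro w hw
      rw [SetLike.mem_coe, Subgroup.mem_centralizer_iff]
      intro v hv
      exact ((Subgroup.mem_centralizer_iff.1 (h1 hv)) w hw).symm
    exact fun x hx y hy => ((Subgroup.mem_centralizer_iff.1 (h2 hx)) y hy).symm
  refine cm_of_normalizes hA2 hAa hti ha ha2 (W := W) (hP.to_le hWP) hWc
    (fun y hy => Subgroup.subset_closure ⟨t, ht, y, hy, rfl⟩) fun x hx => ?_
  have hb : (r : G) * s * x * ((r : G) * s)⁻¹ ∈ N := by
    have h := ((Subgroup.mem_normalizer_iff).1 hrn ⟨s * x * s⁻¹, (hAN s hs x hx).1⟩).1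
      (Subgroup.mem_subgroupOf.2 (hAN s hs x hx))
    have h' := Subgroup.mem_subgroupOf.1 h
    simpa [mul_assoc] using h'
  set b := (r : G) * s * x * ((r : G) * s)⁻¹
  have hgen : ∀ c ∈ N, ∀ w ∈ W, c * w * c⁻¹ ∈ W := by
    intro c hc
    have : W.map (MulAut.conj c).toMonoidHom ≤ W := by
      rw [hW, MonoidHom.map_closure, Subgroup.closure_le]
      rintro _ ⟨_, ⟨u, hu, y, hy, rfl⟩, rfl⟩
      refine Subgroup.subset_closure ⟨c * u, hc.2 u hu, y, hy, ?_⟩
      simp [mul_assoc]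
    exact fun w hw => this ⟨w, hw, rfl⟩
  refine Subgroup.mem_normalizer_iff.2 fun w => ⟨hgen b hb w, fun hw => ?_⟩
  have := hgen b⁻¹ (N.inv_mem hb) _ hw
  simpa [mul_assoc] using this

end Cfsg.Agent.Screen.AbelianTI
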