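import Cfsg.Agent.Components.Local
import Cfsg.Agent.Core.Cores
import Cfsg.Prelude.Def_CaseTheorems
import Mathlib.Tactic.Group

/-!
# Characteristic two: passing it between 2-locals
-/

set_option autoImplicit false
set_option linter.style.haveILetI false

namespace Cfsg.Agent.Screen.CharTwo

open Subgroup

/-- `C(O₂) ≤ O₂` is the same as `F* = O₂`. -/
theorem fstar_iff {X : Type*} [Group X] [Finite X] :
    Cfsg.IsOfCharacteristicTwo X ↔ Cfsg.generalizedFittingSubgroup X = Cfsg.pCore 2 X := by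
  haveI : Fact (Nat.Prime 2) := ⟨Nat.prime_two⟩
  constructor
  · intro h
    have hO : Cfsg.pPrimeCore 2 X = ⊥ := by
      have h1 : Cfsg.pPrimeCore 2 X ≤ Cfsg.pCore 2 X :=
        (Subgroup.le_centralizer_iff.1 (Core.pCore_le_centralizer_pPrimeCore 2 X)).trans h
      have h2 := le_inf h1 (le_refl (Cfsg.pPrimeCore 2 X))
      rw [Core.pCore_inf_pPrimeCore] at h2
      exact le_bot_iff.1 h2
    have hL : Cfsg.layer X = ⊥ := by
      refine Components.layer_eq_bot_of_centralizer_fitting_le ?_
      rw [Core.fittingSubgroup_eq_pCore hO]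
      exact h
    exact Components.generalizedFitting_eq_pCore_iff.2 ⟨hL, hO⟩
  · intro h
    have hb := Components.centralizer_generalizedFitting_le (G := X)
    rw [h] at hb
    exact hb

/-- If a group of characteristic two embeds in `H` with image containing `C_H(O₂(H))`, then `H` has
characteristic two. -/
theorem of_embedding {M H : Type*} [Group M] [Group H] [Finite M] [Finite H] (ι : M →* H)
    (hι : Function.Injective ι) (hM : Cfsg.IsOfCharacteristicTwo M)
    (hle : Subgroup.centralizer (Cfsg.pCore 2 H : Set H) ≤ ι.range) :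
    Cfsg.IsOfCharacteristicTwo H := by
  haveI : Fact (Nat.Prime 2) := ⟨Nat.prime_two⟩
  show Subgroup.centralizer ((Cfsg.pCore 2 H : Subgroup H) : Set H) ≤ Cfsg.pCore 2 H
  set K := Subgroup.centralizer ((Cfsg.pCore 2 H : Subgroup H) : Set H) with hK
  haveI hKn : K.Normal := inferInstance
  set O' := (Cfsg.pCore 2 M).map ι with hO'
  have hnorm : (O'.subgroupOf K).Normal := by
    refine ⟨fun n hn k => ?_⟩
    obtain ⟨m, hm⟩ := hle k.2
    obtain ⟨o, ho, hoe⟩ := hn
    refine ⟨m * o * m⁻¹, (inferInstance : (Cfsg.pCore 2 M).Normal).conj_mem o ho m, ?_⟩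
    rw [map_mul, map_mul, map_inv, hoe, hm]
    rfl
  have hI : O' ⊓ K ≤ Cfsg.pCore 2 H := by
    refine Core.le_pCore_of_isSubnormal ?_ (((Core.isPGroup_pCore 2 M).map ι).to_le inf_le_left)
    rw [← Subgroup.subgroupOf_map_subtype]
    exact hnorm.isSubnormal.trans' hKn.isSubnormal
  have hodd : ∀ m : M, ι m ∈ K → (orderOf m).Coprime 2 → m = 1 := by
    intro m hm hcop
    have hmem : m ∈ Cfsg.pCore 2 M := by
      apply hM
      refine Subgroup.mem_centralizer_iff.2 fun v hv => ?_
      set w := v⁻¹ * (m * v * m⁻¹) with hw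
      have hwO : w ∈ Cfsg.pCore 2 M := mul_mem (inv_mem hv)
        ((inferInstance : (Cfsg.pCore 2 M).Normal).conj_mem v hv m)
      have hwK : ι w ∈ K := by
        rw [hw, map_mul, map_mul, map_mul, map_inv, map_inv]
        have := K.mul_mem (hKn.conj_mem _ hm (ι v)⁻¹) (K.inv_mem hm)
        simpa [mul_assoc] using this
      have hcm : ι w * ι m = ι m * ι w :=
        Subgroup.mem_centralizer_iff.1 hm _ (hI ⟨⟨w, hwO, rfl⟩, hwK⟩)
      have hcm' : Commute w m := hι ((map_mul ι w m).trans (hcm.trans (map_mul ι m w).symm))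
      have hconj : m * v * m⁻¹ = v * w := (mul_inv_cancel_left v _).symm
      have hpow : ∀ k : ℕ, m ^ k * v * (m ^ k)⁻¹ = v * w ^ k := by
        intro k
        induction k with
        | zero => simp
        | succ k ih =>
          have hwk : m * w ^ k = w ^ k * m := (hcm'.pow_left k).eq.symm
          calc m ^ (k + 1) * v * (m ^ (k + 1))⁻¹ = m * (m ^ k * v * (m ^ k)⁻¹) * m⁻¹ := by
                rw [pow_succ']; group
            _ = m * v * (m⁻¹ * (m * w ^ k)) * m⁻¹ := by rw [ih]; group
            _ = m * v * (m⁻¹ * (w ^ k * m)) * m⁻¹ := by rw [hwk]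
            _ = (m * v * m⁻¹) * w ^ k := by group
            _ = v * (w * w ^ k) := by rw [hconj, mul_assoc]
            _ = v * w ^ (k + 1) := by rw [pow_succ']
      have h1 : w ^ orderOf m = 1 := by
        have := hpow (orderOf m)
        rw [pow_orderOf_eq_one, one_mul, inv_one, mul_one] at this
        exact mul_eq_left.1 this.symm
      obtain ⟨j, hj⟩ := Core.isPGroup_pCore 2 M ⟨w, hwO⟩
      have hj' : w ^ 2 ^ j = 1 := congrArg Subtype.val hj
      have hw1 : w = 1 := orderOf_eq_one_iff.1 (Nat.eq_one_of_dvd_coprimes (hcop.pow_right j)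
          (orderOf_dvd_of_pow_eq_one h1) (orderOf_dvd_of_pow_eq_one hj'))
      rw [hw, inv_mul_eq_one] at hw1
      calc v * m = m * v * m⁻¹ * m := by rw [← hw1]
        _ = m * v := by group
    obtain ⟨j, hj⟩ := Core.isPGroup_pCore 2 M ⟨m, hmem⟩
    have hj' : m ^ 2 ^ j = 1 := congrArg Subtype.val hj
    exact orderOf_eq_one_iff.1
      (Nat.eq_one_of_dvd_coprimes (hcop.pow_right j) dvd_rfl (orderOf_dvd_of_pow_eq_one hj'))
  refine Core.le_pCore hKn fun c => ?_
  obtain ⟨m, hm⟩ := hle c.2
  obtain ⟨e, r, hr, her⟩ := Nat.exists_eq_pow_mul_and_not_dvd (orderOf_pos m).ne' 2 (by norm_num)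
  refine ⟨e, Subtype.ext ?_⟩
  have hme : m ^ 2 ^ e = 1 := by
    refine hodd _ (by rw [map_pow, hm]; exact pow_mem c.2 _) ?_
    rw [orderOf_pow, her, Nat.gcd_eq_right (Dvd.intro r rfl), Nat.mul_div_cancel_left _ (by positivity)]
    exact ((Nat.Prime.coprime_iff_not_dvd Nat.prime_two).2 hr).symm
  rw [Subgroup.coe_pow, ← hm, ← map_pow, hme, map_one]
  rfl

/-- If `N(A)` has characteristic two, `B ≤ N(A)` is a 2-group and `C(B) ≤ N(A)`, then so has `N(B)`. -/
theorem normalizer_step {G : Type*} [Group G] [Finite G] (A B : Subgroup G)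
    (hA : Cfsg.IsOfCharacteristicTwo ↥(Subgroup.normalizer (A : Set G))) (hB : IsPGroup 2 B)
    (hBA : B ≤ Subgroup.normalizer (A : Set G))
    (hC : Subgroup.centralizer (B : Set G) ≤ Subgroup.normalizer (A : Set G)) :
    Cfsg.IsOfCharacteristicTwo ↥(Subgroup.normalizer (B : Set G)) := by
  haveI : Fact (Nat.Prime 2) := ⟨Nat.prime_two⟩
  set W := Subgroup.normalizer (A : Set G) with hW
  set M := Subgroup.normalizer ((B.subgroupOf W : Subgroup W) : Set W) with hM
  have hchar : Cfsg.IsOfCharacteristicTwo M := fstar_iff.2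
    (Components.fstar_normalizer_eq_pCore (fstar_iff.1 hA) (hB.comap_of_injective _ W.subtype_injective))
  have hMH : ∀ m : M, ((m : W) : G) ∈ Subgroup.normalizer (B : Set G) := by
    rintro ⟨⟨g, hg⟩, hm⟩
    refine Subgroup.mem_normalizer_iff.2 fun t => ⟨fun ht => ?_, fun ht => ?_⟩
    · exact (Subgroup.mem_normalizer_iff.1 hm ⟨t, hBA ht⟩).1 ht
    · have htW : t ∈ W := by
        have := W.mul_mem (W.mul_mem (W.inv_mem hg) (hBA ht)) hg
        rwa [show g⁻¹ * (g * t * g⁻¹) * g = t from by group] at this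
      exact (Subgroup.mem_normalizer_iff.1 hm ⟨t, htW⟩).2 ht
  refine of_embedding (M := M) (MonoidHom.mk' (fun m => ⟨((m : W) : G), hMH m⟩) fun _ _ => rfl)
    (fun a b h => Subtype.ext (Subtype.ext
      (congrArg (fun s : Subgroup.normalizer (B : Set G) => (s : G)) h))) hchar ?_
  intro c hc
  have hBle : B.subgroupOf (Subgroup.normalizer (B : Set G)) ≤ Cfsg.pCore 2 ↥(Subgroup.normalizer (B : Set G)) :=
    Core.le_pCore ((Subgroup.normal_subgroupOf_iff_le_normalizer Subgroup.le_normalizer).2 le_rfl)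
      (hB.comap_of_injective _ (Subgroup.subtype_injective _))
  have hcW : (c : G) ∈ W := hC (Subgroup.mem_centralizer_iff.2 fun t ht =>
    congrArg Subtype.val (Subgroup.mem_centralizer_iff.1 hc ⟨t, Subgroup.le_normalizer ht⟩ (hBle ht)))
  exact ⟨⟨⟨(c : G), hcW⟩, Subgroup.mem_normalizer_iff.2 fun t => Subgroup.mem_normalizer_iff.1 c.2 (t : G)⟩, rfl⟩

/-- Characteristic two climbs from a subgroup of a 2-group to the group. -/
theorem normalizer_climb {G : Type*} [Group G] [Finite G] {U : Subgroup G} (hU : IsPGroup 2 U) :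
    ∀ (n : ℕ) (B : Subgroup G), B ≤ U → Nat.card U - Nat.card B = n →
      Cfsg.IsOfCharacteristicTwo ↥(Subgroup.normalizer (B : Set G)) →
      Cfsg.IsOfCharacteristicTwo ↥(Subgroup.normalizer (U : Set G)) := by
  haveI : Fact (Nat.Prime 2) := ⟨Nat.prime_two⟩
  intro n
  induction n using Nat.strong_induction_on with
  | _ n ih =>
    intro B hBU hn hB
    rcases eq_or_lt_of_le hBU with rfl | hlt
    · exact hB
    set B' := U ⊓ Subgroup.normalizer (B : Set G) with hB'
    have hBB' : B < B' := by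
      refine lt_of_le_of_ne (le_inf hBU Subgroup.le_normalizer) fun h => ?_
      haveI := hU.isNilpotent
      have hne : B.subgroupOf U < ⊤ := lt_top_iff_ne_top.2 fun ht =>
        hlt.not_ge (Subgroup.subgroupOf_eq_top.1 ht)
      obtain ⟨x, hx, hxB⟩ := SetLike.exists_of_lt (Group.normalizerCondition_of_isNilpotent _ hne)
      apply hxB
      refine Subgroup.mem_subgroupOf.2 ?_
      rw [h]
      refine ⟨x.2, Subgroup.mem_normalizer_iff.2 fun t => ⟨fun ht => ?_, fun ht => ?_⟩⟩
      · exact (Subgroup.mem_normalizer_iff.1 hx ⟨t, hBU ht⟩).1 ht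
      · have htU : t ∈ U := by
          have := U.mul_mem (U.mul_mem (U.inv_mem x.2) (hBU ht)) x.2
          rwa [show (x : G)⁻¹ * (x * t * (x : G)⁻¹) * x = t from by group] at this
        exact (Subgroup.mem_normalizer_iff.1 hx ⟨t, htU⟩).2 ht
    have hc : Nat.card B < Nat.card B' := lt_of_not_ge fun h => hBB'.ne (Subgroup.eq_of_le_of_card_ge hBB'.le h)
    have hcU : Nat.card B' ≤ Nat.card U := Subgroup.card_le_of_le inf_le_left
    exact ih _ (by omega) B' inf_le_left rfl (normalizer_step B B' hB (hU.to_le inf_le_left) inf_le_right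
      ((Subgroup.centralizer_le hBB'.le).trans (Subgroup.centralizer_le_normalizer _)))

end Cfsg.Agent.Screen.CharTwo
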