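import Cfsg.Agent.Forms.HermSemisimple

/-!
Every conjugate-reciprocal monic polynomial over a finite field is the characteristic polynomial of
a semisimple isometry of a non-degenerate Hermitian form.
-/

set_option autoImplicit false

namespace Cfsg.Agent.Screen

open Module Polynomial Cfsg.Agent.Forms

variable {F : Type*} [Field F] {σ : F →+* F}

/-- A non-zero functional commuting with the conjugations. -/
theorem exists_fixed_functional {K : Type*} [Field K] [Algebra F K]
    (hσ2 : ∀ c, σ (σ c) = c) (hσ : σ ≠ RingHom.id F) (s : K →+* K) (hss : ∀ z, s (s z) = z)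
    (hsm : ∀ (c : F) z, s (c • z) = σ c • s z) :
    ∃ ψ : K →ₗ[F] F, ψ ≠ 0 ∧ ∀ x, ψ (s x) = σ (ψ x) := by
  let tr : (K →ₗ[F] F) → (K →ₗ[F] F) := fun φ =>
    { toFun := fun x => φ x + σ (φ (s x))
      map_add' := fun x y => by simp only [map_add]; ring
      map_smul' := fun c x => by
        simp only [map_smul, hsm, smul_eq_mul, map_mul, hσ2, RingHom.id_apply]; ring }
  have htr : ∀ φ x, tr φ x = φ x + σ (φ (s x)) := fun _ _ => rfl
  have hfix : ∀ φ x, tr φ (s x) = σ (tr φ x) := by
    intro φ x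
    rw [htr, htr, map_add, hσ2, hss, add_comm]
  obtain ⟨ψ₀, hψ₀⟩ : ∃ ψ₀ : K →ₗ[F] F, ψ₀ 1 ≠ 0 := by
    by_contra h
    push Not at h
    exact one_ne_zero ((Module.forall_dual_apply_eq_zero_iff F (1 : K)).1 h)
  obtain ⟨d, hd⟩ : ∃ d, σ d ≠ d := by
    by_contra hall
    push Not at hall
    exact hσ (RingHom.ext hall)
  by_cases h : tr ψ₀ 1 = 0
  · refine ⟨tr (d • ψ₀), fun h0 => ?_, hfix _⟩
    have h1 : tr (d • ψ₀) 1 = 0 := by rw [h0]; rfl
    rw [htr] at h h1
    simp only [LinearMap.smul_apply, smul_eq_mul, map_mul, map_one] at h h1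
    have h2 : (d - σ d) * ψ₀ 1 = 0 := by linear_combination h1 - σ d * h
    exact hψ₀ ((mul_eq_zero.1 h2).resolve_left (sub_ne_zero.2 (Ne.symm hd)))
  · exact ⟨tr ψ₀, fun h0 => h (by rw [h0]; rfl), hfix _⟩

theorem exists_herm_semisimple [Fintype F] (hσ2 : ∀ c, σ (σ c) = c) (hσ : σ ≠ RingHom.id F) :
    ∀ (n : ℕ) (P : F[X]), P.Monic → P.natDegree = n → P.coeff 0 ≠ 0 → ConjRecip σ P →
    ∃ (B : (Fin n → F) →ₗ[F] (Fin n → F) →ₛₗ[σ] F) (a : (Fin n → F) ≃ₗ[F] (Fin n → F)) (m : ℕ),
      NondegHerm σ B ∧ (∀ x y, B (a x) (a y) = B x y) ∧ (m : F) ≠ 0 ∧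
      (a : Module.End F (Fin n → F)) ^ m = 1 ∧
      LinearMap.charpoly (a : Module.End F (Fin n → F)) = P := by
  intro n
  induction n using Nat.strong_induction_on with
  | _ n ih =>
  intro P hP hd hP0 hrev
  rcases Nat.eq_zero_or_pos n with rfl | hn
  · refine ⟨0, LinearEquiv.refl F _, 1, ⟨fun x y => by simp, fun x _ => Subsingleton.elim _ _⟩,
      fun x y => rfl, by simp, pow_one _, ?_⟩
    rw [hP.natDegree_eq_zero.1 hd]
    refine (LinearMap.charpoly_monic _).natDegree_eq_zero.1 ?_
    rw [LinearMap.charpoly_natDegree, Module.finrank_fin_fun]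
  suffices H : ∃ (M : Type _) (_ : AddCommGroup M) (_ : Module F M) (_ : Module.Finite F M)
      (t : M ≃ₗ[F] M) (β : M →ₗ[F] M →ₛₗ[σ] F) (N : ℕ) (R : F[X]),
      0 < finrank F M ∧ finrank F M ≤ n ∧ NondegHerm σ β ∧
      (∀ x y, β (t x) (t y) = β x y) ∧ (N : F) ≠ 0 ∧ (t : Module.End F M) ^ N = 1 ∧
      R.Monic ∧ R.natDegree = n - finrank F M ∧ R.coeff 0 ≠ 0 ∧ ConjRecip σ R ∧
      LinearMap.charpoly (t : Module.End F M) * R = P by
    obtain ⟨M, _, _, _, t, β, N, R, hpos, hle, hβ, ht, hN, htN, hR, hdR, hR0, hrR, hcR⟩ := H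
    obtain ⟨B', a', m', hB', ha', hm', ham', hc'⟩ := ih _ (by omega) R hR hdR hR0 hrR
    let e : (Fin n → F) ≃ₗ[F] M × (Fin (n - finrank F M) → F) :=
      LinearEquiv.ofFinrankEq _ _ (by
        rw [Module.finrank_prod, Module.finrank_fin_fun, Module.finrank_fin_fun]; omega)
    let B : (Fin n → F) →ₗ[F] (Fin n → F) →ₛₗ[σ] F :=
      LinearMap.mk₂'ₛₗ (RingHom.id F) σ (fun x y => β (e x).1 (e y).1 + B' (e x).2 (e y).2)
        (fun x x' y => by simp only [map_add, Prod.fst_add, Prod.snd_add, LinearMap.add_apply]; ring)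
        (fun c x y => by simp [mul_add])
        (fun x y y' => by simp only [map_add, Prod.fst_add, Prod.snd_add]; ring)
        (fun c x y => by simp [mul_add])
    have hB : ∀ x y, B x y = β (e x).1 (e y).1 + B' (e x).2 (e y).2 := fun x y => rfl
    let a := (e.trans (t.prodCongr a')).trans e.symm
    have ha : ∀ x, e (a x) = (t (e x).1, a' (e x).2) := fun x => by simp [a]
    refine ⟨B, a, N * m', ⟨fun x y => ?_, fun x hx => ?_⟩, fun x y => ?_, ?_, ?_, ?_⟩
    · rw [hB, hB, map_add, hβ.1, hB'.1]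
    · refine e.injective (Prod.ext ?_ ?_)
      · rw [map_zero]
        exact hβ.2 _ fun y => by simpa [hB] using hx (e.symm (y, 0))
      · rw [map_zero]
        exact hB'.2 _ fun y => by simpa [hB] using hx (e.symm (0, y))
    · rw [hB, hB, ha, ha, ht, ha']
    · rw [Nat.cast_mul]; exact mul_ne_zero hN hm'
    · have h : ∀ k x, e (((a : Module.End F (Fin n → F)) ^ k) x) =
          (((t : Module.End F M) ^ k) (e x).1, ((a' : Module.End F _) ^ k) (e x).2) := by
        intro k
        induction k with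
        | zero => intro x; rfl
        | succ k ihk =>
          intro x
          rw [pow_succ', Module.End.mul_apply, LinearEquiv.coe_coe, ha, ihk, pow_succ', pow_succ']
          rfl
      refine LinearMap.ext fun x => e.injective ?_
      rw [h, pow_mul, htN, one_pow, mul_comm N m', pow_mul, ham', one_pow]
      rfl
    · rw [← hcR, ← hc', ← LinearMap.charpoly_prodMap, ← e.charpoly_conj (a : Module.End F (Fin n → F))]
      congr 1
      refine LinearMap.ext fun p => ?_
      rw [LinearEquiv.conj_apply_apply, LinearEquiv.coe_coe, ha, e.apply_symm_apply]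
      rfl
  obtain ⟨f, hmon, hirr, hdvd⟩ := Polynomial.exists_monic_irreducible_factor P
    (Polynomial.not_isUnit_of_natDegree_pos _ (by omega))
  haveI := Fact.mk hirr
  haveI : Module.Finite F (AdjoinRoot f) := (AdjoinRoot.powerBasis hirr.ne_zero).finite
  haveI : Finite (AdjoinRoot f) := Module.finite_of_finite F
  haveI := Fintype.ofFinite (AdjoinRoot f)
  have hKd : finrank F (AdjoinRoot f) = f.natDegree := by
    rw [(AdjoinRoot.powerBasis hirr.ne_zero).finrank, AdjoinRoot.powerBasis_dim]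
  have hdimK : 0 < finrank F (AdjoinRoot f) := Module.finrank_pos
  have hf0 : f.coeff 0 ≠ 0 := by
    obtain ⟨R, hR⟩ := hdvd
    rw [hR, mul_coeff_zero] at hP0
    exact left_ne_zero_of_mul hP0
  have hfs0 : (f.map σ).coeff 0 ≠ 0 := by rw [coeff_map]; exact (map_ne_zero σ).2 hf0
  have hmapσ : (f.map σ).map σ = f := by
    rw [Polynomial.map_map, show σ.comp σ = RingHom.id F from RingHom.ext hσ2, Polynomial.map_id]
  set r := AdjoinRoot.root f with hr
  have hfr : aeval r f = 0 := by rw [hr, AdjoinRoot.aeval_eq, AdjoinRoot.mk_self]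
  have hr0 : r ≠ 0 := by
    intro h
    have h1 := AdjoinRoot.eval₂_root f
    rw [← hr, h, eval₂_at_zero] at h1
    exact hf0 ((AdjoinRoot.of f).injective (h1.trans (map_zero _).symm))
  have hrevroot : aeval r (f.map σ).reverse = 0 ↔ aeval r⁻¹ (f.map σ) = 0 := by
    letI : Invertible r⁻¹ := invertibleOfNonzero (inv_ne_zero hr0)
    have h := Polynomial.eval₂_reverse_eq_zero_iff (algebraMap F (AdjoinRoot f)) r⁻¹ (f.map σ)
    rwa [invOf_eq_inv, inv_inv] at h
  have hdivroot : f ∣ (f.map σ).reverse ↔ aeval r⁻¹ (f.map σ) = 0 := by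
    rw [← hrevroot, hr, AdjoinRoot.aeval_eq, AdjoinRoot.mk_eq_zero]
  set N := Fintype.card (AdjoinRoot f) - 1 with hN
  have hNF : (N : F) ≠ 0 := by
    rw [hN, Nat.cast_sub Fintype.card_pos, Nat.cast_one, ← Nat.card_eq_fintype_card,
      Module.natCard_eq_pow_finrank (K := F), Nat.cast_pow, Nat.card_eq_fintype_card,
      FiniteField.cast_card_eq_zero, zero_pow hdimK.ne', zero_sub]
    exact neg_ne_zero.2 one_ne_zero
  let mulr : AdjoinRoot f ≃ₗ[F] AdjoinRoot f :=
    LinearEquiv.ofLinearMap (LinearMap.mulLeft F r) (LinearMap.mulLeft F r⁻¹)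
      (LinearMap.ext fun x => by simp [← mul_assoc, mul_inv_cancel₀ hr0])
      (LinearMap.ext fun x => by simp [← mul_assoc, inv_mul_cancel₀ hr0])
  by_cases hC : aeval r⁻¹ (f.map σ) = 0
  · set s := semiLift σ r⁻¹ hC with hs
    have hsr : s r = r⁻¹ := semiLift_root _ _
    have hss : ∀ z, s (s z) = z := by
      intro z
      obtain ⟨q, rfl⟩ := AdjoinRoot.mk_surjective z
      induction q using Polynomial.induction_on' with
      | add p q hp hq => simp only [map_add, hp, hq]
      | monomial k c =>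
        rw [← C_mul_X_pow_eq_monomial, map_mul, map_pow, AdjoinRoot.mk_X, AdjoinRoot.mk_C,
          ← AdjoinRoot.algebraMap_eq, ← hr, map_mul, map_pow, semiLift_algebraMap, hsr, map_mul,
          map_pow, semiLift_algebraMap, map_inv₀, hsr, inv_inv, hσ2]
    obtain ⟨ψ, hψ, hψs⟩ := exists_fixed_functional hσ2 hσ s hss (semiLift_smul _ _)
    have hfrec : ConjRecip σ f := by
      have h := Polynomial.eq_leadingCoeff_mul_of_monic_of_dvd_of_natDegree_le hmon (hdivroot.2 hC)
        (le_trans (f.map σ).reverse_natDegree_le (by rw [natDegree_map_eq_of_injective σ.injective]))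
      rw [reverse_leadingCoeff, trailingCoeff_eq_coeff_zero hfs0, coeff_map] at h
      exact h
    obtain ⟨R, hR⟩ := hdvd
    have hRmon : R.Monic := hmon.of_mul_monic_left (hR ▸ hP)
    have hdR : n = f.natDegree + R.natDegree := by rw [← hd, hR, hmon.natDegree_mul hRmon]
    refine ⟨AdjoinRoot f, inferInstance, inferInstance, inferInstance, mulr,
      lineForm ψ s (semiLift_smul _ _), N, R, hdimK, by omega, ⟨fun x y => ?_, fun x hx => ?_⟩,
      fun x y => ?_, hNF, ?_, hRmon, by omega, ?_, hfrec.cancel (hR ▸ hrev) hf0, ?_⟩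
    · change σ (ψ (x * s y)) = ψ (y * s x)
      rw [← hψs, map_mul s, hss, mul_comm]
    · by_contra hne
      refine hψ (LinearMap.ext fun z => ?_)
      have h : ψ (x * s (s (x⁻¹ * z))) = 0 := hx (s (x⁻¹ * z))
      rwa [hss, mul_inv_cancel_left₀ hne] at h
    · change ψ (r * x * s (r * y)) = ψ (x * s y)
      rw [map_mul s, hsr]
      congr 1
      field_simp
    · change (LinearMap.mulLeft F r) ^ N = 1
      rw [LinearMap.pow_mulLeft, hN, FiniteField.pow_card_sub_one_eq_one _ hr0, LinearMap.mulLeft_one]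
      rfl
    · rw [hR, mul_coeff_zero] at hP0
      exact right_ne_zero_of_mul hP0
    · rw [hR]
      congr 1
      exact charpoly_mulLeft_root hmon
  · have hirr' : Irreducible (f.map σ) := irreducible_map_sigma hσ2 hirr
    haveI := Fact.mk hirr'
    haveI : Module.Finite F (AdjoinRoot (f.map σ)) := (AdjoinRoot.powerBasis hirr'.ne_zero).finite
    haveI : Finite (AdjoinRoot (f.map σ)) := Module.finite_of_finite F
    set r' := AdjoinRoot.root (f.map σ) with hr'
    have hz : aeval r ((f.map σ).map σ) = 0 := by rw [hmapσ, hfr]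
    set j := semiLift σ r hz with hjdef
    have hjr : j r' = r := semiLift_root _ _
    have hr'0 : r' ≠ 0 := fun h => hr0 (by rw [← hjr, h, map_zero])
    have hdeg : finrank F (AdjoinRoot (f.map σ)) = finrank F (AdjoinRoot f) := by
      rw [hKd, (AdjoinRoot.powerBasis hirr'.ne_zero).finrank, AdjoinRoot.powerBasis_dim,
        natDegree_map_eq_of_injective σ.injective]
    haveI := Fintype.ofFinite (AdjoinRoot (f.map σ))
    have hcard : Fintype.card (AdjoinRoot (f.map σ)) = Fintype.card (AdjoinRoot f) := by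
      rw [← Nat.card_eq_fintype_card, ← Nat.card_eq_fintype_card,
        Module.natCard_eq_pow_finrank (K := F) (V := AdjoinRoot (f.map σ)),
        Module.natCard_eq_pow_finrank (K := F) (V := AdjoinRoot f), hdeg]
    have hjb : Function.Bijective j :=
      (Fintype.bijective_iff_injective_and_card j).2 ⟨j.injective, hcard⟩
    obtain ⟨ψ, hψ⟩ : ∃ ψ : AdjoinRoot f →ₗ[F] F, ψ 1 ≠ 0 := by
      by_contra h
      push Not at h
      exact one_ne_zero ((Module.forall_dual_apply_eq_zero_iff F (1 : AdjoinRoot f)).1 h)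
    let mulr' : AdjoinRoot (f.map σ) ≃ₗ[F] AdjoinRoot (f.map σ) :=
      LinearEquiv.ofLinearMap (LinearMap.mulLeft F r'⁻¹) (LinearMap.mulLeft F r')
        (LinearMap.ext fun x => by simp [← mul_assoc, inv_mul_cancel₀ hr'0])
        (LinearMap.ext fun x => by simp [← mul_assoc, mul_inv_cancel₀ hr'0])
    set g := C ((f.map σ).coeff 0)⁻¹ * (f.map σ).reverse with hg
    have hgd : g.natDegree = f.natDegree := by
      rw [hg, natDegree_C_mul (inv_ne_zero hfs0), natDegree_reverse_eq hfs0,
        natDegree_map_eq_of_injective σ.injective]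
    have hgmon : g.Monic := by
      rw [hg]
      refine monic_C_mul_of_mul_leadingCoeff_eq_one ?_
      rw [reverse_leadingCoeff, trailingCoeff_eq_coeff_zero hfs0, inv_mul_cancel₀ hfs0]
    have hg0 : g.coeff 0 = (σ (f.coeff 0))⁻¹ := by
      rw [hg, coeff_C_mul, coeff_zero_reverse, (hmon.map σ).leadingCoeff, mul_one, coeff_map]
    have hfgrev : ConjRecip σ (f * g) := by
      have hrv : (f.map σ).reverse = C (σ (f.coeff 0)) * g := by
        rw [hg, coeff_map, ← mul_assoc, ← C.map_mul, mul_inv_cancel₀ ((map_ne_zero σ).2 hf0),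
          C.map_one, one_mul]
      have hgs : (g.map σ).reverse = C (f.coeff 0)⁻¹ * f := by
        rw [hg, Polynomial.map_mul, map_C, coeff_map, map_inv₀ σ, hσ2, ← map_reverse, hmapσ,
          reverse_mul_of_domain, reverse_C, reverse_reverse_eq hf0]
      unfold ConjRecip
      rw [Polynomial.map_mul, reverse_mul_of_domain, hrv, hgs, mul_coeff_zero, hg0, map_mul σ,
        map_inv₀ σ, hσ2, C.map_mul]
      ring
    have hgdvd : g ∣ P := by
      obtain ⟨R, hR⟩ := hdvd
      have h : (f.map σ).reverse ∣ C (σ (P.coeff 0)) * P := by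
        refine ⟨(R.map σ).reverse, ?_⟩
        rw [← reverse_mul_of_domain, ← Polynomial.map_mul, ← hR]
        exact hrev.symm
      rw [hg]
      refine ((isUnit_C.2 (IsUnit.mk0 _ (inv_ne_zero hfs0))).mul_left_dvd).2 ?_
      exact ((isUnit_C.2 (IsUnit.mk0 _ ((map_ne_zero σ).2 hP0))).dvd_mul_left).1 h
    have hnfg : ¬ f ∣ g := fun h => hC (hdivroot.1 (by
      have h' := h.mul_left (C ((f.map σ).coeff 0))
      rwa [hg, ← mul_assoc, ← C.map_mul, mul_inv_cancel₀ hfs0, C.map_one, one_mul] at h'))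
    obtain ⟨R, hR⟩ := ((hirr.coprime_iff_not_dvd).2 hnfg).mul_dvd hdvd hgdvd
    have hfgmon : (f * g).Monic := hmon.mul hgmon
    have hRmon : R.Monic := hfgmon.of_mul_monic_left (hR ▸ hP)
    have hdR : n = f.natDegree + f.natDegree + R.natDegree := by
      rw [← hd, hR, hfgmon.natDegree_mul hRmon, hmon.natDegree_mul hgmon, hgd]
    have hfd : 0 < f.natDegree := hKd ▸ hdimK
    refine ⟨AdjoinRoot f × AdjoinRoot (f.map σ), inferInstance, inferInstance, inferInstance,
      mulr.prodCongr mulr', pairForm hσ2 ψ j (semiLift_smul r hz), N, R, ?_, ?_,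
      ⟨fun p p' => ?_, fun p hp => ?_⟩, fun p p' => ?_, hNF, ?_, hRmon, ?_, ?_,
      hfgrev.cancel (hR ▸ hrev) ?_, ?_⟩
    · rw [Module.finrank_prod]; omega
    · rw [Module.finrank_prod]; omega
    · change σ (ψ (p.1 * j p'.2) + σ (ψ (p'.1 * j p.2))) = ψ (p'.1 * j p.2) + σ (ψ (p.1 * j p'.2))
      rw [map_add, hσ2, add_comm]
    · refine Prod.ext ?_ ?_
      · by_contra hne
        obtain ⟨y, hy⟩ := hjb.2 p.1⁻¹
        have h : ψ (p.1 * j y) + σ (ψ (0 * j p.2)) = 0 := hp (0, y)
        rw [hy, mul_inv_cancel₀ hne, zero_mul, map_zero, map_zero, add_zero] at h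
        exact hψ h
      · by_contra hne
        have hjp : j p.2 ≠ 0 := by rwa [Ne, map_eq_zero]
        have h : ψ (p.1 * j 0) + σ (ψ ((j p.2)⁻¹ * j p.2)) = 0 := hp ((j p.2)⁻¹, 0)
        rw [map_zero, mul_zero, map_zero, zero_add, inv_mul_cancel₀ hjp, map_eq_zero] at h
        exact hψ h
    · change ψ (r * p.1 * j (r'⁻¹ * p'.2)) + σ (ψ (r * p'.1 * j (r'⁻¹ * p.2))) =
        ψ (p.1 * j p'.2) + σ (ψ (p'.1 * j p.2))
      have e1 : ∀ u v : AdjoinRoot f, r * u * (r⁻¹ * v) = u * v := fun u v => by field_simp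
      rw [map_mul j, map_mul j, map_inv₀ j, hjr, e1, e1]
    · have h : ((mulr.prodCongr mulr' : _ ≃ₗ[F] _) : Module.End F
          (AdjoinRoot f × AdjoinRoot (f.map σ))) =
          (LinearMap.mulLeft F r).prodMap (LinearMap.mulLeft F r'⁻¹) := LinearMap.ext fun p => rfl
      rw [h]
      have hk : ∀ k, ((LinearMap.mulLeft F r).prodMap (LinearMap.mulLeft F r'⁻¹)) ^ k =
          ((LinearMap.mulLeft F r) ^ k).prodMap ((LinearMap.mulLeft F r'⁻¹) ^ k) := by
        intro k
        induction k with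
        | zero => rfl
        | succ k ihk => rw [pow_succ', pow_succ', pow_succ', ihk]; rfl
      rw [hk, LinearMap.pow_mulLeft, LinearMap.pow_mulLeft, hN,
        FiniteField.pow_card_sub_one_eq_one _ hr0, ← hcard,
        FiniteField.pow_card_sub_one_eq_one _ (inv_ne_zero hr'0), LinearMap.mulLeft_one,
        LinearMap.mulLeft_one]
      rfl
    · rw [Module.finrank_prod]; omega
    · rw [hR, mul_coeff_zero] at hP0
      exact right_ne_zero_of_mul hP0
    · rw [mul_coeff_zero, hg0]
      exact mul_ne_zero hf0 (inv_ne_zero ((map_ne_zero σ).2 hf0))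
    · rw [hR]
      congr 1
      have h : ((mulr.prodCongr mulr' : _ ≃ₗ[F] _) : Module.End F
          (AdjoinRoot f × AdjoinRoot (f.map σ))) =
          (LinearMap.mulLeft F r).prodMap (LinearMap.mulLeft F r'⁻¹) := LinearMap.ext fun p => rfl
      rw [h, LinearMap.charpoly_prodMap, charpoly_mulLeft_root hmon,
        charpoly_mulLeft_root_inv (hmon.map σ) hr'0]

end Cfsg.Agent.Screen
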