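import Cfsg.Agent.Screen.HallMain

/-! # Small `{2,3}`-subgroups of `A₇` and `A₈` lying in no Hall subgroup -/

set_option autoImplicit false

namespace Cfsg.Agent.Screen.HallSym

open Equiv Equiv.Perm

/-- The permutations permuting a family of sets. -/
def partStab {α : Type*} [Fintype α] [DecidableEq α] (P : Finset (Finset α)) : Subgroup (Perm α) where
  carrier := {g | ∀ T ∈ P, T.image g ∈ P}
  mul_mem' := fun {g h} hg hh T hT => by
    have := hg _ (hh T hT)
    rwa [Finset.image_image] at this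
  one_mem' := fun T hT => by simpa using hT
  inv_mem' := fun {g} hg T hT => by
    have hsub : P.image (fun T => T.image g) = P :=
      Finset.eq_of_subset_of_card_le (Finset.image_subset_iff.2 hg)
        (by rw [Finset.card_image_of_injective _ (Finset.image_injective g.injective)])
    rw [← hsub] at hT
    obtain ⟨S, hS, rfl⟩ := Finset.mem_image.1 hT
    rw [Finset.image_image]
    simpa using hS

theorem fix_small {α : Type*} [Fintype α] [DecidableEq α] {z : Perm α} {p : ℕ} (hp : p.Prime)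
    (hz : z ^ p = 1) {T : Finset α} (hT : T.card < p) (hTz : T.image z = T) : ∀ x ∈ T, z x = x := by
  intro x hx
  have hm : ∀ y, z y ∈ T ↔ y ∈ T := mem_iff_of_image hTz
  have h1 : orderOf (z.subtypePerm hm : Perm {y // y ∈ T}) ∣ p := by
    refine orderOf_dvd_of_pow_eq_one ?_
    rw [subtypePerm_pow]
    ext y
    simp [hz]
  rcases (Nat.dvd_prime hp).1 h1 with h | h
  · rw [orderOf_eq_one_iff] at h
    exact congrArg Subtype.val (DFunLike.congr_fun h ⟨x, hx⟩)
  · have h2 := orderOf_dvd_natCard (z.subtypePerm hm : Perm {y // y ∈ T})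
    rw [h, card_perm_eq, hp.dvd_factorial, Fintype.card_coe] at h2
    omega

theorem partStab_pi {π : Set ℕ} (h2 : 2 ∈ π) (h3 : 3 ∈ π) {α : Type*} [Fintype α] [DecidableEq α]
    (U V : Finset α) (hne : U ≠ V) (hU : U.card ≤ 3) (hV : V.card ≤ 3) (hW : (U ∪ V)ᶜ.card ≤ 3)
    {p : ℕ} (hp : p.Prime) (hd : p ∣ Nat.card (partStab {U, V})) : p ∈ π := by
  by_contra hpπ
  have hp5 : 5 ≤ p := by
    by_contra h
    have := hp.two_le
    interval_cases p <;> first | exact hpπ h2 | exact hpπ h3 | norm_num at hp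
  haveI := Fact.mk hp
  obtain ⟨⟨z, hzm⟩, hz⟩ := exists_prime_orderOf_dvd_card' p hd
  rw [Subgroup.orderOf_mk] at hz
  have hzp : z ^ p = 1 := hz ▸ pow_orderOf_eq_one z
  have hfix : ∀ A ∈ ({U, V} : Finset (Finset α)), ∀ B ∈ ({U, V} : Finset (Finset α)), A ≠ B → A.image z = A := by
    intro A hA B hB hAB
    by_contra hne'
    have hpair : ∀ C ∈ ({U, V} : Finset (Finset α)), C = A ∨ C = B := by
      intro C hC
      simp only [Finset.mem_insert, Finset.mem_singleton] at hA hB hC
      rcases hA with rfl | rfl <;> rcases hB with rfl | rfl <;> rcases hC with rfl | rfl <;> simp_all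
    have h1 : A.image z = B := (hpair _ (hzm A hA)).resolve_left hne'
    have h2' : B.image z = A := by
      refine (hpair _ (hzm B hB)).resolve_right fun h => hAB ?_
      exact Finset.image_injective z.injective (h1.trans h.symm)
    have h3' : ∀ k : ℕ, A.image ⇑(z ^ (2 * k + 1)) = B := by
      intro k
      induction k with
      | zero => simpa using h1
      | succ k ih =>
        rw [show 2 * (k + 1) + 1 = (2 * k + 1) + 1 + 1 by ring, pow_succ', pow_succ']
        rw [show ⇑(z * (z * z ^ (2 * k + 1))) = ⇑z ∘ ⇑z ∘ ⇑(z ^ (2 * k + 1)) from rfl, ← Finset.image_image,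
          ← Finset.image_image, ih, h2', h1]
    have := h3' (p / 2)
    rw [show 2 * (p / 2) + 1 = p by have := hp.eq_two_or_odd.resolve_left (by omega); omega, hzp] at this
    simp at this
    exact hAB this
  have hUz := hfix U (by simp) V (by simp) hne
  have hVz := hfix V (by simp) U (by simp) hne.symm
  have hWz : (U ∪ V)ᶜ.image z = (U ∪ V)ᶜ := by rw [img_compl, Finset.image_union, hUz, hVz]
  have : z = 1 := Equiv.ext fun x => by
    rw [one_apply]
    by_cases hxU : x ∈ U
    · exact fix_small hp hzp (by omega) hUz x hxU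
    by_cases hxV : x ∈ V
    · exact fix_small hp hzp (by omega) hVz x hxV
    exact fix_small hp hzp (by omega) hWz x (by simp [hxU, hxV])
  rw [this, orderOf_one] at hz
  omega

def a7 : Perm (Fin 7) := swap 0 2 * swap 0 1 * (swap 3 5 * swap 3 4)
def r7 : Perm (Fin 7) := swap 0 3 * swap 1 4 * (swap 2 5 * swap 0 1)
def a8 : Perm (Fin 8) := swap 0 2 * swap 0 1
def b8 : Perm (Fin 8) := swap 3 5 * swap 3 4
def c8 : Perm (Fin 8) := swap 0 1 * swap 6 7

set_option maxRecDepth 100000 in
set_option maxHeartbeats 1000000 in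
theorem K7_escapes : ∀ T ∈ Finset.powersetCard 4 (Finset.univ : Finset (Fin 7)),
    (T.image a7 ≠ T ∧ T.image a7 ≠ Tᶜ) ∨ (T.image r7 ≠ T ∧ T.image r7 ≠ Tᶜ) := by
  decide

set_option maxRecDepth 100000 in
set_option maxHeartbeats 1000000 in
theorem K8_escapes : ∀ T ∈ Finset.powersetCard 4 (Finset.univ : Finset (Fin 8)),
    (T.image a8 ≠ T ∧ T.image a8 ≠ Tᶜ) ∨ (T.image b8 ≠ T ∧ T.image b8 ≠ Tᶜ) ∨
      (T.image c8 ≠ T ∧ T.image c8 ≠ Tᶜ) := by
  decide

theorem sign_swap_pair {n : ℕ} {a b c d : Fin n} (h1 : a ≠ b) (h2 : c ≠ d) :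
    swap a b * swap c d ∈ alternatingGroup (Fin n) := by
  rw [mem_alternatingGroup, map_mul, sign_swap h1, sign_swap h2]; decide

set_option maxRecDepth 100000 in
/-- The witness in degree `7`. -/
theorem witness7 {π : Set ℕ} (h2 : 2 ∈ π) (h3 : 3 ∈ π) :
    ∃ X : Subgroup (Perm (Fin 7)), X ≤ alternatingGroup (Fin 7) ∧
      (∀ p : ℕ, p.Prime → p ∣ Nat.card X → p ∈ π) ∧ ∀ T : Finset (Fin 7), T.card = 4 → ¬ X ≤ setW T := by
  refine ⟨partStab {{0, 1, 2}, {3, 4, 5}} ⊓ alternatingGroup (Fin 7), inf_le_right, fun p hp hd => ?_,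
    fun T hT hle => ?_⟩
  · exact partStab_pi h2 h3 _ _ (by decide) (by decide) (by decide) (by decide) hp
      (hd.trans (Subgroup.card_dvd_of_le inf_le_left))
  · have ha : a7 ∈ partStab {{0, 1, 2}, {3, 4, 5}} ⊓ alternatingGroup (Fin 7) :=
      ⟨(by decide : ∀ T ∈ ({{0, 1, 2}, {3, 4, 5}} : Finset (Finset (Fin 7))), T.image a7 ∈ _),
        Subgroup.mul_mem _ (sign_swap_pair (by decide) (by decide)) (sign_swap_pair (by decide) (by decide))⟩
    have hr : r7 ∈ partStab {{0, 1, 2}, {3, 4, 5}} ⊓ alternatingGroup (Fin 7) :=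
      ⟨(by decide : ∀ T ∈ ({{0, 1, 2}, {3, 4, 5}} : Finset (Finset (Fin 7))), T.image r7 ∈ _),
        Subgroup.mul_mem _ (sign_swap_pair (by decide) (by decide)) (sign_swap_pair (by decide) (by decide))⟩
    rcases K7_escapes T (Finset.mem_powersetCard.2 ⟨Finset.subset_univ _, hT⟩) with h | h
    · exact (hle ha).elim h.1 h.2
    · exact (hle hr).elim h.1 h.2

set_option maxRecDepth 100000 in
/-- The witness in degree `8`. -/
theorem witness8 {π : Set ℕ} (h2 : 2 ∈ π) (h3 : 3 ∈ π) :
    ∃ X : Subgroup (Perm (Fin 8)), X ≤ alternatingGroup (Fin 8) ∧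
      (∀ p : ℕ, p.Prime → p ∣ Nat.card X → p ∈ π) ∧ ∀ T : Finset (Fin 8), T.card = 4 → ¬ X ≤ setW T := by
  refine ⟨partStab {{0, 1, 2}, {3, 4, 5}} ⊓ alternatingGroup (Fin 8), inf_le_right, fun p hp hd => ?_,
    fun T hT hle => ?_⟩
  · exact partStab_pi h2 h3 _ _ (by decide) (by decide) (by decide) (by decide) hp
      (hd.trans (Subgroup.card_dvd_of_le inf_le_left))
  · have ha : a8 ∈ partStab {{0, 1, 2}, {3, 4, 5}} ⊓ alternatingGroup (Fin 8) :=
      ⟨(by decide : ∀ T ∈ ({{0, 1, 2}, {3, 4, 5}} : Finset (Finset (Fin 8))), T.image a8 ∈ _),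
        sign_swap_pair (by decide) (by decide)⟩
    have hb : b8 ∈ partStab {{0, 1, 2}, {3, 4, 5}} ⊓ alternatingGroup (Fin 8) :=
      ⟨(by decide : ∀ T ∈ ({{0, 1, 2}, {3, 4, 5}} : Finset (Finset (Fin 8))), T.image b8 ∈ _),
        sign_swap_pair (by decide) (by decide)⟩
    have hc : c8 ∈ partStab {{0, 1, 2}, {3, 4, 5}} ⊓ alternatingGroup (Fin 8) :=
      ⟨(by decide : ∀ T ∈ ({{0, 1, 2}, {3, 4, 5}} : Finset (Finset (Fin 8))), T.image c8 ∈ _),
        sign_swap_pair (by decide) (by decide)⟩
    rcases K8_escapes T (Finset.mem_powersetCard.2 ⟨Finset.subset_univ _, hT⟩) with h | h | h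
    · exact (hle ha).elim h.1 h.2
    · exact (hle hb).elim h.1 h.2
    · exact (hle hc).elim h.1 h.2

/-- The witness in prime degree. -/
theorem witness_prime {π : Set ℕ} {n : ℕ} (h5 : 5 ≤ n) (hπ : ∀ r : ℕ, r.Prime → r < n → r ∈ π) :
    ∃ X : Subgroup (Perm (Fin n)), X ≤ alternatingGroup (Fin n) ∧
      (∀ p : ℕ, p.Prime → p ∣ Nat.card X → p ∈ π) ∧ ∀ T : Finset (Fin n), T.card = n - 1 → ¬ X ≤ setW T := by
  classical
  let x0 : Fin n := ⟨0, by omega⟩
  let x1 : Fin n := ⟨1, by omega⟩
  let x2 : Fin n := ⟨2, by omega⟩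
  have n01 : x0 ≠ x1 := by simp [x0, x1, Fin.ext_iff]
  have n02 : x0 ≠ x2 := by simp [x0, x2, Fin.ext_iff]
  have n12 : x1 ≠ x2 := by simp [x1, x2, Fin.ext_iff]
  set U : Finset (Fin n) := {x0, x1, x2} with hU
  have hU3 : U.card = 3 := by simp [hU, n01, n02, n12]
  refine ⟨setW U ⊓ alternatingGroup (Fin n), inf_le_right, fun p hp hd => ?_, fun T hT hle => ?_⟩
  · have := hd.trans (Subgroup.card_dvd_of_le inf_le_left)
    rcases eq_or_ne U.card (Fintype.card (Fin n) - U.card) with h | h
    · rw [card_setW_half h (by omega)] at this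
      simp only [hp.dvd_mul, hp.dvd_factorial, Fintype.card_fin, hU3] at this
      rcases this with h' | h' | h'
      · rw [(Nat.prime_dvd_prime_iff_eq hp Nat.prime_two).1 h']; exact hπ 2 Nat.prime_two (by omega)
      · exact hπ p hp (by omega)
      · exact hπ p hp (by omega)
    · rw [card_setW_ne h] at this
      simp only [hp.dvd_mul, hp.dvd_factorial, Fintype.card_fin, hU3] at this
      exact hπ p hp (by omega)
  · obtain ⟨x, hx⟩ : ∃ x, x ∉ T := by
      by_contra h
      push Not at h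
      rw [Finset.eq_univ_iff_forall.2 h, Finset.card_univ, Fintype.card_fin] at hT
      omega
    have hTeq : T = Finset.univ.erase x := Finset.eq_of_subset_of_card_le
      (fun z hz => Finset.mem_erase.2 ⟨fun e => hx (e ▸ hz), Finset.mem_univ z⟩)
      (by rw [Finset.card_erase_of_mem (Finset.mem_univ x), Finset.card_univ, Fintype.card_fin, hT])
    have hfix : ∀ g ∈ setW U ⊓ alternatingGroup (Fin n), g x = x := by
      intro g hg
      rcases hle hg with h | h
      · by_contra hgx
        have hin : g x ∈ T := by rw [hTeq]; exact Finset.mem_erase.2 ⟨hgx, Finset.mem_univ _⟩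
        rw [← h] at hin
        obtain ⟨y, hy, hyx⟩ := Finset.mem_image.1 hin
        exact hx (g.injective hyx ▸ hy)
      · have := congrArg Finset.card h
        rw [Finset.card_image_of_injective _ g.injective, Finset.card_compl, Fintype.card_fin, hT] at this
        omega
    by_cases hxU : x ∈ U
    · have hmem : swap x0 x1 * swap x0 x2 ∈ setW U ⊓ alternatingGroup (Fin n) := by
        refine ⟨Or.inl (image_eq_of_inv fun z hz => ?_), sign_swap_pair n01 n02⟩
        simp only [hU, Finset.mem_insert, Finset.mem_singleton] at hz ⊢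
        rcases hz with rfl | rfl | rfl <;>
          simp [Equiv.swap_apply_of_ne_of_ne n01.symm n12, Equiv.swap_apply_of_ne_of_ne n02.symm n12.symm]
      have := hfix _ hmem
      simp only [hU, Finset.mem_insert, Finset.mem_singleton] at hxU
      rcases hxU with rfl | rfl | rfl
      · simp [Equiv.swap_apply_of_ne_of_ne n02.symm n12.symm, n02.symm] at this
      · simp [Equiv.swap_apply_of_ne_of_ne n01.symm n12, n01] at this
      · simp [n12] at this
    · simp only [hU, Finset.mem_insert, Finset.mem_singleton, not_or] at hxU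
      obtain ⟨y, hy⟩ : ∃ y, y ∉ ({x0, x1, x2, x} : Finset (Fin n)) := by
        by_contra h
        push Not at h
        have h4 : ({x0, x1, x2, x} : Finset (Fin n)).card ≤ 4 := Finset.card_le_four
        rw [Finset.eq_univ_iff_forall.2 h, Finset.card_univ, Fintype.card_fin] at h4
        omega
      simp only [Finset.mem_insert, Finset.mem_singleton, not_or] at hy
      have hmem : swap x0 x1 * swap x y ∈ setW U ⊓ alternatingGroup (Fin n) := by
        refine ⟨Or.inl (image_eq_of_inv fun z hz => ?_), sign_swap_pair n01 (Ne.symm hy.2.2.2)⟩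
        simp only [hU, Finset.mem_insert, Finset.mem_singleton] at hz ⊢
        rcases hz with rfl | rfl | rfl <;>
          simp [Equiv.swap_apply_of_ne_of_ne (Ne.symm hxU.1) (Ne.symm hy.1),
            Equiv.swap_apply_of_ne_of_ne (Ne.symm hxU.2.1) (Ne.symm hy.2.1),
            Equiv.swap_apply_of_ne_of_ne (Ne.symm hxU.2.2) (Ne.symm hy.2.2.1),
            Equiv.swap_apply_of_ne_of_ne n02.symm n12.symm]
      have := hfix _ hmem
      simp [Equiv.swap_apply_of_ne_of_ne hy.1 hy.2.1, hy.2.2.2] at this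

end Cfsg.Agent.Screen.HallSym
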