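import Cfsg.Agent.Screen.HallAlt

/-! # Hall subgroups of symmetric and alternating groups: existence and conjugacy -/

set_option autoImplicit false
set_option linter.style.haveILetI false
set_option linter.unusedSectionVars false

namespace Cfsg.Agent.Screen.HallSym

open Equiv Equiv.Perm

universe u

variable {π : Set ℕ} {α : Type u} [Fintype α] [DecidableEq α]

theorem exists_image_eq {S T : Finset α} (h : S.card = T.card) : ∃ g : Perm α, S.image g = T := by
  have e : {x // x ∈ S} ≃ {x // x ∈ T} := Fintype.equivOfCardEq (by rw [Fintype.card_coe, Fintype.card_coe, h])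
  refine ⟨e.extendSubtype, Finset.eq_of_subset_of_card_le (Finset.image_subset_iff.2 fun x hx => ?_) ?_⟩
  · exact e.extendSubtype_mem x hx
  · rw [Finset.card_image_of_injective _ (Equiv.injective _), h]

theorem mem_iff_of_image {S : Finset α} {g : Perm α} (h : S.image g = S) (x : α) : g x ∈ S ↔ x ∈ S := by
  conv_lhs => rw [← h]
  simp

/-- The permutations fixing `S` setwise. -/
def setStabEquiv (S : Finset α) :
    {g : Perm α // S.image g = S} ≃ Perm {x // x ∈ S} × Perm {x // x ∉ S} where
  toFun g := (g.1.subtypePerm (mem_iff_of_image g.2),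
    g.1.subtypePerm (fun x => (mem_iff_of_image g.2 x).not))
  invFun p := ⟨Equiv.Perm.subtypeCongr p.1 p.2, image_eq_of_inv fun x hx => by
    rw [Equiv.Perm.subtypeCongr.left_apply _ _ hx]
    exact (p.1 ⟨x, hx⟩).2⟩
  left_inv g := by
    refine Subtype.ext (Equiv.ext fun x => ?_)
    by_cases hx : x ∈ S
    · exact Equiv.Perm.subtypeCongr.left_apply _ _ hx
    · exact Equiv.Perm.subtypeCongr.right_apply _ _ hx
  right_inv p := by
    refine Prod.ext (Equiv.ext fun x => Subtype.ext ?_) (Equiv.ext fun x => Subtype.ext ?_)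
    · exact Equiv.Perm.subtypeCongr.left_apply _ _ x.2
    · exact Equiv.Perm.subtypeCongr.right_apply _ _ x.2

theorem card_setStab (S : Finset α) :
    Nat.card {g : Perm α // S.image g = S} = S.card.factorial * (Fintype.card α - S.card).factorial := by
  rw [Nat.card_congr (setStabEquiv S), Nat.card_prod, card_perm_eq, card_perm_eq, Fintype.card_coe,
    Fintype.card_subtype_compl, Fintype.card_coe]

theorem card_setW_ne {S : Finset α} (h : S.card ≠ Fintype.card α - S.card) :
    Nat.card (setW S) = S.card.factorial * (Fintype.card α - S.card).factorial := by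
  rw [← card_setStab S]
  refine Nat.card_congr (Equiv.subtypeEquivRight fun g => ⟨fun hg => ?_, fun hg => Or.inl hg⟩)
  rcases hg with hg | hg
  · exact hg
  · exfalso
    apply h
    rw [← Finset.card_compl, ← hg, Finset.card_image_of_injective _ g.injective]

theorem card_setW_half {S : Finset α} (h : S.card = Fintype.card α - S.card) (h0 : 0 < S.card) :
    Nat.card (setW S) = 2 * (S.card.factorial * (Fintype.card α - S.card).factorial) := by
  classical
  obtain ⟨τ, hτ⟩ := exists_image_eq (S := S) (T := Sᶜ) (by rw [Finset.card_compl]; exact h)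
  have hne : S ≠ Sᶜ := by
    obtain ⟨x, hx⟩ := Finset.card_pos.1 h0
    intro e
    exact (Finset.mem_compl.1 (e ▸ hx)) hx
  have hinv : (Sᶜ).image ⇑τ⁻¹ = S := by rw [← hτ, Finset.image_image]; simp
  have e : ↥(setW S) ≃ {g : Perm α // S.image g = S} ⊕ {g : Perm α // S.image g = S} :=
    { toFun := fun g => if hg : S.image g.1 = S then Sum.inl ⟨g, hg⟩ else Sum.inr ⟨τ⁻¹ * g.1, by
        rw [show ⇑(τ⁻¹ * g.1) = ⇑τ⁻¹ ∘ ⇑g.1 from rfl, ← Finset.image_image, g.2.resolve_left hg, hinv]⟩
      invFun := fun x => Sum.elim (fun g : {g : Perm α // S.image g = S} => (⟨g.1, mem_setW.2 (Or.inl g.2)⟩ : ↥(setW S)))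
        (fun g : {g : Perm α // S.image g = S} => ⟨τ * g.1, mem_setW.2 (Or.inr (by
        rw [show ⇑(τ * g.1) = ⇑τ ∘ ⇑g.1 from rfl, ← Finset.image_image, g.2, hτ]))⟩) x
      left_inv := fun g => by
        dsimp only
        split_ifs with hg
        · rfl
        · exact Subtype.ext (mul_inv_cancel_left τ g.1)
      right_inv := fun x => by
        rcases x with g | g
        · simp [g.2]
        · have : ¬ S.image (τ * g.1) = S := by
            rw [show ⇑(τ * g.1) = ⇑τ ∘ ⇑g.1 from rfl, ← Finset.image_image, g.2, hτ]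
            exact hne.symm
          simp only [Sum.elim_inr]
          exact (dif_neg this).trans (congrArg Sum.inr (Subtype.ext (inv_mul_cancel_left τ g.1))) }
  rw [Nat.card_congr e, Nat.card_sum, card_setStab]
  ring

theorem setW_hall {S : Finset α} (h : Shape π (Fintype.card α) S.card) : Cfsg.IsPiHall π (setW S) := by
  have hidx : ∀ N, Nat.card (setW S) * N = (Fintype.card α).factorial → (setW S).index = N := by
    intro N hN
    refine Nat.eq_of_mul_eq_mul_left Nat.card_pos (?_ : Nat.card (setW S) * _ = Nat.card (setW S) * N)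
    rw [hN, Subgroup.card_mul_index, card_perm_eq]
  rcases h with ⟨hn, h5, hπ, hk⟩ | ⟨hn, hk, hπ⟩ | ⟨hn, hk, hπ⟩
  · have hc : Nat.card (setW S) = (Fintype.card α - 1).factorial := by
      rw [card_setW_ne (by omega), hk, show Fintype.card α - (Fintype.card α - 1) = 1 by omega,
        Nat.factorial_one, mul_one]
    have hi := hidx (Fintype.card α) (by rw [hc, mul_comm, Nat.mul_factorial_pred (by omega)])
    refine ⟨fun p hp hd => ?_, fun p hp hpπ hd => ?_⟩
    · rw [hc, hp.dvd_factorial] at hd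
      exact (hπ p hp (by omega)).2 (by omega)
    · rw [hi, Nat.prime_dvd_prime_iff_eq hp hn] at hd
      exact lt_irrefl p (((hπ p hp hd.le).1 hpπ).trans_le hd.ge)
  · have hc : Nat.card (setW S) = 2 ^ 4 * 3 ^ 2 := by
      rw [card_setW_ne (by omega), hn, hk]; rfl
    have hi := hidx (5 * 7) (by rw [hc, hn]; rfl)
    refine ⟨fun p hp hd => ?_, fun p hp hpπ hd => ?_⟩
    · rw [hc, hp.dvd_mul] at hd
      have : p = 2 ∨ p = 3 := hd.imp (fun h => (Nat.prime_dvd_prime_iff_eq hp Nat.prime_two).1 (hp.dvd_of_dvd_pow h))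
        fun h => (Nat.prime_dvd_prime_iff_eq hp Nat.prime_three).1 (hp.dvd_of_dvd_pow h)
      exact (hπ p hp (by omega)).2 this
    · rw [hi, hp.dvd_mul, Nat.prime_dvd_prime_iff_eq hp (by norm_num),
        Nat.prime_dvd_prime_iff_eq hp (by norm_num)] at hd
      have := (hπ p hp (by omega)).1 hpπ
      omega
  · have hc : Nat.card (setW S) = 2 ^ 7 * 3 ^ 2 := by
      rw [card_setW_half (by omega) (by omega), hn, hk]; rfl
    have hi := hidx (5 * 7) (by rw [hc, hn]; rfl)
    refine ⟨fun p hp hd => ?_, fun p hp hpπ hd => ?_⟩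
    · rw [hc, hp.dvd_mul] at hd
      have : p = 2 ∨ p = 3 := hd.imp (fun h => (Nat.prime_dvd_prime_iff_eq hp Nat.prime_two).1 (hp.dvd_of_dvd_pow h))
        fun h => (Nat.prime_dvd_prime_iff_eq hp Nat.prime_three).1 (hp.dvd_of_dvd_pow h)
      exact (hπ p hp (by omega)).2 this
    · rw [hi, hp.dvd_mul, Nat.prime_dvd_prime_iff_eq hp (by norm_num),
        Nat.prime_dvd_prime_iff_eq hp (by norm_num)] at hd
      have := (hπ p hp (by omega)).1 hpπ
      omega

theorem setW_conj_le {S : Finset α} (g : Perm α) :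
    (setW S).map (MulAut.conj g).toMonoidHom ≤ setW (S.image g) := by
  rintro _ ⟨h, hh, rfl⟩
  rw [mem_setW]
  have e : (S.image g).image ⇑((MulAut.conj g).toMonoidHom h) = (S.image h).image g := by
    rw [Finset.image_image, Finset.image_image]
    refine Finset.image_congr fun x _ => ?_
    simp
  rw [e, ← img_compl]
  rcases hh with hh | hh <;> rw [hh]
  · exact Or.inl rfl
  · exact Or.inr rfl

/-- `π` meets the degree in at most one prime. -/
def Single (π : Set ℕ) (n : ℕ) : Prop :=
  ∀ p q : ℕ, p.Prime → q.Prime → p ∈ π → q ∈ π → p ≤ n → q ≤ n → p = q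

theorem perm_cases {H : Subgroup (Perm α)} (hH : Cfsg.IsPiHall π H) :
    Single π (Fintype.card α) ∨ AllIn π (Fintype.card α) ∨
      ∃ S : Finset α, Shape π (Fintype.card α) S.card ∧ H = setW S := by
  by_cases hs : Single π (Fintype.card α)
  · exact Or.inl hs
  refine Or.inr ?_
  simp only [Single, not_forall] at hs
  obtain ⟨p, q, hp, hq, hpπ, hqπ, hpn, hqn, hpq⟩ := hs
  have h2 : 2 ∈ π := by
    by_contra h2
    rcases Nat.lt_or_gt_of_ne hpq with h | h
    · exact no_hall_odd hH h2 hp hq hpπ hqπ h hqn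
    · exact no_hall_odd hH h2 hq hp hqπ hpπ h hpn
  rcases shape_theorem h2 _ α H rfl hH with h | h | ⟨S, hS, hle⟩
  · exact Or.inl h
  · exact absurd ((h p hp hpπ hpn).trans (h q hq hqπ hqn).symm) hpq
  · exact Or.inr ⟨S, hS, hall_eq_of_le hH (setW_hall hS) hle⟩

theorem single_card (h : Single π (Fintype.card α)) {p q : ℕ} (hp : p.Prime) (hq : q.Prime)
    (hpπ : p ∈ π) (hqπ : q ∈ π) (hpd : p ∣ Nat.card (Perm α)) (hqd : q ∣ Nat.card (Perm α)) : p = q := by
  rw [card_perm_eq] at hpd hqd
  exact h p q hp hq hpπ hqπ (hp.dvd_factorial.1 hpd) (hq.dvd_factorial.1 hqd)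

theorem perm_conj {H K : Subgroup (Perm α)} (hH : Cfsg.IsPiHall π H) (hK : Cfsg.IsPiHall π K) :
    ∃ g : Perm α, K = H.map (MulAut.conj g).toMonoidHom := by
  have htop : AllIn π (Fintype.card α) → ∀ L : Subgroup (Perm α), Cfsg.IsPiHall π L → L = ⊤ := by
    intro h L hL
    refine Subgroup.index_eq_one.1 ?_
    by_contra hne
    obtain ⟨p, hp, hd⟩ := Nat.exists_prime_and_dvd hne
    refine hL.2 p hp (h p hp ?_) hd
    have := hd.trans L.index_dvd_card
    rw [card_perm_eq] at this
    exact hp.dvd_factorial.1 this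
  by_cases hall : AllIn π (Fintype.card α)
  · refine ⟨1, ?_⟩
    rw [htop hall H hH, htop hall K hK, Subgroup.map_top_of_surjective _ (MulAut.conj (1 : Perm α)).surjective]
  by_cases hs : Single π (Fintype.card α)
  · exact (hall_conj_single fun p q hp hq h1 h2 h3 h4 => single_card hs hp hq h1 h2 h3 h4).2 H K hH hK
  obtain ⟨S, hS, rfl⟩ := ((perm_cases hH).resolve_left hs).resolve_left hall
  obtain ⟨T, hT, rfl⟩ := ((perm_cases hK).resolve_left hs).resolve_left hall
  obtain ⟨g, rfl⟩ := exists_image_eq (shape_unique hS hT)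
  exact ⟨g, (hall_eq_of_le (hall_map_conj hH g) hK (setW_conj_le g)).symm⟩

/-- A Hall subgroup of `Perm α` meets the alternating group in one. -/
theorem subgroupOf_hall {M0 : Subgroup (Perm α)} (h : Cfsg.IsPiHall π M0) :
    Cfsg.IsPiHall π (M0.subgroupOf (alternatingGroup α)) := by
  set A := alternatingGroup α
  have hdvd : (M0.subgroupOf A).index ∣ M0.index := by
    obtain ⟨k, hk⟩ := Subgroup.relIndex_dvd_index_of_normal A M0
    have e : M0.relIndex A * A.index = A.relIndex M0 * M0.index := by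
      rw [← Subgroup.inf_relIndex_right M0 A, Subgroup.relIndex_mul_index (inf_le_right),
        ← Subgroup.inf_relIndex_right A M0, Subgroup.relIndex_mul_index (inf_le_right), inf_comm]
    refine ⟨k, Nat.eq_of_mul_eq_mul_left (Nat.pos_of_ne_zero Subgroup.index_ne_zero_of_finite : 0 < (A.subgroupOf M0).index) ?_⟩
    show A.relIndex M0 * M0.index = A.relIndex M0 * (M0.relIndex A * k)
    rw [← e, hk]
    ring
  refine ⟨fun p hp hd => h.1 p hp ?_, fun p hp hpπ hd => h.2 p hp hpπ (hd.trans hdvd)⟩
  rw [← Subgroup.card_map_of_injective A.subtype_injective, Subgroup.subgroupOf_map_subtype] at hd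
  exact hd.trans (Subgroup.card_dvd_of_le inf_le_left)

/-- For odd `π` the Hall subgroups of the alternating group are Hall in the symmetric group. -/
theorem map_hall_odd (h2 : 2 ∉ π) {M : Subgroup ↥(alternatingGroup α)} (hM : Cfsg.IsPiHall π M) :
    Cfsg.IsPiHall π (M.map (alternatingGroup α).subtype) := by
  refine ⟨fun p hp hd => hM.1 p hp ?_, fun p hp hpπ hd => ?_⟩
  · rwa [Subgroup.card_map_of_injective (alternatingGroup α).subtype_injective] at hd
  · rw [map_index, hp.dvd_mul] at hd
    rcases hd with hd | hd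
    · exact hM.2 p hp hpπ hd
    · rcases subsingleton_or_nontrivial α with h | h
      · have : (alternatingGroup α).index = 1 := Subgroup.index_eq_one.2 (Subsingleton.elim _ _)
        rw [this, Nat.dvd_one] at hd
        exact hp.ne_one hd
      · rw [alternatingGroup.index_eq_two, Nat.prime_dvd_prime_iff_eq hp Nat.prime_two] at hd
        exact h2 (hd ▸ hpπ)

theorem alt_iff (M : Subgroup ↥(alternatingGroup α)) :
    Cfsg.IsPiHall π M ↔ ∃ M₀ : Subgroup (Perm α), Cfsg.IsPiHall π M₀ ∧
      M = M₀.subgroupOf (alternatingGroup α) := by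
  refine ⟨fun hM => ?_, fun ⟨M0, h0, e⟩ => e ▸ subgroupOf_hall h0⟩
  by_cases h2 : 2 ∈ π
  · exact alt_lift h2 hM
  · refine ⟨_, map_hall_odd h2 hM, ?_⟩
    ext x
    rw [Subgroup.mem_subgroupOf]
    exact ⟨fun hx => ⟨x, hx, rfl⟩, fun ⟨y, hy, e⟩ => Subtype.ext e ▸ hy⟩

theorem alt_conj {M M' : Subgroup ↥(alternatingGroup α)} (hM : Cfsg.IsPiHall π M)
    (hM' : Cfsg.IsPiHall π M') :
    ∃ g : ↥(alternatingGroup α), M' = M.map (MulAut.conj g).toMonoidHom := by
  by_cases h2 : 2 ∈ π
  · obtain ⟨M0, h0, rfl⟩ := alt_lift h2 hM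
    obtain ⟨M0', h0', rfl⟩ := alt_lift h2 hM'
    obtain ⟨g, hg⟩ := perm_conj h0 h0'
    obtain ⟨g', hg'A, hg'⟩ : ∃ g', g' ∈ alternatingGroup α ∧ M0' = M0.map (MulAut.conj g').toMonoidHom := by
      by_cases hgA : g ∈ alternatingGroup α
      · exact ⟨g, hgA, hg⟩
      · haveI : Nontrivial α := by
          by_contra h
          rw [not_nontrivial_iff_subsingleton] at h
          exact hgA (by rw [Subsingleton.elim g 1]; exact Subgroup.one_mem _)
        obtain ⟨x, y, hxy⟩ := Nontrivial.exists_pair_ne (α := α)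
        haveI : Fact (Nat.Prime 2) := ⟨Nat.prime_two⟩
        obtain ⟨k, hk⟩ := conj_into (p := 2) M0 (h0.2 2 Nat.prime_two h2) {Equiv.swap x y}
          (by rintro _ rfl _ rfl; exact Commute.refl _) (by rintro _ rfl; rw [sq, Equiv.swap_mul_self])
        set t := k⁻¹ * Equiv.swap x y * k with ht
        have htM : t ∈ M0 := hk _ rfl
        refine ⟨g * t, ?_, ?_⟩
        · have hg1 : sign g = -1 := by
            rcases Int.units_eq_one_or (sign g) with h | h
            · exact absurd (mem_alternatingGroup.2 h) hgA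
            · exact h
          rw [mem_alternatingGroup, map_mul, hg1, ht, map_mul, map_mul, mul_right_comm (sign k⁻¹), ← map_mul,
            inv_mul_cancel, map_one, one_mul, sign_swap hxy]
          decide
        · rw [hg]
          ext z
          simp only [Subgroup.mem_map, MulEquiv.coe_toMonoidHom, MulAut.conj_apply]
          constructor
          · rintro ⟨a, ha, rfl⟩
            exact ⟨t⁻¹ * a * t, M0.mul_mem (M0.mul_mem (M0.inv_mem htM) ha) htM, by group⟩
          · rintro ⟨a, ha, rfl⟩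
            exact ⟨t * a * t⁻¹, M0.mul_mem (M0.mul_mem htM ha) (M0.inv_mem htM), by group⟩
    refine ⟨⟨g', hg'A⟩, (hall_eq_of_le (hall_map_conj hM _) hM' ?_).symm⟩
    rintro _ ⟨z, hz, rfl⟩
    rw [Subgroup.mem_subgroupOf, hg']
    exact ⟨z, hz, by simp⟩
  · have hs : Single π (Fintype.card α) := by
      intro p q hp hq hpπ hqπ hpn hqn
      by_contra hpq
      rcases Nat.lt_or_gt_of_ne hpq with h | h
      · exact no_hall_odd (map_hall_odd h2 hM) h2 hp hq hpπ hqπ h hqn
      · exact no_hall_odd (map_hall_odd h2 hM) h2 hq hp hqπ hpπ h hpn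
    exact (hall_conj_single fun p q hp hq h1 h2' h3 h4 => single_card hs hp hq h1 h2'
      (h3.trans (Subgroup.card_subgroup_dvd_card _)) (h4.trans (Subgroup.card_subgroup_dvd_card _))).2 M M' hM hM'

theorem perm_ePi_iff :
    Cfsg.IsEPiGroup π (Perm α) ↔ Cfsg.IsEPiGroup π ↥(alternatingGroup α) := by
  refine ⟨fun ⟨M0, h0⟩ => ⟨_, subgroupOf_hall h0⟩, fun ⟨M, hM⟩ => ?_⟩
  obtain ⟨M0, h0, -⟩ := (alt_iff M).1 hM
  exact ⟨M0, h0⟩

end Cfsg.Agent.Screen.HallSym
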