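import Cfsg.Agent.Blocks.KleinFour
import Cfsg.Agent.Blocks.RealOdd
import Cfsg.Agent.Chars2.FSIndicator
import Cfsg.Agent.DegreeGraph.Indicator
import Mathlib.GroupTheory.Transfer
import Mathlib.Tactic.LinearCombination

/-!
Groups with a four-group Sylow 2-subgroup and no normal 2-complement: one class of involutions, and the
order formula from counting products of two involutions against the principal block.
-/

set_option autoImplicit false
set_option linter.style.haveILetI false

namespace Cfsg.Agent.Screen.KleinOrder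

open Cfsg Cfsg.Agent
open scoped ComplexConjugate

universe u

variable {G : Type u} [Group G]

/-- With a Sylow 2-subgroup of order four and no normal 2-complement, it is a four-group whose
involutions are all conjugate. -/
theorem exp_and_one [Finite G] (P : Sylow 2 G) (hP : Nat.card P = 4)
    (hnc : ¬ ∃ N : Subgroup G, N.Normal ∧ Nat.card N * 4 = Nat.card G) :
    (∀ y : P, y * y = 1) ∧ ∀ s t : G, orderOf s = 2 → orderOf t = 2 → IsConj s t := by
  classical
  haveI : Fact (Nat.Prime 2) := ⟨Nat.prime_two⟩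
  have hcomm : ∀ a ∈ (P : Subgroup G), ∀ b ∈ (P : Subgroup G), a * b = b * a := fun a ha b hb => by
    exact congrArg Subtype.val (IsPGroup.commutative_of_card_eq_prime_sq (p := 2)
      (show Nat.card (P : Subgroup G) = 2 ^ 2 by rw [hP]; norm_num) ⟨a, ha⟩ ⟨b, hb⟩)
  set N := Subgroup.normalizer ((P : Subgroup G) : Set G) with hN
  set C := Subgroup.centralizer ((P : Subgroup G) : Set G) with hC
  obtain ⟨n, hnN, hn2⟩ : ∃ n ∈ N, n * n ∉ C := by
    by_contra hcon
    push Not at hcon
    have hT : Subgroup.normalizer ((P : Subgroup G) : Set G) ≤ Subgroup.centralizer ((P : Subgroup G) : Set G) := by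
      intro n hn
      have hm : ¬ 2 ∣ orderOf n / 2 ^ (orderOf n).factorization 2 :=
        Nat.not_dvd_ordCompl Nat.prime_two (orderOf_pos n).ne'
      set m := orderOf n / 2 ^ (orderOf n).factorization 2 with hmdef
      have hnm : n ^ m ∈ (P : Subgroup G) := by
        have hQ : IsPGroup 2 (Subgroup.zpowers (n ^ m)) := by
          have h1 : orderOf (n ^ m) ∣ 2 ^ (orderOf n).factorization 2 := orderOf_dvd_of_pow_eq_one (by
            rw [← pow_mul, hmdef, Nat.div_mul_cancel (Nat.ordProj_dvd _ _), pow_orderOf_eq_one])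
          obtain ⟨i, -, hi⟩ := (Nat.dvd_prime_pow Nat.prime_two).1 h1
          exact IsPGroup.of_card (n := i) (by rw [Nat.card_zpowers, hi])
        have hQN : Subgroup.zpowers (n ^ m) ≤ N := Subgroup.zpowers_le.2 (N.pow_mem hn m)
        have h := P.3 (hQ.to_sup_of_normal_right' P.2 hQN) le_sup_right
        rw [← h]
        exact Subgroup.mem_sup_left (Subgroup.mem_zpowers _)
      have hmC : n ^ m ∈ C := Subgroup.mem_centralizer_iff.2 fun a ha => hcomm a ha _ hnm
      obtain ⟨k, hk⟩ : Odd m := Nat.odd_iff.2 (by omega)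
      rw [hk, pow_succ, pow_mul, pow_two] at hmC
      exact (C.mul_mem_cancel_left (C.pow_mem (hcon n hn) k)).1 hmC
    refine hnc ⟨(MonoidHom.transferSylow P hT).ker, inferInstance, ?_⟩
    have h := (MonoidHom.ker_transferSylow_isComplement' P hT).card_mul
    rwa [hP] at h
  -- the three-cycle
  have hfix : ¬ ∀ a ∈ (P : Subgroup G), n * (n * a * n⁻¹) * n⁻¹ = a := fun h => hn2 <|
    Subgroup.mem_centralizer_iff.2 fun a ha => by
      calc a * (n * n) = n * (n * a * n⁻¹) * n⁻¹ * (n * n) := by rw [h a ha]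
        _ = n * n * a := by group
  push Not at hfix
  obtain ⟨a, haP, ha2⟩ := hfix
  have hNmem : ∀ b ∈ (P : Subgroup G), n * b * n⁻¹ ∈ (P : Subgroup G) := fun b hb =>
    (Subgroup.mem_normalizer_iff.1 hnN b).1 hb
  have ha1 : a ≠ 1 := fun h => ha2 (by rw [h]; group)
  have hb1 : n * a * n⁻¹ ≠ 1 := fun h => ha1 (conj_eq_one_iff.1 h)
  have hc1 : n * (n * a * n⁻¹) * n⁻¹ ≠ 1 := fun h => hb1 (conj_eq_one_iff.1 h)
  have hab : a ≠ n * a * n⁻¹ := fun h => ha2 (by rw [← h, ← h])
  have hbc : n * a * n⁻¹ ≠ n * (n * a * n⁻¹) * n⁻¹ := fun h => hab (by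
    have := congrArg (fun z => n⁻¹ * z * n) h
    simpa [mul_assoc] using this)
  letI : Fintype (P : Subgroup G) := Fintype.ofFinite _
  have hall : ∀ z ∈ (P : Subgroup G), z = 1 ∨ z = a ∨ z = n * a * n⁻¹ ∨ z = n * (n * a * n⁻¹) * n⁻¹ := by
    have hcard : ({(1 : G), a, n * a * n⁻¹, n * (n * a * n⁻¹) * n⁻¹} : Finset G).card = 4 := by
      simp [Finset.card_insert_of_notMem, Ne.symm ha1, Ne.symm hb1, Ne.symm hc1, hab, Ne.symm ha2, hbc]
    have hsub : ({(1 : G), a, n * a * n⁻¹, n * (n * a * n⁻¹) * n⁻¹} : Finset G) ⊆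
        (Set.toFinite ((P : Subgroup G) : Set G)).toFinset := by
      intro y hy
      rw [Set.Finite.mem_toFinset]
      simp only [Finset.mem_insert, Finset.mem_singleton] at hy
      rcases hy with rfl | rfl | rfl | rfl
      exacts [one_mem _, haP, hNmem a haP, hNmem _ (hNmem a haP)]
    have hcP : (Set.toFinite ((P : Subgroup G) : Set G)).toFinset.card = 4 := by
      rw [← Set.ncard_eq_toFinset_card _, ← Nat.card_coe_set_eq]
      exact hP
    intro z hz
    have heq := Finset.eq_of_subset_of_card_le hsub (by rw [hcard, hcP])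
    have hz' : z ∈ (Set.toFinite ((P : Subgroup G) : Set G)).toFinset := (Set.Finite.mem_toFinset _).2 hz
    rw [← heq] at hz'
    simpa using hz'
  have hconj : ∀ z ∈ (P : Subgroup G), z ≠ 1 → IsConj a z := fun z hz hz1 => by
    rcases hall z hz with h | h | h | h
    · exact absurd h hz1
    · rw [h]
    · rw [h]; exact isConj_iff.2 ⟨n, rfl⟩
    · rw [h]; exact isConj_iff.2 ⟨n * n, by group⟩
  obtain ⟨t, ht⟩ := exists_prime_orderOf_dvd_card' 2 (G := (P : Subgroup G)) (by rw [hP]; norm_num)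
  rw [← Subgroup.orderOf_coe] at ht
  have hord : ∀ z ∈ (P : Subgroup G), z ≠ 1 → orderOf z = 2 := fun z hz hz1 => by
    obtain ⟨c, hc⟩ := isConj_iff.1 ((hconj _ t.2 (fun h => by rw [h, orderOf_one] at ht; omega)).symm.trans
      (hconj z hz hz1))
    rw [← hc]
    exact (orderOf_injective (MulAut.conj c).toMonoidHom (MulAut.conj c).injective (t : G)).trans ht
  refine ⟨fun y => Subtype.ext ?_, ?_⟩
  · by_cases hy : (y : G) = 1
    · simp [hy]
    · show (y : G) * y = 1
      have h := pow_orderOf_eq_one (y : G)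
      rw [hord y y.2 hy, pow_two] at h
      exact h
  · have key : ∀ s : G, orderOf s = 2 → IsConj a s := by
      intro s hs
      have hQ : IsPGroup 2 (Subgroup.zpowers s) :=
        IsPGroup.of_card (n := 1) (by rw [Nat.card_zpowers, hs, pow_one])
      obtain ⟨T, hT⟩ := hQ.exists_le_sylow
      obtain ⟨c, hc⟩ := MulAction.exists_smul_eq G P T
      have hsT : s ∈ ((c • P : Sylow 2 G) : Subgroup G) := hc.symm ▸ hT (Subgroup.mem_zpowers s)
      obtain ⟨z, hz, rfl⟩ := hsT
      refine (hconj z hz (fun h => ?_)).trans (isConj_iff.2 ⟨c, rfl⟩)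
      change orderOf (c * z * c⁻¹) = 2 at hs
      rw [h, mul_one, mul_inv_cancel, orderOf_one] at hs
      omega
    exact fun s t hs ht => (key s hs).symm.trans (key t ht)

/-- Elements have no order divisible by four when a Sylow 2-subgroup has exponent two. -/
theorem not_four_dvd [Finite G] (P : Sylow 2 G) (hexp : ∀ y : P, y * y = 1) (g : G) : ¬ 4 ∣ orderOf g := by
  haveI : Fact (Nat.Prime 2) := ⟨Nat.prime_two⟩
  intro h
  have h4 : orderOf (g ^ (orderOf g / 4)) = 4 := by
    have hd : 0 < orderOf g / 4 := Nat.div_pos (Nat.le_of_dvd (orderOf_pos g) h) (by norm_num)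
    rw [orderOf_pow_of_dvd hd.ne' (Nat.div_dvd_of_dvd h), Nat.div_div_self h (orderOf_pos g).ne']
  set w := g ^ (orderOf g / 4)
  have hQ : IsPGroup 2 (Subgroup.zpowers w) := IsPGroup.of_card (n := 2) (by rw [Nat.card_zpowers, h4]; norm_num)
  obtain ⟨T, hT⟩ := hQ.exists_le_sylow
  obtain ⟨c, hc⟩ := MulAction.exists_smul_eq G P T
  have hwT : w ∈ ((c • P : Sylow 2 G) : Subgroup G) := hc.symm ▸ hT (Subgroup.mem_zpowers w)
  obtain ⟨z, hz, hzw⟩ := hwT
  have hzz : z * z = 1 := congrArg Subtype.val (hexp ⟨z, hz⟩)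
  change c * z * c⁻¹ = w at hzw
  have : w ^ 2 = 1 := by
    calc w ^ 2 = c * (z * z) * c⁻¹ := by rw [pow_two, ← hzw]; group
      _ = 1 := by rw [hzz]; group
  have := Nat.le_of_dvd (by norm_num) (orderOf_dvd_of_pow_eq_one this)
  omega

/-- The involution part. -/
theorem existsUnique_part [Finite G] (P : Sylow 2 G) (hexp : ∀ y : P, y * y = 1) {g : G} (hg : 2 ∣ orderOf g) :
    ∃ z : G, orderOf z = 2 ∧ Commute g z ∧ Odd (orderOf (g * z)) ∧
      ∀ z' : G, orderOf z' = 2 → Commute g z' → Odd (orderOf (g * z')) → z' = z := by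
  have h4 := not_four_dvd P hexp g
  have hpos := orderOf_pos g
  set k := orderOf g / 2 with hk
  have hm : orderOf g = 2 * k := (Nat.mul_div_cancel' hg).symm
  have hkodd : Odd k := Nat.odd_iff.2 (by omega)
  have hk0 : k ≠ 0 := by omega
  have hz : orderOf (g ^ k) = 2 := by
    rw [orderOf_pow_of_dvd hk0 (Nat.div_dvd_of_dvd hg), Nat.div_div_self hg hpos.ne']
  refine ⟨g ^ k, hz, Commute.self_pow g k, ?_, fun z' hz' hc hodd => ?_⟩
  · refine hkodd.of_dvd_nat (orderOf_dvd_of_pow_eq_one ?_)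
    obtain ⟨l, hl⟩ : Odd k := hkodd
    rw [(Commute.self_pow g k).mul_pow, hl, pow_succ (g ^ (2 * l + 1)), pow_mul (g ^ (2 * l + 1)), ← hl,
      ← hz, pow_orderOf_eq_one, one_pow, one_mul, ← pow_add, ← two_mul, ← hm, pow_orderOf_eq_one]
  · have hz2 : z' ^ 2 = 1 := by rw [← hz', pow_orderOf_eq_one]
    have hgm : g * z' ^ 1 = g * z' := by rw [pow_one]
    obtain ⟨l, hl⟩ : Odd k := hkodd
    have hzk : z' ^ k = z' := by rw [hl, pow_succ, pow_mul, hz2, one_pow, one_mul]
    have h2k : (g * z') ^ (2 * k) = 1 := by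
      rw [hc.mul_pow, ← hm, pow_orderOf_eq_one, hm, pow_mul, hz2, one_pow, one_mul]
    have hdvd : orderOf (g * z') ∣ k :=
      (Nat.Coprime.dvd_of_dvd_mul_left (Nat.coprime_two_right.2 hodd) (orderOf_dvd_of_pow_eq_one h2k))
    have h1 : g ^ k * z' = 1 := by
      rw [← orderOf_dvd_iff_pow_eq_one.1 hdvd, hc.mul_pow, hzk]
    rw [eq_inv_of_mul_eq_one_left h1]
    exact (inv_eq_of_mul_eq_one_right (by rw [← pow_two, hz2])).symm

section Count

variable [Fintype G] {M : Ideal AlgInt} [M.IsMaximal]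

open scoped Classical in
/-- The principal block as a finite set. -/
noncomputable def blockFinset (M : Ideal AlgInt) : Finset (IrrCharacter G) :=
  Finset.univ.filter (· ∈ principalBlock M G)

/-- Pairs of involutions with product in the coset of `J` modulo elements of odd order. -/
theorem card_pairs (P : Sylow 2 G) (hP : Nat.card P = 4) (hexp : ∀ y : P, y * y = 1) {J : G}
    (hJP : J ∈ (P : Subgroup G)) (hJ : orderOf J = 2) [DecidablePred fun p : G × G =>
      orderOf p.1 = 2 ∧ orderOf p.2 = 2 ∧ Commute (p.1 * p.2) J ∧ Odd (orderOf (p.1 * p.2 * J))] :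
    ((Finset.univ.filter fun p : G × G => orderOf p.1 = 2 ∧ orderOf p.2 = 2 ∧ Commute (p.1 * p.2) J ∧
      Odd (orderOf (p.1 * p.2 * J))).card : ℕ) * Nat.card (Subgroup.centralizer ((P : Subgroup G) : Set G)) ^ 2 =
      2 * Nat.card (Subgroup.centralizer ({J} : Set G)) ^ 2 := by
  classical
  haveI : Fact (Nat.Prime 2) := ⟨Nat.prime_two⟩
  set C := Subgroup.centralizer ({J} : Set G) with hC
  letI : Fintype C := Fintype.ofFinite _
  have hPsq : ∀ a ∈ (P : Subgroup G), a * a = 1 := fun a ha => congrArg Subtype.val (hexp ⟨a, ha⟩)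
  have hinv : ∀ {a : G}, a * a = 1 → a⁻¹ = a := fun h => inv_eq_of_mul_eq_one_right h
  have hPc : ∀ a ∈ (P : Subgroup G), ∀ b ∈ (P : Subgroup G), a * b = b * a := fun a ha b hb => by
    rw [← hinv (hPsq _ ((P : Subgroup G).mul_mem ha hb)), mul_inv_rev, hinv (hPsq a ha), hinv (hPsq b hb)]
  have hPC : (P : Subgroup G) ≤ C := fun a ha => Subgroup.mem_centralizer_singleton_iff.2 (hPc a ha J hJP)
  let Q : Sylow 2 C := P.subtype hPC
  have hQc : Nat.card Q = 4 := by
    rw [← hP]; exact Nat.card_congr (Subgroup.subgroupOfEquivOfLe hPC).toEquiv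
  have hJ1 : J ≠ 1 := fun h => by rw [h, orderOf_one] at hJ; omega
  have hJC : J ∈ C := hPC hJP
  obtain ⟨N, hNn, hNodd, hNidx⟩ := Chars2.exists_complement_of_central Q hQc
    (fun x hx => Subtype.ext (hPsq _ hx)) ⟨J, hJC⟩ hJP (fun h => hJ1 (congrArg Subtype.val h))
    (fun g => Subtype.ext (Subgroup.mem_centralizer_singleton_iff.1 g.2))
  haveI := hNn
  -- odd order means lying in N
  have hQinj : ∀ a ∈ (Q : Subgroup C), a ∈ N → a = 1 := by
    intro a ha haN
    have h1 : orderOf a ∣ 2 := orderOf_dvd_of_pow_eq_one (Subtype.ext (by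
      show (a : G) ^ 2 = 1
      rw [pow_two]; exact hPsq _ ha))
    have h2 : orderOf a ∣ Nat.card N := Subgroup.orderOf_dvd_natCard N haN
    rcases (Nat.dvd_prime Nat.prime_two).1 h1 with h | h
    · exact orderOf_eq_one_iff.1 h
    · exact absurd (h ▸ h2) hNodd
  have hmemN : ∀ w : C, w ∈ N ↔ Odd (orderOf w) := by
    intro w
    constructor
    · intro hw
      rw [Nat.odd_iff]
      have : ¬ 2 ∣ orderOf w := fun h => hNodd (h.trans (Subgroup.orderOf_dvd_natCard N hw))
      omega
    · intro hw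
      have h1 := orderOf_map_dvd (QuotientGroup.mk' N) w
      have h2 : orderOf (QuotientGroup.mk' N w) ∣ 2 ^ 2 := hNidx ▸ orderOf_dvd_natCard _
      have h3 : orderOf (QuotientGroup.mk' N w) = 1 :=
        Nat.eq_one_of_dvd_coprimes ((Nat.coprime_two_right.2 hw).pow_right 2) h1 h2
      exact (QuotientGroup.eq_one_iff w).1 (orderOf_eq_one_iff.1 h3)
  -- the two classes
  let cls : G → Finset G := fun b => Finset.univ.image fun c : C => (c : G) * b * (c : G)⁻¹
  have hclsC : ∀ b ∈ (P : Subgroup G), ∀ u ∈ cls b, u ∈ C ∧ u * u = 1 := by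
    intro b hb u hu
    obtain ⟨c, -, rfl⟩ := Finset.mem_image.1 hu
    refine ⟨C.mul_mem (C.mul_mem c.2 (hPC hb)) (C.inv_mem c.2), ?_⟩
    calc (c : G) * b * (c : G)⁻¹ * ((c : G) * b * (c : G)⁻¹) = (c : G) * (b * b) * (c : G)⁻¹ := by group
      _ = 1 := by rw [hPsq b hb]; group
  have hclsmk : ∀ b ∈ (P : Subgroup G), ∀ u (hu : u ∈ cls b) (hbC : b ∈ C) (huC : u ∈ C),
      QuotientGroup.mk' N ⟨u, huC⟩ = QuotientGroup.mk' N ⟨b, hbC⟩ := by
    intro b hb u hu hbC huC
    obtain ⟨c, -, rfl⟩ := Finset.mem_image.1 hu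
    rw [show (⟨(c : G) * b * (c : G)⁻¹, huC⟩ : C) = c * ⟨b, hbC⟩ * c⁻¹ from rfl, map_mul, map_mul, map_inv]
    have hqc : ∀ p q : C ⧸ N, p * q = q * p := by
      have h4 : Nat.card (C ⧸ N) = 2 ^ 2 := hNidx
      exact fun p q => IsPGroup.commutative_of_card_eq_prime_sq h4 p q
    rw [hqc (QuotientGroup.mk' N c), mul_inv_cancel_right]
  obtain ⟨b, hbP, hb1, hbJ⟩ : ∃ b ∈ (P : Subgroup G), b ≠ 1 ∧ b ≠ J := by
    by_contra hcon
    push Not at hcon
    letI : Fintype (P : Subgroup G) := Fintype.ofFinite _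
    have hsub : (Finset.univ : Finset (P : Subgroup G)) ⊆ {1, ⟨J, hJP⟩} := fun x _ => by
      by_cases h : (x : G) = 1
      · simp [Subtype.ext_iff, h]
      · simp [Subtype.ext_iff, hcon x x.2 h]
    have h := (Finset.card_le_card hsub).trans Finset.card_le_two
    rw [Finset.card_univ, ← Nat.card_eq_fintype_card, hP] at h
    omega
  set c := J * b with hcdef
  have hcP : c ∈ (P : Subgroup G) := (P : Subgroup G).mul_mem hJP hbP
  have hJJ : J * J = 1 := hPsq J hJP
  have hc1 : c ≠ 1 := fun h => hbJ (by rw [← hinv hJJ]; exact eq_inv_of_mul_eq_one_right h)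
  have hcJ : c ≠ J := fun h => hb1 (mul_eq_left.1 h)
  have hPfour : ∀ z ∈ (P : Subgroup G), z = 1 ∨ z = J ∨ z = b ∨ z = c := by
    have hbc : b ≠ c := fun h => hJ1 (mul_eq_right.1 h.symm)
    have hcard : ({(1 : G), J, b, c} : Finset G).card = 4 := by
      simp [Finset.card_insert_of_notMem, Ne.symm hJ1, Ne.symm hb1, Ne.symm hc1, Ne.symm hbJ, Ne.symm hcJ, hbc]
    have hsub : ({(1 : G), J, b, c} : Finset G) ⊆ (Set.toFinite ((P : Subgroup G) : Set G)).toFinset := by
      intro y hy
      rw [Set.Finite.mem_toFinset]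
      simp only [Finset.mem_insert, Finset.mem_singleton] at hy
      rcases hy with rfl | rfl | rfl | rfl
      exacts [one_mem _, hJP, hbP, hcP]
    have hcP' : (Set.toFinite ((P : Subgroup G) : Set G)).toFinset.card = 4 := by
      rw [← Set.ncard_eq_toFinset_card _, ← Nat.card_coe_set_eq]
      exact hP
    intro z hz
    have heq := Finset.eq_of_subset_of_card_le hsub (by rw [hcard, hcP'])
    have hz' : z ∈ (Set.toFinite ((P : Subgroup G) : Set G)).toFinset := (Set.Finite.mem_toFinset _).2 hz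
    rw [← heq] at hz'
    simpa using hz'
  -- sizes
  have hcls : ∀ a ∈ (P : Subgroup G), a ≠ 1 → a ≠ J →
      (cls a).card * Nat.card (Subgroup.centralizer ((P : Subgroup G) : Set G)) = Nat.card C := by
    intro a ha ha1 haJ
    have hmem : ∀ d : G, d ∈ Subgroup.centralizer ((P : Subgroup G) : Set G) ↔ d ∈ C ∧ d * a = a * d := by
      intro d
      constructor
      · intro hd
        exact ⟨Subgroup.mem_centralizer_singleton_iff.2 (Subgroup.mem_centralizer_iff.1 hd J hJP).symm,
          (Subgroup.mem_centralizer_iff.1 hd a ha).symm⟩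
      · rintro ⟨hdC, hda⟩
        have hdJ : d * J = J * d := Subgroup.mem_centralizer_singleton_iff.1 hdC
        have hdb : d * b = b * d := by
          rcases hPfour a ha with h | h | h | h
          · exact absurd h ha1
          · exact absurd h haJ
          · rwa [h] at hda
          · rw [h, hcdef] at hda
            calc d * b = d * (J * J * b) := by rw [hJJ, one_mul]
              _ = d * J * (J * b) := by group
              _ = J * (d * (J * b)) := by rw [hdJ]; group
              _ = J * J * b * d := by rw [hda]; group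
              _ = b * d := by rw [hJJ, one_mul]
        refine Subgroup.mem_centralizer_iff.2 fun z hz => ?_
        rcases hPfour z hz with h | h | h | h <;> rw [h]
        · simp
        · exact hdJ.symm
        · exact hdb.symm
        · rw [hcdef, ← mul_assoc, hdJ, mul_assoc, mul_assoc, hdb]
    set act : C → G := fun d => (d : G) * a * (d : G)⁻¹ with hact
    have hfib : ∀ v ∈ cls a, (Finset.univ.filter fun d : C => act d = v).card =
        Nat.card (Subgroup.centralizer ((P : Subgroup G) : Set G)) := by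
      intro v hv
      obtain ⟨d₀, -, rfl⟩ := Finset.mem_image.1 hv
      rw [← Fintype.card_subtype, ← Nat.card_eq_fintype_card]
      refine Nat.card_congr
        { toFun := fun d => ⟨(d₀ : G)⁻¹ * ((d.1 : C) : G), (hmem _).2 ⟨C.mul_mem (C.inv_mem d₀.2) d.1.2, ?_⟩⟩
          invFun := fun w => ⟨d₀ * ⟨w.1, ((hmem _).1 w.2).1⟩, ?_⟩
          left_inv := fun d => Subtype.ext (Subtype.ext (by simp))
          right_inv := fun w => Subtype.ext (by simp) }
      · have h : ((d.1 : C) : G) * a * ((d.1 : C) : G)⁻¹ = (d₀ : G) * a * (d₀ : G)⁻¹ := d.2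
        calc (d₀ : G)⁻¹ * ((d.1 : C) : G) * a = (d₀ : G)⁻¹ * (((d.1 : C) : G) * a * ((d.1 : C) : G)⁻¹) * ((d.1 : C) : G) := by group
          _ = a * ((d₀ : G)⁻¹ * ((d.1 : C) : G)) := by rw [h]; group
      · show (d₀ : G) * (w.1 : G) * a * ((d₀ : G) * (w.1 : G))⁻¹ = (d₀ : G) * a * (d₀ : G)⁻¹
        rw [mul_assoc (d₀ : G), ((hmem _).1 w.2).2]; group
    have h := Finset.card_eq_sum_card_image act (Finset.univ : Finset C)
    rw [Finset.sum_congr rfl (fun v hv => hfib v hv), Finset.sum_const, smul_eq_mul, Finset.card_univ,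
      ← Nat.card_eq_fintype_card] at h
    exact h.symm
  -- classification of involutions of C
  have hinvC : ∀ u ∈ C, orderOf u = 2 → u = J ∨ u ∈ cls b ∨ u ∈ cls c := by
    intro u hu hu2
    have hQ2 : IsPGroup 2 (Subgroup.zpowers (⟨u, hu⟩ : C)) :=
      IsPGroup.of_card (n := 1) (by rw [Nat.card_zpowers, Subgroup.orderOf_mk, hu2, pow_one])
    obtain ⟨T, hT⟩ := hQ2.exists_le_sylow
    obtain ⟨d, hd⟩ := MulAction.exists_smul_eq C Q T
    have huT : (⟨u, hu⟩ : C) ∈ ((d • Q : Sylow 2 C) : Subgroup C) := hd.symm ▸ hT (Subgroup.mem_zpowers _)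
    obtain ⟨z, hz, hzu⟩ := huT
    have hzu' : (d : G) * (z : G) * (d : G)⁻¹ = u := congrArg Subtype.val hzu
    rcases hPfour (z : G) hz with h | h | h | h
    · rw [h] at hzu'
      rw [show u = 1 by rw [← hzu']; group, orderOf_one] at hu2; omega
    · left
      rw [← hzu', h, Subgroup.mem_centralizer_singleton_iff.1 d.2, mul_inv_cancel_right]
    · exact Or.inr (Or.inl (Finset.mem_image.2 ⟨d, Finset.mem_univ _, h ▸ hzu'⟩))
    · exact Or.inr (Or.inr (Finset.mem_image.2 ⟨d, Finset.mem_univ _, h ▸ hzu'⟩))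
  have hbC := hPC hbP
  have hcC := hPC hcP
  -- images in the quotient are distinct
  have hqinj : ∀ p q : C, p ∈ (Q : Subgroup C) → q ∈ (Q : Subgroup C) →
      QuotientGroup.mk' N p = QuotientGroup.mk' N q → p = q := by
    intro p q hp hq h
    exact inv_mul_eq_one.1 (hQinj _ ((Q : Subgroup C).mul_mem ((Q : Subgroup C).inv_mem hp) hq)
      (QuotientGroup.eq.1 h))
  have hset : (Finset.univ.filter fun p : G × G => orderOf p.1 = 2 ∧ orderOf p.2 = 2 ∧ Commute (p.1 * p.2) J ∧
      Odd (orderOf (p.1 * p.2 * J))) = cls b ×ˢ cls c ∪ cls c ×ˢ cls b := by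
    ext ⟨u, v⟩
    simp only [Finset.mem_filter, Finset.mem_univ, true_and, Finset.mem_union, Finset.mem_product]
    constructor
    · rintro ⟨hu, hv, huv, hodd⟩
      have huC : u ∈ C := by
        have hu2 : u * u = 1 := by rw [← pow_two, ← hu, pow_orderOf_eq_one]
        have hv2 : v * v = 1 := by rw [← pow_two, ← hv, pow_orderOf_eq_one]
        have heven : 2 ∣ orderOf (u * v) := by
          by_contra ho
          have hoO : Odd (orderOf (u * v)) := Nat.odd_iff.2 (by omega)
          have h1 : (u * v * J) ^ (orderOf (u * v)) = J := by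
            obtain ⟨l, hl⟩ := hoO
            rw [huv.mul_pow, pow_orderOf_eq_one, one_mul, hl, pow_succ, pow_mul, pow_two, hJJ, one_pow, one_mul]
          have h2 : orderOf J ∣ orderOf (u * v * J) := by
            nth_rw 1 [← h1]; exact orderOf_pow_dvd _
          rw [hJ] at h2
          exact Nat.not_even_iff_odd.2 hodd (even_iff_two_dvd.2 h2)
        obtain ⟨z, -, -, -, huniq⟩ := existsUnique_part P hexp heven
        have hzJ := huniq J hJ huv hodd
        have hconj : u * (u * v) * u⁻¹ = (u * v)⁻¹ := by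
          rw [mul_inv_rev, hinv hu2, hinv hv2, ← mul_assoc, hu2, one_mul]
        have hJ' : orderOf (u * J * u⁻¹) = 2 := by
          rw [← hJ]; exact orderOf_injective (MulAut.conj u).toMonoidHom (MulAut.conj u).injective J
        have hc' : Commute (u * v)⁻¹ (u * J * u⁻¹) := by
          rw [← hconj]; exact (Commute.conj_iff u).2 huv
        have ho' : Odd (orderOf (u * v * (u * J * u⁻¹))) := by
          have h1 : orderOf (u * v * (u * J * u⁻¹)) = orderOf (u * v * J) := by
            rw [← orderOf_inv (u * v * (u * J * u⁻¹)), mul_inv_rev,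
              hinv (show (u * J * u⁻¹) * (u * J * u⁻¹) = 1 by rw [← pow_two, ← hJ', pow_orderOf_eq_one]),
              ← hconj, show u * J * u⁻¹ * (u * (u * v) * u⁻¹) = u * (J * (u * v)) * u⁻¹ by group, ← huv.eq]
            exact orderOf_injective (MulAut.conj u).toMonoidHom (MulAut.conj u).injective (u * v * J)
          rwa [h1]
        have hJu : u * J * u⁻¹ = J := by
          rw [hzJ]
          have := huniq _ hJ' (by simpa using hc'.inv_left) ho'
          rw [hzJ] at this
          exact this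
        exact Subgroup.mem_centralizer_singleton_iff.2 (mul_inv_eq_iff_eq_mul.1 hJu)
      have hvC : v ∈ C := by
        have h1 : u * v ∈ C := Subgroup.mem_centralizer_singleton_iff.2 huv.eq
        simpa using C.mul_mem (C.inv_mem huC) h1
      have hN' : (⟨u, huC⟩ * ⟨v, hvC⟩ * ⟨J, hJC⟩ : C) ∈ N := by
        rw [hmemN, ← Subgroup.orderOf_coe]; exact hodd
      have hq : QuotientGroup.mk' N ⟨u, huC⟩ * QuotientGroup.mk' N ⟨v, hvC⟩ * QuotientGroup.mk' N ⟨J, hJC⟩ = 1 := by
        rw [← map_mul, ← map_mul]; exact (QuotientGroup.eq_one_iff _).2 hN'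
      have himg : ∀ w (hw : w ∈ C), orderOf w = 2 → ∃ z, z ∈ (P : Subgroup G) ∧ ∃ hz : z ∈ C, z ≠ 1 ∧
          QuotientGroup.mk' N ⟨w, hw⟩ = QuotientGroup.mk' N ⟨z, hz⟩ ∧ ((z = b ∧ w ∈ cls b) ∨ (z = c ∧ w ∈ cls c) ∨ (z = J ∧ w = J)) := by
        intro w hw hw2
        rcases hinvC w hw hw2 with h | h | h
        · exact ⟨J, hJP, hJC, hJ1, by subst h; rfl, Or.inr (Or.inr ⟨rfl, h⟩)⟩
        · exact ⟨b, hbP, hbC, hb1, hclsmk b hbP w h hbC hw, Or.inl ⟨rfl, h⟩⟩
        · exact ⟨c, hcP, hcC, hc1, hclsmk c hcP w h hcC hw, Or.inr (Or.inl ⟨rfl, h⟩)⟩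
      obtain ⟨z, hzP, hzC, hz1, hzq, hz'⟩ := himg u huC hu
      obtain ⟨y, hyP, hyC, hy1, hyq, hy'⟩ := himg v hvC hv
      rw [hzq, hyq, ← map_mul, ← map_mul] at hq
      have hzy : z * y * J = 1 := congrArg Subtype.val
        (hQinj _ ((Q : Subgroup C).mul_mem ((Q : Subgroup C).mul_mem (show (⟨z, hzC⟩ : C) ∈ (Q : Subgroup C) from hzP) hyP) hJP)
          ((QuotientGroup.eq_one_iff _).1 hq))
      have hzy' : z * y = J := by rw [eq_inv_of_mul_eq_one_left hzy, hinv hJJ]
      rcases hz' with ⟨hzb, hub⟩ | ⟨hzc, huc⟩ | ⟨hzJ, -⟩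
      · have hyc : y = c := by
          calc y = b * b * y := by rw [hPsq b hbP, one_mul]
            _ = b * J := by rw [mul_assoc, ← hzb, hzy']
            _ = c := by rw [hcdef, hPc J hJP b hbP]
        rcases hy' with ⟨h, -⟩ | ⟨-, h⟩ | ⟨h, -⟩
        · exact absurd (mul_eq_right.1 (hcdef ▸ (hyc.symm.trans h))) hJ1
        · exact Or.inl ⟨hub, h⟩
        · exact absurd (hyc.symm.trans h) hcJ
      · have hyb : y = b := by
          calc y = c * c * y := by rw [hPsq c hcP, one_mul]
            _ = c * J := by rw [mul_assoc, ← hzc, hzy']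
            _ = b := by rw [hcdef, hPc J hJP b hbP, mul_assoc, hJJ, mul_one]
        rcases hy' with ⟨-, h⟩ | ⟨h, -⟩ | ⟨h, -⟩
        · exact Or.inr ⟨huc, h⟩
        · exact absurd (mul_eq_right.1 (hcdef ▸ (h.symm.trans hyb))) hJ1
        · exact absurd (hyb.symm.trans h) hbJ
      · exact absurd (mul_eq_left.1 (hzJ ▸ hzy')) hy1
    · have pair : ∀ p (hp : p ∈ (P : Subgroup G)) (hp1 : p ≠ 1) q (hq : q ∈ (P : Subgroup G)) (hq1 : q ≠ 1),
          p * q = J → ∀ u ∈ cls p, ∀ v ∈ cls q,
            orderOf u = 2 ∧ orderOf v = 2 ∧ Commute (u * v) J ∧ Odd (orderOf (u * v * J)) := by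
        intro p hp hp1 q hq hq1 hpq u hu v hv
        have horder : ∀ r (_ : r ∈ (P : Subgroup G)), r ≠ 1 → ∀ w ∈ cls r, orderOf w = 2 := by
          intro r hr hr1 w hw
          obtain ⟨d, -, rfl⟩ := Finset.mem_image.1 hw
          exact (orderOf_injective (MulAut.conj (d : G)).toMonoidHom (MulAut.conj (d : G)).injective r).trans
            (orderOf_eq_prime (by rw [pow_two, hPsq r hr]) hr1)
        have huC := (hclsC p hp u hu).1
        have hvC := (hclsC q hq v hv).1
        refine ⟨horder p hp hp1 u hu, horder q hq hq1 v hv,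
          Subgroup.mem_centralizer_singleton_iff.1 (C.mul_mem huC hvC), ?_⟩
        have h1 : (⟨u, huC⟩ * ⟨v, hvC⟩ * ⟨J, hJC⟩ : C) ∈ N := by
          refine (QuotientGroup.eq_one_iff _).1 ?_
          show QuotientGroup.mk' N _ = 1
          rw [map_mul, map_mul, hclsmk p hp u hu (hPC hp) huC, hclsmk q hq v hv (hPC hq) hvC, ← map_mul, ← map_mul,
            show (⟨p, hPC hp⟩ * ⟨q, hPC hq⟩ * ⟨J, hJC⟩ : C) = 1 from Subtype.ext (by
              show p * q * J = 1
              rw [hpq, hJJ]), map_one]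
        rw [hmemN, ← Subgroup.orderOf_coe] at h1
        exact h1
      rintro (⟨hu, hv⟩ | ⟨hu, hv⟩)
      · exact pair b hbP hb1 c hcP hc1 (by rw [hcdef, hPc J hJP b hbP, ← mul_assoc, hPsq b hbP, one_mul]) u hu v hv
      · exact pair c hcP hc1 b hbP hb1 (by rw [hcdef, mul_assoc, hPsq b hbP, mul_one]) u hu v hv
  have hdisj : Disjoint (cls b ×ˢ cls c) (cls c ×ˢ cls b) := by
    rw [Finset.disjoint_left]
    rintro ⟨u, v⟩ h1 h2
    rw [Finset.mem_product] at h1 h2
    have huC := (hclsC b hbP u h1.1).1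
    have := congrArg Subtype.val (hqinj ⟨b, hbC⟩ ⟨c, hcC⟩ hbP hcP
      ((hclsmk b hbP u h1.1 hbC huC).symm.trans (hclsmk c hcP u h2.1 hcC huC)))
    exact hJ1 (mul_eq_right.1 (show J * b = b from this.symm))
  rw [hset, Finset.card_union_of_disjoint hdisj, Finset.card_product, Finset.card_product]
  have eb := hcls b hbP hb1 hbJ
  have ec := hcls c hcP hc1 hcJ
  calc ((cls b).card * (cls c).card + (cls c).card * (cls b).card) *
        Nat.card (Subgroup.centralizer ((P : Subgroup G) : Set G)) ^ 2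
      = 2 * (((cls b).card * Nat.card (Subgroup.centralizer ((P : Subgroup G) : Set G))) *
          ((cls c).card * Nat.card (Subgroup.centralizer ((P : Subgroup G) : Set G)))) := by ring
    _ = 2 * Nat.card C ^ 2 := by rw [eb, ec]; ring


theorem mem_blockFinset {χ : IrrCharacter G} : χ ∈ blockFinset M ↔ χ ∈ principalBlock M G := by
  classical
  simp [blockFinset]

/-- The three identities. -/
theorem identities (h2M : ((2 : ℕ) : AlgInt) ∈ M) (P : Sylow 2 G) (hP : Nat.card P = 4)
    (hexp : ∀ y : P, y * y = 1) (hone : ∀ s t : G, orderOf s = 2 → orderOf t = 2 → IsConj s t) {J : G}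
    (hJP : J ∈ (P : Subgroup G)) (hJ : orderOf J = 2) :
    (Nat.card (Subgroup.centralizer ((P : Subgroup G) : Set G)) : ℂ) ^ 2 * (Nat.card G : ℂ) *
        (∑ χ ∈ blockFinset (G := G) M, (χ : G → ℂ) J / (χ : G → ℂ) 1) =
      8 * (Nat.card (Subgroup.centralizer ({J} : Set G)) : ℂ) ^ 3 ∧
    (∑ χ ∈ blockFinset (G := G) M, (χ : G → ℂ) J * (χ : G → ℂ) 1 = 0) ∧
    (∑ χ ∈ blockFinset (G := G) M, (χ : G → ℂ) J * ((Nat.card G : ℂ)⁻¹ * ∑ g : G, (χ : G → ℂ) (g * g)) = 0) ∧
    ∀ χ : IrrCharacter G, χ ∈ principalBlock M G → Odd (charDegree (χ : G → ℂ)) := by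
  classical
  haveI : Fact (Nat.Prime 2) := ⟨Nat.prime_two⟩
  obtain ⟨S, v, hmem, hS4, -, -, hsign, hval, hdvd, horth⟩ := Blocks.klein_data h2M P hP hexp hone
  have hSB : S = blockFinset (G := G) M := Finset.ext fun χ => by rw [hmem, mem_blockFinset]
  rw [← hSB]
  have hvJ : ∀ χ : IrrCharacter G, (χ : G → ℂ) J = (v χ : ℂ) := fun χ => hval χ J hJ
  have hdeg : ∑ χ ∈ S, (χ : G → ℂ) J * (χ : G → ℂ) 1 = 0 := by
    rw [← horth 1 (by rw [orderOf_one]; norm_num)]
    exact Finset.sum_congr rfl fun χ _ => by rw [hvJ]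
  refine ⟨?_, hdeg, ?_, fun χ hχ => ?_⟩
  · set C := Subgroup.centralizer ({J} : Set G) with hC
    letI : Fintype C := Fintype.ofFinite _
    have hPsq : ∀ a ∈ (P : Subgroup G), a * a = 1 := fun a ha => congrArg Subtype.val (hexp ⟨a, ha⟩)
    have hinv : ∀ {a : G}, a * a = 1 → a⁻¹ = a := fun h => inv_eq_of_mul_eq_one_right h
    have hPC : (P : Subgroup G) ≤ C := fun a ha => Subgroup.mem_centralizer_singleton_iff.2 (by
      rw [← hinv (hPsq _ ((P : Subgroup G).mul_mem ha hJP)), mul_inv_rev, hinv (hPsq a ha), hinv (hPsq J hJP)])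
    let Q : Sylow 2 C := P.subtype hPC
    have hQc : Nat.card Q = 4 := by
      rw [← hP]; exact Nat.card_congr (Subgroup.subgroupOfEquivOfLe hPC).toEquiv
    have hJ1 : J ≠ 1 := fun h => by rw [h, orderOf_one] at hJ; omega
    have hJJ : J * J = 1 := hPsq J hJP
    obtain ⟨N, hNn, hNodd, hNidx⟩ := Chars2.exists_complement_of_central Q hQc
      (fun x hx => Subtype.ext (hPsq _ hx)) ⟨J, hPC hJP⟩ hJP (fun h => hJ1 (congrArg Subtype.val h))
      (fun g => Subtype.ext (Subgroup.mem_centralizer_singleton_iff.1 g.2))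
    haveI := hNn
    have hcore : ∀ w : C, Odd (orderOf w) → (w : G) ∈ centralizerPPrimeCore 2 J := by
      intro w hw
      have h1 := orderOf_map_dvd (QuotientGroup.mk' N) w
      have h2 : orderOf (QuotientGroup.mk' N w) ∣ 2 ^ 2 := hNidx ▸ orderOf_dvd_natCard _
      have h3 : orderOf (QuotientGroup.mk' N w) = 1 :=
        Nat.eq_one_of_dvd_coprimes ((Nat.coprime_two_right.2 hw).pow_right 2) h1 h2
      refine Subgroup.mem_map.2 ⟨w, ?_, rfl⟩
      exact Core.le_pPrimeCore hNn
        (Nat.Prime.coprime_iff_not_dvd Nat.prime_two |>.2 hNodd).symm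
        ((QuotientGroup.eq_one_iff w).1 (orderOf_eq_one_iff.1 h3))
    have hcls : ∀ (χ : IrrCharacter G) (k x : G), (χ : G → ℂ) (k * x * k⁻¹) = (χ : G → ℂ) x := fun χ k x =>
      Chars.isClassFunction_irr χ x k
    have hgamma : ∀ g : G, ∑ χ ∈ S, (v χ : ℂ) * (χ : G → ℂ) g = if 2 ∣ orderOf g then 4 else 0 := by
      intro g
      split_ifs with hg
      · obtain ⟨z, hz, hgz, hodd, -⟩ := existsUnique_part P hexp hg
        obtain ⟨k, hk⟩ := isConj_iff.1 (hone z J hz hJ)
        set w := k * (g * z) * k⁻¹ with hw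
        have hzz : z * z = 1 := by rw [← pow_two, ← hz, pow_orderOf_eq_one]
        have hwC : w ∈ C := by
          rw [hC, Subgroup.mem_centralizer_singleton_iff, ← hk, hw]
          calc k * (g * z) * k⁻¹ * (k * z * k⁻¹) = k * ((g * z) * z) * k⁻¹ := by group
            _ = k * (z * (g * z)) * k⁻¹ := by rw [← mul_assoc z g z, ← hgz.eq]
            _ = k * z * k⁻¹ * (k * (g * z) * k⁻¹) := by group
        have hwo : Odd (orderOf (⟨w, hwC⟩ : C)) := by
          rw [Subgroup.orderOf_mk, show orderOf w = orderOf (g * z) from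
            orderOf_injective (MulAut.conj k).toMonoidHom (MulAut.conj k).injective _]
          exact hodd
        have hgw : k * g * k⁻¹ = J * w := by
          rw [← hk, hw]
          calc k * g * k⁻¹ = k * (g * (z * z)) * k⁻¹ := by rw [hzz, mul_one]
            _ = k * ((g * z) * z) * k⁻¹ := by group
            _ = k * (z * (g * z)) * k⁻¹ := by rw [← mul_assoc z g z, ← hgz.eq]
            _ = k * z * k⁻¹ * (k * (g * z) * k⁻¹) := by group
        rw [Finset.sum_congr rfl (g := fun _ => (1 : ℂ)) (fun χ hχ => ?_)]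
        · simp [hS4]
        · have h1 : (χ : G → ℂ) g = (χ : G → ℂ) J := by
            rw [← hcls χ k g, hgw]
            exact Blocks.apply_mul_centralizerPPrimeCore h2M ⟨1, by rw [hJ, pow_one]⟩
              (hcore ⟨w, hwC⟩ hwo) ((hmem χ).1 hχ)
          rw [h1, hvJ]
          rcases hsign χ hχ with h | h <;> simp [h]
      · exact horth g hg
    set I := Finset.univ.filter fun u : G => orderOf u = 2 with hI
    have hIC : I.card = C.index := by
      have h := Blocks.omega_clsFun (Chars.isClassFunction_irr (Blocks.oneChar G)) J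
      simp only [Blocks.omega, centralChar, Blocks.coe_oneChar, mul_one, div_one] at h
      have h' : (I.card : ℂ) = (C.index : ℂ) := by
        rw [← h, hI, Finset.card_filter, Nat.cast_sum]
        refine Finset.sum_congr rfl fun y _ => ?_
        by_cases hy : IsConj J y
        · rw [Blocks.clsFun_of_conj hy, if_pos, Nat.cast_one]
          obtain ⟨k, rfl⟩ := isConj_iff.1 hy
          exact (orderOf_injective (MulAut.conj k).toMonoidHom (MulAut.conj k).injective J).trans hJ
        · rw [Blocks.clsFun_of_not hy, if_neg (fun h2 => hy (hone J y hJ h2)), Nat.cast_zero]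
      exact_mod_cast h'
    set T : G → Finset (G × G) := fun z => Finset.univ.filter fun p : G × G =>
      orderOf p.1 = 2 ∧ orderOf p.2 = 2 ∧ Commute (p.1 * p.2) z ∧ Odd (orderOf (p.1 * p.2 * z)) with hT
    have hTJ := card_pairs P hP hexp hJP hJ
    have hTz : ∀ z ∈ I, (T z).card = (T J).card := by
      intro z hz
      obtain ⟨k, hk⟩ := isConj_iff.1 (hone z J (Finset.mem_filter.1 hz).2 hJ)
      refine Finset.card_equiv ((MulAut.conj k).toEquiv.prodCongr (MulAut.conj k).toEquiv) fun p => ?_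
      have hJz : J = MulAut.conj k z := by rw [MulAut.conj_apply, hk]
      simp only [hT]
      rw [Finset.mem_filter, Finset.mem_filter, hJz]
      simp only [Finset.mem_univ, true_and, Equiv.prodCongr_apply, Prod.map_fst,
        Prod.map_snd, MulEquiv.toEquiv_eq_coe, MulEquiv.coe_toEquiv, MulEquiv.orderOf_eq, ← map_mul,
        Commute, SemiconjBy, (MulAut.conj k).injective.eq_iff]
    have heven : ((I ×ˢ I).filter fun p : G × G => 2 ∣ orderOf (p.1 * p.2)) = I.biUnion T := by
      ext p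
      simp only [hI, hT, Finset.mem_filter, Finset.mem_product, Finset.mem_univ, true_and, Finset.mem_biUnion]
      constructor
      · rintro ⟨⟨h1, h2⟩, h3⟩
        obtain ⟨z, hz, hc, ho, -⟩ := existsUnique_part P hexp h3
        exact ⟨z, hz, h1, h2, hc, ho⟩
      · rintro ⟨z, hz, h1, h2, hc, ho⟩
        refine ⟨⟨h1, h2⟩, ?_⟩
        by_contra hno
        obtain ⟨l, hl⟩ : Odd (orderOf (p.1 * p.2)) := Nat.odd_iff.2 (by omega)
        have hz2 : z ^ 2 = 1 := by rw [← hz, pow_orderOf_eq_one]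
        have h4 : (p.1 * p.2 * z) ^ (orderOf (p.1 * p.2)) = z := by
          rw [hc.mul_pow, pow_orderOf_eq_one, one_mul, hl, pow_succ, pow_mul, hz2, one_pow, one_mul]
        have h5 : orderOf z ∣ orderOf (p.1 * p.2 * z) := by
          nth_rw 1 [← h4]; exact orderOf_pow_dvd _
        rw [hz] at h5
        exact Nat.not_even_iff_odd.2 ho (even_iff_two_dvd.2 h5)
    have hcardE : ((I ×ˢ I).filter fun p : G × G => 2 ∣ orderOf (p.1 * p.2)).card = I.card * (T J).card := by
      rw [heven, Finset.card_biUnion, Finset.sum_congr rfl hTz, Finset.sum_const, smul_eq_mul]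
      intro z hz z' hz' hne
      rw [Function.onFun, Finset.disjoint_left]
      intro p hp hp'
      simp only [hT, Finset.mem_filter, Finset.mem_univ, true_and] at hp hp'
      have hev : p ∈ (I ×ˢ I).filter fun p : G × G => 2 ∣ orderOf (p.1 * p.2) := by
        rw [heven]
        exact Finset.mem_biUnion.2 ⟨z, hz, by simpa [hT] using hp⟩
      obtain ⟨z₀, -, -, -, hu⟩ := existsUnique_part P hexp (Finset.mem_filter.1 hev).2
      exact hne ((hu z (Finset.mem_filter.1 hz).2 hp.2.2.1 hp.2.2.2).trans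
        (hu z' (Finset.mem_filter.1 hz').2 hp'.2.2.1 hp'.2.2.2).symm)
    set f : G → ℂ := fun g => if g ∈ I then 1 else 0 with hf
    have hfc : IsClassFunction G f := by
      intro g c
      have : orderOf (c * g * c⁻¹) = orderOf g :=
        orderOf_injective (MulAut.conj c).toMonoidHom (MulAut.conj c).injective g
      simp [hf, hI, this]
    have hsum : ∀ χ : IrrCharacter G, ∑ p ∈ I ×ˢ I, (χ : G → ℂ) (p.1 * p.2) =
        ((I.card : ℂ) * (v χ : ℂ)) ^ 2 / (χ : G → ℂ) 1 := by
      intro χ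
      have h0 : (χ : G → ℂ) 1 ≠ 0 := Chars.irr_apply_one_ne_zero χ.2
      have h1 := Blocks.omega_conv χ.2 hfc hfc
      have h2 : Blocks.omega (χ : G → ℂ) f = (I.card : ℂ) * (v χ : ℂ) / (χ : G → ℂ) 1 := by
        unfold Blocks.omega
        congr 1
        simp only [hf, ite_mul, one_mul, zero_mul]
        rw [← Finset.sum_filter, Finset.filter_univ_mem,
          Finset.sum_congr rfl (fun g hg => hval χ g (Finset.mem_filter.1 hg).2), Finset.sum_const,
          nsmul_eq_mul]
      have h3 : ∑ g, Blocks.conv f f g * (χ : G → ℂ) g = ∑ p ∈ I ×ˢ I, (χ : G → ℂ) (p.1 * p.2) := by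
        simp only [Blocks.conv, Finset.sum_mul]
        rw [Finset.sum_comm, Finset.sum_product, ← Finset.sum_subset (Finset.subset_univ I)
          (fun x _ hx => Finset.sum_eq_zero fun y _ => by simp [hf, hx])]
        refine Finset.sum_congr rfl fun x hx => ?_
        rw [← Fintype.sum_equiv (Equiv.mulLeft x) (fun y => f y * (χ : G → ℂ) (x * y))
          (fun g => f x * f (x⁻¹ * g) * (χ : G → ℂ) g) (fun y => by simp [hf, hx])]
        simp only [hf, ite_mul, one_mul, zero_mul]
        rw [← Finset.sum_filter, Finset.filter_univ_mem]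
      rw [h2] at h1
      unfold Blocks.omega at h1
      rw [div_eq_iff h0, h3] at h1
      rw [h1]
      field_simp
    have hkey : ∑ p ∈ I ×ˢ I, ∑ χ ∈ S, (v χ : ℂ) * (χ : G → ℂ) (p.1 * p.2) = 4 * ((I.card : ℂ) * ((T J).card : ℂ)) := by
      rw [Finset.sum_congr rfl (fun p _ => hgamma (p.1 * p.2)), ← Finset.sum_filter, Finset.sum_const,
        nsmul_eq_mul, hcardE]
      push_cast
      ring
    rw [Finset.sum_comm] at hkey
    have hkey2 : (I.card : ℂ) ^ 2 * ∑ χ ∈ S, (χ : G → ℂ) J / (χ : G → ℂ) 1 = 4 * ((I.card : ℂ) * ((T J).card : ℂ)) := by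
      rw [← hkey, Finset.mul_sum]
      refine Finset.sum_congr rfl fun χ hχ => ?_
      rw [← Finset.mul_sum, hsum χ, hvJ]
      rcases hsign χ hχ with h | h <;> rw [h] <;> push_cast <;> ring
    have hG : Nat.card C * I.card = Nat.card G := hIC ▸ C.card_mul_index
    have hT' : ((T J).card : ℂ) * (Nat.card (Subgroup.centralizer ((P : Subgroup G) : Set G)) : ℂ) ^ 2 =
        2 * (Nat.card C : ℂ) ^ 2 := by
      have := congrArg (fun n : ℕ => (n : ℂ)) hTJ
      push_cast at this
      exact this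
    have hI0 : (I.card : ℂ) ≠ 0 := Nat.cast_ne_zero.2 (hIC ▸ Subgroup.index_ne_zero_of_finite)
    rw [show (Nat.card G : ℂ) = (Nat.card C : ℂ) * (I.card : ℂ) by rw [← hG]; push_cast; rfl]
    set σ := ∑ χ ∈ S, (χ : G → ℂ) J / (χ : G → ℂ) 1
    set cp := (Nat.card (Subgroup.centralizer ((P : Subgroup G) : Set G)) : ℂ)
    have h5 : (I.card : ℂ) * σ = 4 * ((T J).card : ℂ) := mul_left_cancel₀ hI0 (by linear_combination hkey2)
    linear_combination (cp ^ 2 * (Nat.card C : ℂ)) * h5 + 4 * (Nat.card C : ℂ) * hT'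
  · have hsq : ∀ g : G, ¬ 2 ∣ orderOf (g * g) := fun g h => by
      rw [← pow_two, orderOf_pow' g two_ne_zero] at h
      have h4 := not_four_dvd P hexp g
      by_cases h2 : 2 ∣ orderOf g
      · rw [Nat.gcd_eq_right h2] at h; omega
      · rw [Nat.Coprime.gcd_eq_one (Nat.coprime_two_right.2 (Nat.odd_iff.2 (by omega)))] at h
        omega
    rw [Finset.sum_congr (s₁ := S) rfl (fun χ _ => show (χ : G → ℂ) J * ((Nat.card G : ℂ)⁻¹ * ∑ g : G, (χ : G → ℂ) (g * g)) =
      (Nat.card G : ℂ)⁻¹ * ∑ g : G, (v χ : ℂ) * (χ : G → ℂ) (g * g) by rw [hvJ, ← Finset.mul_sum]; ring),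
      ← Finset.mul_sum, Finset.sum_comm, Finset.sum_eq_zero fun g _ => horth _ (hsq g), mul_zero]
  · have hd := hdvd χ
    rcases hsign χ ((hmem χ).2 hχ) with h | h <;> rw [h] at hd <;> rw [Nat.odd_iff] <;> omega

end Count

end Cfsg.Agent.Screen.KleinOrder
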