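import Cfsg.Agent.Screen.DihedralOrder

/-!
The principal 2-block of a group with dihedral Sylow 2-subgroups: the generalised decomposition on
the cyclic maximal subgroup.
-/

set_option autoImplicit false
set_option linter.style.haveILetI false

namespace Cfsg.Agent.Screen.DihedralBlock

open Cfsg Cfsg.Agent
open scoped ComplexConjugate

universe u

section Vectors

variable {ι : Type*} [DecidableEq ι]

/-- An integral vector of norm less than four has a support of that size with entries of square one. -/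
theorem support_of_norm (T : Finset ι) (f : ι → ℤ) {n : ℕ} (hn : n < 4) (h : ∑ x ∈ T, f x * f x = (n : ℤ)) :
    (T.filter fun x => f x ≠ 0).card = n ∧ ∀ x ∈ T, f x ≠ 0 → f x * f x = 1 := by
  have hsq : ∀ x ∈ T, f x ≠ 0 → f x * f x = 1 := by
    intro x hx h0
    have h1 : f x * f x ≤ (n : ℤ) :=
      h ▸ Finset.single_le_sum (f := fun x => f x * f x) (fun y _ => mul_self_nonneg _) hx
    have h2 : -1 ≤ f x ∧ f x ≤ 1 := ⟨by nlinarith, by nlinarith⟩
    rcases (show f x = 1 ∨ f x = -1 by omega) with e | e <;> rw [e] <;> norm_num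
  refine ⟨?_, hsq⟩
  rw [← Finset.sum_filter_of_ne (p := fun x => f x ≠ 0) (fun x _ hne h0 => hne (by rw [h0, zero_mul])),
    Finset.sum_congr rfl (g := fun _ => (1 : ℤ))
      (fun x hx => hsq x (Finset.mem_filter.1 hx).1 (Finset.mem_filter.1 hx).2),
    Finset.sum_const, nsmul_eq_mul, mul_one] at h
  exact_mod_cast h

/-- Two such vectors with inner product one, the first of norm two, share exactly one position. -/
theorem common_of_inner (T : Finset ι) (f g : ι → ℤ) {n : ℕ} (hn : n < 4)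
    (hf : ∑ x ∈ T, f x * f x = 2) (hg : ∑ x ∈ T, g x * g x = (n : ℤ))
    (hfg : ∑ x ∈ T, f x * g x = 1) :
    ∃ α ∈ T, ∃ β ∈ T, α ≠ β ∧ f α * f α = 1 ∧ f β * f β = 1 ∧
      (∀ x ∈ T, x ≠ α → x ≠ β → f x = 0) ∧ g α = f α ∧ g β = 0 := by
  obtain ⟨hc, hsf⟩ := support_of_norm T f (n := 2) (by norm_num) (by simpa using hf)
  obtain ⟨-, hsg⟩ := support_of_norm T g hn hg
  obtain ⟨α, β, hne, hF⟩ := Finset.card_eq_two.1 hc
  have hα : α ∈ T ∧ f α ≠ 0 := Finset.mem_filter.1 (hF ▸ Finset.mem_insert_self _ _)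
  have hβ : β ∈ T ∧ f β ≠ 0 :=
    Finset.mem_filter.1 (hF ▸ Finset.mem_insert_of_mem (Finset.mem_singleton_self _))
  have hz : ∀ x ∈ T, x ≠ α → x ≠ β → f x = 0 := by
    intro x hx h1 h2
    by_contra h0
    have : x ∈ ({α, β} : Finset ι) := hF ▸ Finset.mem_filter.2 ⟨hx, h0⟩
    simp only [Finset.mem_insert, Finset.mem_singleton] at this
    tauto
  have hsum : f α * g α + f β * g β = 1 := by
    rw [← hfg, ← Finset.sum_pair (f := fun x => f x * g x) hne, ← hF]
    exact Finset.sum_filter_of_ne fun x _ hne' h0 => hne' (by rw [h0, zero_mul])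
  have sg : ∀ x ∈ T, g x = 1 ∨ g x = -1 ∨ g x = 0 := by
    intro x hx
    by_cases h0 : g x = 0
    · exact Or.inr (Or.inr h0)
    · rcases mul_self_eq_one_iff.1 (hsg x hx h0) with e | e
      exacts [Or.inl e, Or.inr (Or.inl e)]
  have sα := mul_self_eq_one_iff.1 (hsf α hα.1 hα.2)
  have sβ := mul_self_eq_one_iff.1 (hsf β hβ.1 hβ.2)
  rcases sg β hβ.1 with e | e | e
  · refine ⟨β, hβ.1, α, hα.1, hne.symm, hsf β hβ.1 hβ.2, hsf α hα.1 hα.2, fun x hx h1 h2 => hz x hx h2 h1, ?_⟩
    rcases sα with a | a <;> rcases sβ with b | b <;> rcases sg α hα.1 with c | c | c <;>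
      simp_all
  · refine ⟨β, hβ.1, α, hα.1, hne.symm, hsf β hβ.1 hβ.2, hsf α hα.1 hα.2, fun x hx h1 h2 => hz x hx h2 h1, ?_⟩
    rcases sα with a | a <;> rcases sβ with b | b <;> rcases sg α hα.1 with c | c | c <;>
      simp_all
  · refine ⟨α, hα.1, β, hβ.1, hne, hsf α hα.1 hα.2, hsf β hβ.1 hβ.2, hz, ?_, e⟩
    rcases sα with a | a <;> rcases sg α hα.1 with c | c | c <;> simp_all

/-- Vectors of norm two meeting in one position, one of norm three, with signed degree sums `-1`:
a star. -/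
theorem star_structure (T : Finset ι) (D : ι → ℤ) (hD : ∀ x ∈ T, 0 < D x) {k : ℕ} (hk : 2 ≤ k)
    (w : ℕ → ι → ℤ) (hk3 : k ≠ 3)
    (h2 : ∀ j, 1 ≤ j → j < k → ∑ x ∈ T, w j x * w j x = 2)
    (h3 : ∑ x ∈ T, w k x * w k x = 3)
    (h1 : ∀ i j, 1 ≤ i → i < k → 1 ≤ j → j ≤ k → i ≠ j → ∑ x ∈ T, w i x * w j x = 1)
    (hdeg : ∀ j, 1 ≤ j → j ≤ k → ∑ x ∈ T, w j x * D x = -1) :
    ∃ (α γ η : ι) (β : ℕ → ι) (δ c d : ℤ), α ∈ T ∧ γ ∈ T ∧ η ∈ T ∧ γ ≠ η ∧ α ≠ γ ∧ α ≠ η ∧
      δ * δ = 1 ∧ c * c = 1 ∧ d * d = 1 ∧ w k α = δ ∧ w k γ = c ∧ w k η = d ∧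
      (∀ x ∈ T, x ≠ α → x ≠ γ → x ≠ η → w k x = 0) ∧
      ∀ j, 1 ≤ j → j < k → β j ∈ T ∧ β j ≠ α ∧ β j ≠ γ ∧ β j ≠ η ∧ w j α = δ ∧ w j (β j) = -δ ∧
        (∀ x ∈ T, x ≠ α → x ≠ β j → w j x = 0) ∧ ∀ i, 1 ≤ i → i < k → i ≠ j → β i ≠ β j := by
  -- the signed degree of a vector of norm two
  have hdeg2 : ∀ j, 1 ≤ j → j < k → ∀ a ∈ T, ∀ b ∈ T, a ≠ b →
      (∀ x ∈ T, x ≠ a → x ≠ b → w j x = 0) → w j a * D a + w j b * D b = -1 := by
    intro j hj1 hjk a ha b hb hab hz
    rw [← hdeg j hj1 hjk.le, ← Finset.sum_pair (f := fun x => w j x * D x) hab]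
    refine (Finset.sum_subset ?_ fun x hx hnx => ?_)
    · intro x hx
      simp only [Finset.mem_insert, Finset.mem_singleton] at hx
      rcases hx with rfl | rfl <;> assumption
    · simp only [Finset.mem_insert, Finset.mem_singleton, not_or] at hnx
      rw [hz x hx hnx.1 hnx.2, zero_mul]
  obtain ⟨α, hα, β₁, hβ₁, hne, hsqα, hsqβ, hz1, hkα, hkβ₁⟩ :=
    common_of_inner T (w 1) (w k) (n := 3) (by norm_num) (h2 1 le_rfl (by omega)) (by simpa using h3)
      (h1 1 k le_rfl (by omega) (by omega) le_rfl (by omega))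
  -- every vector of norm two contains `α`
  have key : ∀ j, 1 ≤ j → j < k → ∃ b, b ∈ T ∧ b ≠ α ∧ w j α = w 1 α ∧ w j b * w j b = 1 ∧
      (∀ x ∈ T, x ≠ α → x ≠ b → w j x = 0) ∧ w k b = 0 := by
    intro j hj1 hjk
    by_cases hj : j = 1
    · subst hj
      exact ⟨β₁, hβ₁, hne.symm, rfl, hsqβ, hz1, hkβ₁⟩
    have h11 : (1 : ℕ) < k := by omega
    obtain ⟨a, ha, b, hb, hab, hsa, hsb, hzj, hka, hkb⟩ :=
      common_of_inner T (w j) (w k) (n := 3) (by norm_num) (h2 j hj1 hjk) (by simpa using h3)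
        (h1 j k hj1 hjk (by omega) le_rfl (by omega))
    -- the common position of `w 1` and `w j`
    obtain ⟨p, hp, q, hq, hpq, -, -, hzp, hjp, hjq⟩ :=
      common_of_inner T (w 1) (w j) (n := 2) (by norm_num) (h2 1 le_rfl h11) (by simpa using h2 j hj1 hjk)
        (h1 1 j le_rfl h11 hj1 hjk.le (by omega))
    have hp' : p = α ∨ p = β₁ := by
      by_contra hc
      push Not at hc
      have h0 := hz1 p hp hc.1 hc.2
      have hpj : w j p = 0 := hjp.trans h0
      by_cases e : q = α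
      · have h0β := hzp β₁ hβ₁ (fun e' => hc.2 e'.symm) (fun e' => hne (e.symm.trans e'.symm))
        rw [h0β] at hsqβ
        norm_num at hsqβ
      · have h0α := hzp α hα (fun e' => hc.1 e'.symm) (fun e' => e e'.symm)
        rw [h0α] at hsqα
        norm_num at hsqα
    have hpw : w 1 p ≠ 0 := by
      rcases hp' with rfl | rfl <;> intro h0
      · rw [h0] at hsqα; norm_num at hsqα
      · rw [h0] at hsqβ; norm_num at hsqβ
    have hpa : p = a ∨ p = b := by
      by_contra hc
      push Not at hc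
      exact hpw (hjp.symm.trans (hzj p hp hc.1 hc.2))
    rcases hp' with rfl | rfl
    · rcases hpa with rfl | rfl
      · exact ⟨b, hb, hab.symm, hjp, hsb, hzj, hkb⟩
      · exfalso
        rw [hkα] at hkb
        rw [hkb] at hsqα
        norm_num at hsqα
    · -- the triangle
      exfalso
      have hwjα : w j α = 0 := by
        by_cases e : q = α
        · rw [← e]; exact hjq
        · have h0 := hzp α hα hne (fun e' => e e'.symm)
          rw [h0] at hsqα
          norm_num at hsqα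
      rcases hpa with rfl | rfl
      · rw [hkβ₁] at hka
        exact hpw (hjp.symm.trans hka.symm)
      · have haα : a ≠ α := fun e => by
          rw [e, hwjα] at hsa
          norm_num at hsa
        -- `w k` contains `α` and `a`; the degrees are inconsistent
        have d1 := hdeg2 1 le_rfl h11 α hα p hβ₁ hne hz1
        have d2 := hdeg2 j hj1 hjk a ha p hβ₁ hab hzj
        have hw1a : w 1 a = 0 := hz1 a ha haα hab
        obtain ⟨hc3, hs3⟩ := support_of_norm T (w k) (n := 3) (by norm_num) (by simpa using h3)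
        have hmα : α ∈ T.filter fun x => w k x ≠ 0 := Finset.mem_filter.2 ⟨hα, by
          rw [hkα]; intro h0; rw [h0] at hsqα; norm_num at hsqα⟩
        have hma : a ∈ T.filter fun x => w k x ≠ 0 := Finset.mem_filter.2 ⟨ha, by
          rw [hka]; intro h0; rw [h0] at hsa; norm_num at hsa⟩
        have he : (((T.filter fun x => w k x ≠ 0).erase α).erase a).card = 1 := by
          rw [Finset.card_erase_of_mem (Finset.mem_erase.2 ⟨haα, hma⟩), Finset.card_erase_of_mem hmα, hc3]
        obtain ⟨v, hv⟩ := Finset.card_eq_one.1 he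
        have hdk := hdeg k (by omega) le_rfl
        rw [← Finset.sum_filter_of_ne (p := fun x => w k x ≠ 0) (fun x _ hne' h0 => hne' (by rw [h0, zero_mul])),
          ← Finset.add_sum_erase _ _ hmα, ← Finset.add_sum_erase _ _ (Finset.mem_erase.2 ⟨haα, hma⟩), hv,
          Finset.sum_singleton, hkα, hka] at hdk
        have hvm : v ∈ T ∧ w k v ≠ 0 ∧ v ≠ α ∧ v ≠ a := by
          have : v ∈ ((T.filter fun x => w k x ≠ 0).erase α).erase a := hv ▸ Finset.mem_singleton_self v
          simp only [Finset.mem_erase, Finset.mem_filter] at this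
          exact ⟨this.2.2.1, this.2.2.2, this.2.1, this.1⟩
        -- a third vector
        obtain ⟨l, hl1, hlk, hl, hlj⟩ : ∃ l, 1 ≤ l ∧ l < k ∧ l ≠ 1 ∧ l ≠ j := by
          by_cases e : j = 2
          · exact ⟨3, by norm_num, by omega, by norm_num, by omega⟩
          · exact ⟨2, by norm_num, by omega, by norm_num, fun e' => e e'.symm⟩
        obtain ⟨a', ha', b', hb', hab', hsa', hsb', hzl, hka', hkb'⟩ :=
          common_of_inner T (w l) (w k) (n := 3) (by norm_num) (h2 l hl1 hlk) (by simpa using h3)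
            (h1 l k hl1 hlk (by omega) le_rfl (by omega))
        have d3 := hdeg2 l hl1 hlk a' ha' b' hb' hab' hzl
        have i1 := h1 1 l le_rfl h11 hl1 hlk.le (Ne.symm hl)
        have i2 := h1 j l hj1 hjk hl1 hlk.le (fun e => hlj e.symm)
        have e1 : ∑ x ∈ T, w 1 x * w l x = w 1 α * w l α + w 1 p * w l p := by
          rw [← Finset.sum_pair (f := fun x => w 1 x * w l x) hne]
          refine (Finset.sum_subset ?_ fun x hx hnx => ?_).symm
          · intro x hx
            simp only [Finset.mem_insert, Finset.mem_singleton] at hx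
            rcases hx with rfl | rfl <;> assumption
          · simp only [Finset.mem_insert, Finset.mem_singleton, not_or] at hnx
            rw [hz1 x hx hnx.1 hnx.2, zero_mul]
        have e2 : ∑ x ∈ T, w j x * w l x = w j a * w l a + w j p * w l p := by
          rw [← Finset.sum_pair (f := fun x => w j x * w l x) hab]
          refine (Finset.sum_subset ?_ fun x hx hnx => ?_).symm
          · intro x hx
            simp only [Finset.mem_insert, Finset.mem_singleton] at hx
            rcases hx with rfl | rfl <;> assumption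
          · simp only [Finset.mem_insert, Finset.mem_singleton, not_or] at hnx
            rw [hzj x hx hnx.1 hnx.2, zero_mul]
        rw [i1] at e1
        rw [i2] at e2
        by_cases hlp : w l p = 0
        · -- `w l` avoids `p`, so it is supported by `α` and `a`
          rw [hlp, mul_zero, add_zero] at e1 e2
          have hlα : w l α ≠ 0 := fun h0 => by rw [h0, mul_zero] at e1; norm_num at e1
          have hla : w l a ≠ 0 := fun h0 => by rw [h0, mul_zero] at e2; norm_num at e2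
          have hαa : α = a' ∨ α = b' := by
            by_contra hc; push Not at hc; exact hlα (hzl α hα hc.1 hc.2)
          have haa : a = a' ∨ a = b' := by
            by_contra hc; push Not at hc; exact hla (hzl a ha hc.1 hc.2)
          rcases hαa with rfl | rfl
          · rcases haa with rfl | rfl
            · exact haα rfl
            · rw [hka] at hkb'; rw [hkb'] at hsa; norm_num at hsa
          · rw [hkα] at hkb'; rw [hkb'] at hsqα; norm_num at hsqα
        · have hpl : p = a' ∨ p = b' := by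
            by_contra hc; push Not at hc; exact hlp (hzl p hβ₁ hc.1 hc.2)
          rcases hpl with rfl | rfl
          · rw [hkβ₁] at hka'; exact hlp hka'.symm
          · by_cases ev : a' = v
            · subst ev
              rw [hka'] at hdk
              have hwl : w l p = w 1 p := by
                have h0 : w l α = 0 := hzl α hα (fun e => hvm.2.2.1 e.symm) hne
                rw [h0, mul_zero, zero_add] at e1
                rcases mul_self_eq_one_iff.1 hsqβ with e | e <;> rw [e] at e1 ⊢ <;> linarith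
              have hwj : w j p = w 1 p := hjp
              rw [hwl] at d3
              rw [hwj] at d2
              omega
            · have : a' = α ∨ a' = a := by
                by_contra hc
                push Not at hc
                have h0 : w k a' = 0 := by
                  by_contra hne'
                  have : a' ∈ ((T.filter fun x => w k x ≠ 0).erase α).erase a :=
                    Finset.mem_erase.2 ⟨hc.2, Finset.mem_erase.2 ⟨hc.1, Finset.mem_filter.2 ⟨ha', hne'⟩⟩⟩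
                  rw [hv, Finset.mem_singleton] at this
                  exact ev this
                rw [hka'] at h0
                rw [h0] at hsa'
                norm_num at hsa'
              rcases this with rfl | rfl
              · rw [← hka', hkα] at e1
                rcases mul_self_eq_one_iff.1 hsqα with e | e <;>
                  rcases mul_self_eq_one_iff.1 hsqβ with e' | e' <;> rw [e, e'] at e1 <;> omega
              · rw [← hka', hka] at e2
                rcases mul_self_eq_one_iff.1 hsa with e | e <;>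
                  rcases mul_self_eq_one_iff.1 hsb with e' | e' <;> rw [e, e'] at e2 <;> omega
  have : Nonempty ι := ⟨α⟩
  choose! β hβT hβα hwα hwsq hwz hkβ using key
  set δ := w 1 α with hδ
  have hwβ : ∀ j, 1 ≤ j → j < k → w j (β j) = -δ := by
    intro j hj1 hjk
    have d := hdeg2 j hj1 hjk α hα (β j) (hβT j hj1 hjk) (hβα j hj1 hjk).symm (hwz j hj1 hjk)
    rw [hwα j hj1 hjk] at d
    have hA := hD α hα
    have hB := hD (β j) (hβT j hj1 hjk)
    rcases mul_self_eq_one_iff.1 hsqα with e | e <;>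
      rcases mul_self_eq_one_iff.1 (hwsq j hj1 hjk) with e' | e' <;> rw [e, e'] at d <;> rw [e, e'] <;> omega
  obtain ⟨hc3, hs3⟩ := support_of_norm T (w k) (n := 3) (by norm_num) (by simpa using h3)
  have hmα : α ∈ T.filter fun x => w k x ≠ 0 := Finset.mem_filter.2 ⟨hα, by
    rw [hkα]; intro h0; rw [h0] at hsqα; norm_num at hsqα⟩
  obtain ⟨γ, η, hγη, hsupp⟩ : ∃ γ η, γ ≠ η ∧ ((T.filter fun x => w k x ≠ 0).erase α) = {γ, η} := by
    refine Finset.card_eq_two.1 ?_
    rw [Finset.card_erase_of_mem hmα, hc3]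
  have hγm : γ ∈ (T.filter fun x => w k x ≠ 0).erase α := hsupp ▸ Finset.mem_insert_self _ _
  have hηm : η ∈ (T.filter fun x => w k x ≠ 0).erase α :=
    hsupp ▸ Finset.mem_insert_of_mem (Finset.mem_singleton_self _)
  simp only [Finset.mem_erase, Finset.mem_filter] at hγm hηm
  refine ⟨α, γ, η, β, δ, w k γ, w k η, hα, hγm.2.1, hηm.2.1, hγη, hγm.1.symm, hηm.1.symm, hsqα,
    hs3 γ hγm.2.1 hγm.2.2, hs3 η hηm.2.1 hηm.2.2, hkα, rfl, rfl, ?_, ?_⟩
  · intro x hx h1' h2' h3'
    by_contra h0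
    have : x ∈ ({γ, η} : Finset ι) := hsupp ▸ Finset.mem_erase.2 ⟨h1', Finset.mem_filter.2 ⟨hx, h0⟩⟩
    simp only [Finset.mem_insert, Finset.mem_singleton] at this
    tauto
  · intro j hj1 hjk
    refine ⟨hβT j hj1 hjk, hβα j hj1 hjk, fun e => hγm.2.2 (e ▸ hkβ j hj1 hjk),
      fun e => hηm.2.2 (e ▸ hkβ j hj1 hjk), hwα j hj1 hjk, hwβ j hj1 hjk, hwz j hj1 hjk, ?_⟩
    intro i hi1 hik hij e
    have := h1 i j hi1 hik hj1 hjk.le hij
    rw [← Finset.sum_subset (s₁ := ({α, β j} : Finset ι)) (fun x hx => by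
        simp only [Finset.mem_insert, Finset.mem_singleton] at hx
        rcases hx with rfl | rfl
        exacts [hα, hβT j hj1 hjk]) (fun x hx hnx => by
        simp only [Finset.mem_insert, Finset.mem_singleton, not_or] at hnx
        rw [hwz j hj1 hjk x hx hnx.1 hnx.2, mul_zero]),
      Finset.sum_pair (hβα j hj1 hjk).symm, hwα i hi1 hik, hwα j hj1 hjk, ← e, hwβ i hi1 hik, e,
      hwβ j hj1 hjk] at this
    rcases mul_self_eq_one_iff.1 hsqα with e' | e' <;> rw [e'] at this <;> norm_num at this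

end Vectors

variable {G : Type u} [Group G] [Fintype G] {P : Sylow 2 G} {σ τ : G} {e : ℕ}

theorem geom {q : ℕ} {x : ℂ} (hx : x ^ q = 1) :
    ∑ l ∈ Finset.range q, x ^ l = if x = 1 then (q : ℂ) else 0 := by
  split
  · subst_vars; simp
  · rename_i h1
    rw [geom_sum_eq h1, hx, sub_self, zero_div]

theorem coef_int' (h : DihedralOrder.Setup P σ τ e) {ζ : ℂ} (hζ : ζ ^ (2 * 2 ^ e) = 1) (χ : IrrCharacter G) :
    ∃ a : ℤ, h.coef ζ χ = (a : ℂ) := by
  classical
  set K := Subgroup.zpowers σ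
  letI : Fintype K := Fintype.ofFinite _
  have hgen : ∀ x : K, x ∈ Subgroup.zpowers (⟨σ, Subgroup.mem_zpowers σ⟩ : K) := by
    rintro ⟨x, hx⟩
    obtain ⟨i, rfl⟩ := Subgroup.mem_zpowers_iff.1 hx
    exact ⟨i, Subtype.ext (by simp)⟩
  have hζ0 : ζ ≠ 0 := fun h0 => by rw [h0, zero_pow (by positivity)] at hζ; exact zero_ne_one hζ
  have hz : orderOf (Units.mk0 ζ hζ0) ∣ orderOf (⟨σ, Subgroup.mem_zpowers σ⟩ : K) := by
    rw [Subgroup.orderOf_mk, h.ord]
    exact orderOf_dvd_of_pow_eq_one (Units.ext (by simpa using hζ))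
  set φ : K →* ℂˣ := monoidHomOfForallMemZpowers hgen hz
  have hφ : ∀ l : ℕ, (φ ⟨σ ^ l, Subgroup.pow_mem _ (Subgroup.mem_zpowers σ) l⟩ : ℂ) = ζ ^ l := by
    intro l
    rw [show (⟨σ ^ l, Subgroup.pow_mem _ (Subgroup.mem_zpowers σ) l⟩ : K) = (⟨σ, Subgroup.mem_zpowers σ⟩ : K) ^ l from
      Subtype.ext (by simp), map_pow, monoidHomOfForallMemZpowers_apply_gen]
    simp
  have hR := Chars.isCharacter_restrict (Chars.irr_isCharacter χ) K
  obtain ⟨m₁, hm₁⟩ := Chars.exists_classInner_eq_nat (Chars2.linFun_isCharacter (1 : K →* ℂˣ)).1 hR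
  obtain ⟨m₂, hm₂⟩ := Chars.exists_classInner_eq_nat (Chars2.linFun_isCharacter φ).1 hR
  refine ⟨(m₁ : ℤ) - m₂, ?_⟩
  have hsum : ∀ F : K → ℂ, ∑ x, F x =
      ∑ l ∈ Finset.range (2 * 2 ^ e), F ⟨σ ^ l, Subgroup.pow_mem _ (Subgroup.mem_zpowers σ) l⟩ := by
    intro F
    rw [Finset.sum_range]
    refine (Fintype.sum_bijective (fun l : Fin (2 * 2 ^ e) =>
      (⟨σ ^ (l : ℕ), Subgroup.pow_mem _ (Subgroup.mem_zpowers σ) l⟩ : K)) ?_ _ _ fun l => rfl).symm
    rw [Fintype.bijective_iff_injective_and_card]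
    refine ⟨fun a b hab => ?_, by rw [Fintype.card_fin, ← Nat.card_eq_fintype_card, Nat.card_zpowers, h.ord]⟩
    refine Fin.ext (pow_injOn_Iio_orderOf (x := σ) ?_ ?_ (congrArg Subtype.val hab))
    · rw [Set.mem_Iio, h.ord]; exact a.2
    · rw [Set.mem_Iio, h.ord]; exact b.2
  have hKc : Nat.card K = 2 * 2 ^ e := by rw [Nat.card_zpowers, h.ord]
  rw [Chars.classInner_def, hsum, hKc] at hm₁ hm₂
  push_cast
  rw [← hm₁, ← hm₂, DihedralOrder.Setup.coef, ← mul_sub, ← Finset.sum_sub_distrib]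
  congr 1
  refine Finset.sum_congr rfl fun l _ => ?_
  simp only [Chars2.linFun_apply, hφ, MonoidHom.one_apply, Units.val_one, h.char_real]
  ring

theorem phiFun_rot' (h : DihedralOrder.Setup P σ τ e) {M : Ideal AlgInt} [M.IsMaximal]
    (h2M : ((2 : ℕ) : AlgInt) ∈ M) {ζ : ℂ} (hζ : ζ ^ (2 * 2 ^ e) = 1) {m : ℕ} (hm0 : 0 < m)
    (hm : m < 2 * 2 ^ e) : h.phiFun M ζ (σ ^ m) = 2 - ζ ^ m - (ζ⁻¹) ^ m := by
  classical
  have hζ0 : ζ ≠ 0 := fun h0 => by rw [h0, zero_pow (by positivity)] at hζ; exact zero_ne_one hζ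
  simp only [DihedralOrder.Setup.phiFun, DihedralOrder.Setup.coef, Finset.mul_sum, Finset.sum_mul]
  rw [Finset.sum_comm, Finset.sum_congr rfl (g := fun l => (1 - ζ ^ l) * ((if l = m then 1 else 0) +
    (if l = 2 * 2 ^ e - m then 1 else 0))) (fun l hl => ?_)]
  · simp only [mul_add, mul_ite, mul_one, mul_zero, Finset.sum_add_distrib, Finset.sum_ite_eq',
      Finset.mem_range, hm, show 2 * 2 ^ e - m < 2 * 2 ^ e by omega, if_true]
    rw [inv_pow, pow_sub₀ ζ hζ0 hm.le, hζ, one_mul]
    ring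
  · rcases Nat.eq_zero_or_pos l with rfl | hl0
    · simp
    · have hcol := h.column (M := M) h2M hm0 hm hl0 (Finset.mem_range.1 hl)
      calc _ = ((2 * 2 ^ e : ℕ) : ℂ)⁻¹ * (1 - ζ ^ l) * ∑ χ ∈ Finset.univ.filter (· ∈ principalBlock M G),
            (χ : G → ℂ) (σ ^ m) * (χ : G → ℂ) (σ ^ l) := by
            rw [Finset.mul_sum]; exact Finset.sum_congr rfl fun χ _ => by ring
        _ = _ := by
            rw [hcol]
            calc ((2 * 2 ^ e : ℕ) : ℂ)⁻¹ * (1 - ζ ^ l) * (((2 * 2 ^ e : ℕ) : ℂ) *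
                  ((if l = m then 1 else 0) + (if l = 2 * 2 ^ e - m then 1 else 0)))
                = (((2 * 2 ^ e : ℕ) : ℂ)⁻¹ * ((2 * 2 ^ e : ℕ) : ℂ)) * ((1 - ζ ^ l) *
                  ((if l = m then 1 else 0) + (if l = 2 * 2 ^ e - m then 1 else 0))) := by ring
              _ = _ := by rw [inv_mul_cancel₀ (Nat.cast_ne_zero.2 (by positivity)), one_mul]

end Cfsg.Agent.Screen.DihedralBlock

namespace Cfsg.Agent.Screen.DihedralBlock

open Cfsg Cfsg.Agent
open scoped ComplexConjugate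

universe v

variable {G : Type v} [Group G] [Fintype G] {P : Sylow 2 G} {σ τ : G} {e : ℕ}

theorem exists_setup (eP : (P : Subgroup G) ≃* DihedralGroup (2 * 2 ^ e)) (he : 1 ≤ e)
    (hσ : σ ∈ (P : Subgroup G)) (hσo : orderOf σ = 2 * 2 ^ e) :
    ∃ τ, DihedralOrder.Setup P σ τ e := by
  have : NeZero (2 * 2 ^ e) := ⟨by positivity⟩
  have hk : 2 ≤ 2 ^ e := le_trans (by norm_num) (Nat.pow_le_pow_right two_pos he)
  set y := eP ⟨σ, hσ⟩ with hy
  have hyo : orderOf y = 2 * 2 ^ e := by rw [hy, eP.orderOf_eq, Subgroup.orderOf_mk, hσo]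
  obtain ⟨i, hi⟩ : ∃ i, y = DihedralGroup.r i := by
    cases hc : y with
    | r i => exact ⟨i, rfl⟩
    | sr i => rw [hc, DihedralGroup.orderOf_sr] at hyo; omega
  set τ : G := (eP.symm (DihedralGroup.sr 0) : G) with hτ
  have hσy : σ = ((eP.symm y : (P : Subgroup G)) : G) := by rw [hy, eP.symm_apply_apply]
  refine ⟨τ, he, hσ, Subtype.prop _, hσo, ?_, ?_, ?_⟩
  · rw [hτ, Subgroup.orderOf_coe, eP.symm.orderOf_eq, DihedralGroup.orderOf_sr]
  · rw [hσy, hi, hτ, ← Subgroup.coe_inv, ← Subgroup.coe_mul, ← Subgroup.coe_mul, ← Subgroup.coe_inv, ← map_inv,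
      ← map_mul, ← map_mul, ← map_inv]
    congr 2
    simp
  · refine le_antisymm ((Subgroup.closure_le _).2 (Set.insert_subset_iff.2
      ⟨hσ, Set.singleton_subset_iff.2 (Subtype.prop _)⟩)) fun g hg => ?_
    have hz : Subgroup.zpowers (DihedralGroup.r i : DihedralGroup (2 * 2 ^ e)) =
        Subgroup.zpowers (DihedralGroup.r 1) := by
      refine Subgroup.eq_of_le_of_card_ge (Subgroup.zpowers_le.2 ⟨(i.val : ℤ), ?_⟩) ?_
      · simp only [zpow_natCast, DihedralGroup.r_one_pow, ZMod.natCast_zmod_val]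
      · rw [Nat.card_zpowers, Nat.card_zpowers, DihedralGroup.orderOf_r_one, ← hi, hyo]
    have hσm : σ ∈ Subgroup.closure ({σ, τ} : Set G) := Subgroup.subset_closure (Set.mem_insert _ _)
    have hτm : τ ∈ Subgroup.closure ({σ, τ} : Set G) :=
      Subgroup.subset_closure (Set.mem_insert_of_mem _ (Set.mem_singleton _))
    have hrot : ∀ m : ZMod (2 * 2 ^ e), ((eP.symm (DihedralGroup.r m) : (P : Subgroup G)) : G) ∈
        Subgroup.closure ({σ, τ} : Set G) := by
      intro m
      have hm : (DihedralGroup.r m : DihedralGroup (2 * 2 ^ e)) ∈ Subgroup.zpowers (DihedralGroup.r i) := by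
        rw [hz]
        exact ⟨(m.val : ℤ), by simp only [zpow_natCast, DihedralGroup.r_one_pow, ZMod.natCast_zmod_val]⟩
      obtain ⟨a, ha⟩ := Subgroup.mem_zpowers_iff.1 hm
      rw [← ha, map_zpow, Subgroup.coe_zpow, ← hi, ← hσy]
      exact Subgroup.zpow_mem _ hσm a
    have hgz : g = ((eP.symm (eP ⟨g, hg⟩) : (P : Subgroup G)) : G) := by rw [eP.symm_apply_apply]
    cases hc : eP ⟨g, hg⟩ with
    | r m => rw [hgz, hc]; exact hrot m
    | sr m =>
      rw [hgz, hc, show (DihedralGroup.sr m : DihedralGroup (2 * 2 ^ e)) = DihedralGroup.sr 0 * DihedralGroup.r m by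
        rw [DihedralGroup.sr_mul_r, zero_add], map_mul, Subgroup.coe_mul]
      exact Subgroup.mul_mem _ hτm (hrot m)

/-- The coefficient at an inverse root. -/
theorem coef_inv (h : DihedralOrder.Setup P σ τ e) {ξ : ℂ} (hξ : ξ ^ (2 * 2 ^ e) = 1) (χ : IrrCharacter G) :
    h.coef ξ⁻¹ χ = h.coef ξ χ := by
  obtain ⟨a, ha⟩ := coef_int' h hξ χ
  have hc : ξ⁻¹ = conj ξ :=
    Complex.inv_eq_conj (Complex.norm_eq_one_of_pow_eq_one hξ (by positivity))
  have h1 : conj (h.coef ξ χ) = h.coef ξ⁻¹ χ := by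
    simp only [DihedralOrder.Setup.coef, map_mul, map_inv₀, map_natCast, map_sum, map_sub, map_one, map_pow,
      h.char_real, ← hc]
  rw [← h1, ha, map_intCast]

/-- The values are recovered from the coefficients. -/
theorem inversion (h : DihedralOrder.Setup P σ τ e) {ζ : ℂ} (hζ : IsPrimitiveRoot ζ (2 * 2 ^ e))
    (χ : IrrCharacter G) {l : ℕ} (hl0 : 0 < l) (hl : l < 2 * 2 ^ e) :
    (χ : G → ℂ) (σ ^ l) = -∑ j ∈ Finset.range (2 * 2 ^ e), h.coef (ζ ^ j) χ * (ζ ^ j) ^ l := by
  classical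
  set q := 2 * 2 ^ e with hq
  have hq0 : (q : ℂ) ≠ 0 := Nat.cast_ne_zero.2 (by omega)
  simp only [DihedralOrder.Setup.coef, Finset.mul_sum, Finset.sum_mul, ← hq]
  rw [Finset.sum_comm, Finset.sum_congr rfl (g := fun m => (q : ℂ)⁻¹ * (χ : G → ℂ) (σ ^ m) *
    ((0 : ℂ) - if m = q - l then (q : ℂ) else 0)) (fun m hm => ?_)]
  · simp only [zero_sub, mul_neg, Finset.sum_neg_distrib, mul_ite, mul_zero, Finset.sum_ite_eq',
      Finset.mem_range, show q - l < q by omega, if_true, neg_neg]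
    rw [hq, h.zpow_sub_nat hl.le, ← zpow_natCast, ← zpow_neg, h.char_symm, zpow_natCast, ← hq]
    field_simp
  · have hm' := Finset.mem_range.1 hm
    have g1 : ∑ j ∈ Finset.range q, (ζ ^ l) ^ j = 0 := by
      rw [geom (by rw [← pow_mul, mul_comm, pow_mul, hζ.pow_eq_one, one_pow]), if_neg]
      intro h1
      have := Nat.le_of_dvd hl0 ((hζ.pow_eq_one_iff_dvd l).1 h1)
      omega
    have g2 : ∑ j ∈ Finset.range q, (ζ ^ (l + m)) ^ j = if m = q - l then (q : ℂ) else 0 := by
      rw [geom (by rw [← pow_mul, mul_comm, pow_mul, hζ.pow_eq_one, one_pow])]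
      by_cases hml : m = q - l
      · rw [if_pos hml, if_pos (by rw [hml, show l + (q - l) = q by omega, hζ.pow_eq_one])]
      · rw [if_neg hml, if_neg fun h1 => ?_]
        obtain ⟨c, hc⟩ := (hζ.pow_eq_one_iff_dvd _).1 h1
        rcases c with _ | _ | c
        · omega
        · omega
        · have : q * (c + 1 + 1) = q * c + 2 * q := by ring
          omega
    rw [← g2, ← g1, ← Finset.sum_sub_distrib, Finset.mul_sum]
    refine Finset.sum_congr rfl fun j _ => ?_
    rw [← pow_mul ζ j l, ← pow_mul ζ j m, ← pow_mul ζ l j, ← pow_mul ζ (l + m) j]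
    rw [mul_comm l j, show (l + m) * j = j * m + j * l by ring, pow_add]
    ring

/-- A character of the principal block does not vanish at the central involution. -/
theorem value_J_ne_zero (h : DihedralOrder.Setup P σ τ e) {M : Ideal AlgInt} [M.IsMaximal]
    (h2M : ((2 : ℕ) : AlgInt) ∈ M) {χ : IrrCharacter G} (hχ : χ ∈ principalBlock M G) :
    (χ : G → ℂ) (σ ^ 2 ^ e) ≠ 0 := by
  intro h0
  haveI : Fact (Nat.Prime 2) := ⟨Nat.prime_two⟩
  obtain ⟨a, b, ha, hb, hab⟩ := hχ (σ ^ 2 ^ e)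
  simp only [centralChar, h0, mul_zero, zero_div, sub_zero, mul_one, div_one] at hab
  set m := (Subgroup.centralizer ({σ ^ 2 ^ e} : Set G)).index
  have hm : ¬ 2 ∣ m := fun hd => P.not_dvd_index (hd.trans (Subgroup.index_dvd_of_le fun g hg =>
    Subgroup.mem_centralizer_singleton_iff.2 (h.J_comm hg).eq))
  have hb0 : (b : ℂ) ≠ 0 := fun e0 => hb (by
    have : b = 0 := Subtype.ext e0
    rw [this]; exact M.zero_mem)
  rw [div_eq_iff hb0] at hab
  have hab' : a = (m : AlgInt) * b := Subtype.ext (by rw [hab]; simp)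
  rw [hab'] at ha
  rcases (Ideal.IsMaximal.isPrime inferInstance : M.IsPrime).mem_or_mem ha with hmm | hbb
  swap
  · exact hb hbb
  obtain ⟨t, ht⟩ : Odd m := by rw [← Nat.not_even_iff_odd, even_iff_two_dvd]; exact hm
  refine (Ideal.IsMaximal.ne_top inferInstance : M ≠ ⊤) ((Ideal.eq_top_iff_one M).2 ?_)
  rw [show (1 : AlgInt) = (m : AlgInt) - ((2 : ℕ) : AlgInt) * (t : AlgInt) by
    rw [ht]; push_cast; ring]
  exact M.sub_mem hmm (M.mul_mem_right _ h2M)

end Cfsg.Agent.Screen.DihedralBlock
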