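import Cfsg.Agent.Screen.HallShape

/-! # Hall subgroups of alternating groups extend to the symmetric group -/

set_option autoImplicit false
set_option linter.style.haveILetI false
set_option linter.unusedSectionVars false

namespace Cfsg.Agent.Screen.HallSym

open Equiv Equiv.Perm
open scoped Pointwise

variable {π : Set ℕ} {α : Type*} [Fintype α] [DecidableEq α]

/-- The three-cycle `swap a b * swap a c`. -/
def tri (a b c : α) : Perm α := Equiv.swap a b * Equiv.swap a c

theorem tri_conj (g : Perm α) (a b c : α) : g * tri a b c * g⁻¹ = tri (g a) (g b) (g c) := by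
  rw [tri, tri, Equiv.swap_apply_apply, Equiv.swap_apply_apply]
  group

theorem tri_inv (a b c : α) : (tri a b c)⁻¹ = tri a c b := by
  rw [tri, tri, mul_inv_rev, Equiv.swap_inv, Equiv.swap_inv]

theorem tri_apply_fst {a b c : α} (hab : a ≠ b) (hac : a ≠ c) (hbc : b ≠ c) : tri a b c a = c := by
  simp [tri, Equiv.swap_apply_of_ne_of_ne (Ne.symm hac) (Ne.symm hbc)]

theorem tri_apply_snd {a b c : α} (hab : a ≠ b) (hac : a ≠ c) (hbc : b ≠ c) : tri a b c b = a := by
  simp [tri, Equiv.swap_apply_of_ne_of_ne (Ne.symm hab) hbc]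

theorem tri_apply_thd {a b c : α} (hab : a ≠ b) (hac : a ≠ c) (hbc : b ≠ c) : tri a b c c = b := by
  simp [tri]

theorem tri_apply_of_ne {a b c x : α} (h1 : x ≠ a) (h2 : x ≠ b) (h3 : x ≠ c) : tri a b c x = x := by
  simp [tri, Equiv.swap_apply_of_ne_of_ne h1 h3, Equiv.swap_apply_of_ne_of_ne h1 h2]

theorem tri_rot {a b c : α} (hab : a ≠ b) (hac : a ≠ c) (hbc : b ≠ c) : tri a b c = tri b c a := by
  refine Equiv.ext fun x => ?_
  by_cases h1 : x = a
  · rw [h1, tri_apply_fst hab hac hbc, tri_apply_thd hbc (Ne.symm hab) (Ne.symm hac)]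
  by_cases h2 : x = b
  · rw [h2, tri_apply_snd hab hac hbc, tri_apply_fst hbc (Ne.symm hab) (Ne.symm hac)]
  by_cases h3 : x = c
  · rw [h3, tri_apply_thd hab hac hbc, tri_apply_snd hbc (Ne.symm hab) (Ne.symm hac)]
  rw [tri_apply_of_ne h1 h2 h3, tri_apply_of_ne h2 h3 h1]

theorem swap_swap_pow_six {a b c d : α} (hab : a ≠ b) (hcd : c ≠ d) :
    (Equiv.swap a b * Equiv.swap c d) ^ 6 = 1 := by
  have h3 : ∀ {x y z : α}, x ≠ y → x ≠ z → (Equiv.swap x y * Equiv.swap x z) ^ 6 = 1 := by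
    intro x y z hxy hxz
    by_cases hyz : y = z
    · subst hyz; rw [Equiv.swap_mul_self, one_pow]
    · have h := (isThreeCycle_swap_mul_swap_same hxy hxz hyz).orderOf
      rw [show 6 = 3 * 2 by norm_num, pow_mul, ← h, pow_orderOf_eq_one, one_pow]
  by_cases h1 : a = c
  · subst h1; exact h3 hab hcd
  by_cases h2 : a = d
  · subst h2; rw [Equiv.swap_comm c a]; exact h3 hab (Ne.symm hcd)
  by_cases h4 : b = c
  · subst h4; rw [Equiv.swap_comm a b]; exact h3 (Ne.symm hab) hcd
  by_cases h5 : b = d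
  · subst h5; rw [Equiv.swap_comm a b, Equiv.swap_comm c b]; exact h3 (Ne.symm hab) (Ne.symm hcd)
  have hd : Commute (Equiv.swap a b) (Equiv.swap c d) := by
    refine (disjoint_iff_eq_or_eq.2 fun x => ?_).commute
    by_cases ha : x = a
    · right; rw [ha]; exact Equiv.swap_apply_of_ne_of_ne h1 h2
    by_cases hb : x = b
    · right; rw [hb]; exact Equiv.swap_apply_of_ne_of_ne h4 h5
    exact Or.inl (Equiv.swap_apply_of_ne_of_ne ha hb)
  rw [hd.mul_pow, show 6 = 2 * 3 by norm_num, pow_mul, pow_mul, sq, sq, Equiv.swap_mul_self,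
    Equiv.swap_mul_self, one_pow, one_mul]

theorem swap_commute {a b c d : α} (h1 : a ≠ c) (h2 : a ≠ d) (h3 : b ≠ c) (h4 : b ≠ d) :
    Commute (Equiv.swap a b) (Equiv.swap c d) := by
  refine (disjoint_iff_eq_or_eq.2 fun x => ?_).commute
  by_cases ha : x = a
  · right; rw [ha]; exact Equiv.swap_apply_of_ne_of_ne h1 h2
  by_cases hb : x = b
  · right; rw [hb]; exact Equiv.swap_apply_of_ne_of_ne h3 h4
  exact Or.inl (Equiv.swap_apply_of_ne_of_ne ha hb)

/-- A permutation subgroup `π`-group containing enough of `M` is a Hall subgroup cutting out `M`. -/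
theorem lift_of {M : Subgroup ↥(alternatingGroup α)} (hM : Cfsg.IsPiHall π M)
    {M0 : Subgroup (Perm α)} (hle : M.map (alternatingGroup α).subtype ≤ M0)
    (hπ : ∀ p : ℕ, p.Prime → p ∣ Nat.card M0 → p ∈ π) (hodd : ∃ g ∈ M0, g ∉ alternatingGroup α) :
    Cfsg.IsPiHall π M0 ∧ M = M0.subgroupOf (alternatingGroup α) := by
  have hsub : M ≤ M0.subgroupOf (alternatingGroup α) := fun x hx => hle ⟨x, hx, rfl⟩
  have heq : M = M0.subgroupOf (alternatingGroup α) := by
    refine Subgroup.eq_of_le_of_card_ge hsub (Nat.le_of_dvd Nat.card_pos ?_)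
    refine Subgroup.card_dvd_of_le (Subgroup.relIndex_eq_one.1 ?_)
    by_contra hne
    obtain ⟨p, hp, hpd⟩ := Nat.exists_prime_and_dvd hne
    refine hM.2 p hp (hπ p hp ?_) (hpd.trans (Subgroup.relIndex_dvd_index_of_le hsub))
    refine (hpd.trans (Subgroup.relIndex_dvd_card _ _)).trans ?_
    rw [← Subgroup.card_map_of_injective (alternatingGroup α).subtype_injective, Subgroup.subgroupOf_map_subtype]
    exact Subgroup.card_dvd_of_le inf_le_left
  refine ⟨⟨hπ, fun p hp hpπ hd => hM.2 p hp hpπ ?_⟩, heq⟩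
  obtain ⟨g, hg, hgA⟩ := hodd
  haveI : Nontrivial α := by
    by_contra hnt
    rw [not_nontrivial_iff_subsingleton] at hnt
    exact hgA (by rw [Subsingleton.elim g 1]; exact (alternatingGroup α).one_mem)
  have hA2 : (alternatingGroup α).index = 2 := alternatingGroup.index_eq_two
  have hr2 : (alternatingGroup α).relIndex M0 = 2 := by
    have h1 : (alternatingGroup α).relIndex M0 ∣ 2 := hA2 ▸ Subgroup.relIndex_dvd_index_of_normal (alternatingGroup α) M0
    rcases (Nat.dvd_prime Nat.prime_two).1 h1 with h | h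
    · exact absurd (Subgroup.relIndex_eq_one.1 h hg) hgA
    · exact h
  have e1 : (M0 ⊓ (alternatingGroup α)).index = M.index * 2 := by
    rw [← Subgroup.relIndex_mul_index (show M0 ⊓ (alternatingGroup α) ≤ (alternatingGroup α) from inf_le_right), Subgroup.inf_relIndex_right, hA2,
      heq]
    rfl
  have e2 : (M0 ⊓ (alternatingGroup α)).index = 2 * M0.index := by
    rw [← Subgroup.relIndex_mul_index (show M0 ⊓ (alternatingGroup α) ≤ M0 from inf_le_left), Subgroup.inf_relIndex_left, hr2]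
  rwa [show M.index = M0.index by omega]

theorem map_index {M : Subgroup ↥(alternatingGroup α)} :
    (M.map (alternatingGroup α).subtype).index = M.index * (alternatingGroup α).index := by
  rw [Subgroup.index_map_subtype]

/-- Lifting when `3 ∈ π`. -/
theorem lift_three (h2 : 2 ∈ π) (h3 : 3 ∈ π) (hn : 3 ≤ Fintype.card α)
    {M : Subgroup ↥(alternatingGroup α)} (hM : Cfsg.IsPiHall π M) :
    ∃ M0 : Subgroup (Perm α), Cfsg.IsPiHall π M0 ∧ M = M0.subgroupOf (alternatingGroup α) := by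
  classical
  haveI : Nontrivial α := Fintype.one_lt_card_iff_nontrivial.1 (by omega)
  set H := M.map (alternatingGroup α).subtype with hH
  have hcard : Nat.card H = Nat.card M :=
    Subgroup.card_map_of_injective (alternatingGroup α).subtype_injective
  haveI : Fact (Nat.Prime 3) := ⟨Nat.prime_three⟩
  have hidx : ¬ 3 ∣ H.index := by
    rw [hH, map_index, alternatingGroup.index_eq_two, Nat.prime_three.dvd_mul, not_or]
    exact ⟨hM.2 3 Nat.prime_three h3, by norm_num⟩
  let R : α → α → Prop := fun a b => a = b ∨ ∃ c, a ≠ b ∧ a ≠ c ∧ b ≠ c ∧ tri a b c ∈ H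
  have hsymm : ∀ {a b}, R a b → R b a := by
    rintro a b (rfl | ⟨c, hab, hac, hbc, h⟩)
    · exact Or.inl rfl
    · refine Or.inr ⟨c, Ne.symm hab, hbc, hac, ?_⟩
      have := H.inv_mem h
      rw [tri_inv, tri_rot hac hab (Ne.symm hbc), tri_rot (Ne.symm hbc) (Ne.symm hac) (Ne.symm hab)] at this
      exact this
  have htri : ∀ {a b c}, R a b → R a c → a ≠ b → a ≠ c → b ≠ c → tri a b c ∈ H := by
    intro a b c hb hc hab hac hbc
    obtain ⟨e, -, hae, hbe, hσ⟩ := hb.resolve_left hab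
    obtain ⟨f, -, haf, hcf, hτ⟩ := hc.resolve_left hac
    by_cases hec : e = c
    · exact hec ▸ hσ
    by_cases hfb : f = b
    · have := H.inv_mem hτ
      rwa [tri_inv, hfb] at this
    have hconj : ∀ {g}, g ∈ H → ∀ {x y z}, tri x y z ∈ H → tri (g x) (g y) (g z) ∈ H :=
      fun {g} hg {x y z} h => tri_conj g x y z ▸ H.mul_mem (H.mul_mem hg h) (H.inv_mem hg)
    by_cases hef : e = f
    · subst hef
      have h1 : tri e c b ∈ H := by
        have := hconj hσ hτ
        rwa [tri_apply_fst hab hae hbe, tri_apply_of_ne (Ne.symm hac) (Ne.symm hbc) (Ne.symm hec),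
          tri_apply_thd hab hae hbe] at this
      have h2' := hconj hσ h1
      rw [tri_apply_thd hab hae hbe, tri_apply_of_ne (Ne.symm hac) (Ne.symm hbc) (Ne.symm hec),
        tri_apply_snd hab hae hbe] at h2'
      rwa [tri_rot hbc (Ne.symm hab) (Ne.symm hac), tri_rot (Ne.symm hac) hbc.symm hab] at h2'
    · have h1 := hconj hτ (hconj hτ hσ)
      rw [tri_apply_fst hac haf hcf, tri_apply_thd hac haf hcf,
        tri_apply_of_ne (Ne.symm hab) hbc (Ne.symm hfb), tri_apply_of_ne (Ne.symm hab) hbc (Ne.symm hfb),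
        tri_apply_of_ne (Ne.symm hae) hec hef, tri_apply_of_ne (Ne.symm hae) hec hef] at h1
      have h2' := hconj hσ h1
      rw [tri_apply_of_ne (Ne.symm hac) (Ne.symm hbc) (Ne.symm hec), tri_apply_snd hab hae hbe,
        tri_apply_thd hab hae hbe] at h2'
      rwa [tri_rot (Ne.symm hac) (Ne.symm hbc) hab] at h2'
  have htrans : ∀ {a b c}, R a b → R b c → R a c := by
    intro a b c hab hbc
    by_cases h1 : a = b
    · exact h1 ▸ hbc
    by_cases h2' : b = c
    · exact h2' ▸ hab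
    by_cases h3' : a = c
    · exact Or.inl h3'
    refine Or.inr ⟨b, h3', h1, Ne.symm h2', ?_⟩
    rw [← tri_rot (Ne.symm h1) h2' h3']
    exact htri (hsymm hab) hbc (Ne.symm h1) h2' h3'
  have hP : ∀ {a b c}, R a b → R a c → a ≠ b → a ≠ c → Equiv.swap a b * Equiv.swap a c ∈ H := by
    intro a b c h1 h2' hab hac
    by_cases hbc : b = c
    · rw [hbc, Equiv.swap_mul_self]; exact H.one_mem
    · exact htri h1 h2' hab hac hbc
  -- odd length cycles inside a class
  have hlist : ∀ m : ℕ, ∀ l : List α, l.length = 2 * m + 1 → l.Nodup →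
      (∀ x ∈ l, ∀ y ∈ l, R x y) → l.formPerm ∈ H := by
    intro m
    induction m with
    | zero =>
      intro l hl _ _
      match l, hl with
      | [x], _ => simp
    | succ m ih =>
      intro l hl hnd hrel
      match l, hl with
      | x :: y :: w :: l, hl =>
        rw [List.formPerm_cons_cons, List.formPerm_cons_cons, ← mul_assoc]
        have hnd' := List.nodup_cons.1 hnd
        have hnd'' := List.nodup_cons.1 hnd'.2
        refine H.mul_mem ?_ (ih _ (by simp only [List.length_cons] at hl ⊢; omega) hnd''.2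
          fun a ha b hb => hrel a (by simp_all) b (by simp_all))
        rw [Equiv.swap_comm x y]
        exact hP (hrel y (by simp) x (by simp)) (hrel y (by simp) w (by simp))
          (fun e => hnd'.1 (by simp [e])) (fun e => hnd''.1 (by simp [e]))
  set N := Subgroup.closure {σ : Perm α | ∃ a b, R a b ∧ σ = Equiv.swap a b} with hN
  have hNR : ∀ z ∈ N, ∀ x, R x (z x) := by
    intro z hz
    induction hz using Subgroup.closure_induction with
    | mem g hg =>
      obtain ⟨a, b, hab, rfl⟩ := hg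
      intro x
      by_cases h1 : x = a
      · subst h1; rw [Equiv.swap_apply_left]; exact hab
      by_cases h2' : x = b
      · subst h2'; rw [Equiv.swap_apply_right]; exact hsymm hab
      rw [Equiv.swap_apply_of_ne_of_ne h1 h2']
      exact Or.inl rfl
    | one => intro x; exact Or.inl rfl
    | mul g h _ _ hg hh => intro x; exact htrans (hh x) (hg _)
    | inv g _ hg =>
      intro x
      refine hsymm ?_
      have := hg (g⁻¹ x)
      simpa using this
  have hnorm : H ≤ Subgroup.normalizer (N : Set (Perm α)) := by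
    have hm : ∀ g ∈ H, ∀ z ∈ N, g * z * g⁻¹ ∈ N := by
      intro g hg z hz
      induction hz using Subgroup.closure_induction with
      | mem s hs =>
        obtain ⟨a, b, hab, rfl⟩ := hs
        rw [← Equiv.swap_apply_apply]
        refine Subgroup.subset_closure ⟨g a, g b, ?_, rfl⟩
        rcases hab with rfl | ⟨c, h1, h2', h3', h⟩
        · exact Or.inl rfl
        · exact Or.inr ⟨g c, g.injective.ne h1, g.injective.ne h2', g.injective.ne h3',
            tri_conj g a b c ▸ H.mul_mem (H.mul_mem hg h) (H.inv_mem hg)⟩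
      | one => simp
      | mul a b _ _ ha hb =>
        have := N.mul_mem ha hb
        simpa [mul_assoc] using this
      | inv a _ ha =>
        have := N.inv_mem ha
        simpa [mul_assoc] using this
    intro g hg
    rw [Subgroup.mem_normalizer_iff]
    refine fun z => ⟨fun hz => hm g hg z hz, fun hz => ?_⟩
    have := hm g⁻¹ (H.inv_mem hg) _ hz
    simpa [mul_assoc] using this
  have hNπ : ∀ p : ℕ, p.Prime → p ∣ Nat.card N → p ∈ π := by
    intro p hp hd
    rcases hp.eq_two_or_odd with rfl | hpo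
    · exact h2
    haveI := Fact.mk hp
    obtain ⟨z, hz⟩ := exists_prime_orderOf_dvd_card' p hd
    rw [← Subgroup.orderOf_coe] at hz
    obtain ⟨a, ha⟩ : ∃ a, (z : Perm α) a ≠ a := by
      by_contra h
      push Not at h
      rw [show (z : Perm α) = 1 from Equiv.ext h, orderOf_one] at hz
      exact hp.one_lt.ne hz
    have hcyc := isCycle_cycleOf (z : Perm α) ha
    set T := ((z : Perm α).cycleOf a).support with hT
    have hTc : T.card = p := by
      rw [hT, ← hcyc.orderOf]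
      rcases (Nat.dvd_prime hp).1 (hz ▸ Equiv.Perm.orderOf_cycleOf_dvd_orderOf (z : Perm α) a) with h | h
      · exact absurd (orderOf_eq_one_iff.1 h) hcyc.ne_one
      · exact h
    have hTR : ∀ x ∈ T, R a x := by
      intro x hx
      rw [hT, mem_support_cycleOf_iff] at hx
      obtain ⟨i, hi⟩ := hx.1
      rw [← hi]
      exact hNR _ (N.zpow_mem z.2 i) a
    have hT2 : 2 ≤ T.card := hTc ▸ hp.two_le
    have hmem : cyc T ∈ H := hlist (p / 2) _ (by rw [Finset.length_toList, hTc]; omega) T.nodup_toList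
      fun x hx y hy => htrans (hsymm (hTR x (Finset.mem_toList.1 hx))) (hTR y (Finset.mem_toList.1 hy))
    refine hM.1 p hp (hcard ▸ ?_)
    have ho : orderOf (⟨cyc T, hmem⟩ : H) = p := by
      rw [Subgroup.orderOf_mk, (cyc_isCycle hT2).orderOf, cyc_support hT2, hTc]
    exact ho ▸ orderOf_dvd_natCard _
  set M0 := H ⊔ N with hM0
  have hM0norm : M0 ≤ Subgroup.normalizer (N : Set (Perm α)) := sup_le hnorm Subgroup.le_normalizer
  haveI hNn : (N.subgroupOf M0).Normal := (Subgroup.normal_subgroupOf_iff_le_normalizer le_sup_right).2 hM0norm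
  let f : H →* M0 ⧸ N.subgroupOf M0 := (QuotientGroup.mk' _).comp (Subgroup.inclusion le_sup_left)
  have hf : Function.Surjective f := by
    intro c
    obtain ⟨⟨x, hx⟩, rfl⟩ := QuotientGroup.mk_surjective c
    have hx' : x ∈ (H : Set (Perm α)) * (N : Set (Perm α)) := by
      rw [← Subgroup.coe_mul_of_left_le_normalizer_right H N hnorm]; exact hx
    obtain ⟨u, hu, v, hv, rfl⟩ := hx'
    refine ⟨⟨u, hu⟩, QuotientGroup.eq.2 ?_⟩
    show u⁻¹ * (u * v) ∈ N
    simpa using hv
  have hπ0 : ∀ p : ℕ, p.Prime → p ∣ Nat.card M0 → p ∈ π := by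
    intro p hp hd
    rw [Subgroup.card_eq_card_quotient_mul_card_subgroup (N.subgroupOf M0),
      Nat.card_congr (Subgroup.subgroupOfEquivOfLe (show N ≤ M0 from le_sup_right)).toEquiv] at hd
    rcases hp.dvd_mul.1 hd with h | h
    · exact hM.1 p hp (hcard ▸ h.trans (Subgroup.card_dvd_of_surjective f hf))
    · exact hNπ p hp h
  obtain ⟨𝒮, h𝒮, h𝒮'⟩ := exists_cycle_cover (p := 3) H hidx
  obtain ⟨T, hT⟩ : 𝒮.Nonempty := by
    rw [Finset.nonempty_iff_ne_empty]
    rintro rfl
    simp at h𝒮'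
    omega
  obtain ⟨hTc, σ, hσ, hσc, hσs⟩ := h𝒮 T hT
  obtain ⟨a, ha⟩ := Finset.card_pos.1 (by rw [hTc]; norm_num : 0 < T.card)
  rw [← hσs, mem_support] at ha
  have hσ3 : σ.IsThreeCycle := card_support_eq_three_iff.1 (hσs ▸ hTc)
  have hσ2 : σ (σ (σ a)) = a := by
    have h := congrArg (fun g : Perm α => g a) (pow_orderOf_eq_one σ)
    rw [hσ3.orderOf] at h
    simpa [pow_succ', mul_apply] using h
  have hσa2 : σ (σ a) ≠ a := fun h => ha (by rw [h] at hσ2; exact hσ2)
  have e : tri a (σ (σ a)) (σ a) = σ := by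
    have hx1 : a ≠ σ (σ a) := Ne.symm hσa2
    have hx2 : σ (σ a) ≠ σ a := fun h => ha (σ.injective h)
    refine Equiv.ext fun x => ?_
    by_cases h1 : x = a
    · rw [h1, tri_apply_fst hx1 (Ne.symm ha) hx2]
    by_cases h2' : x = σ (σ a)
    · rw [h2', tri_apply_snd hx1 (Ne.symm ha) hx2, hσ2]
    by_cases h3' : x = σ a
    · rw [h3', tri_apply_thd hx1 (Ne.symm ha) hx2]
    rw [tri_apply_of_ne h1 h2' h3']
    symm
    rw [← notMem_support]
    intro hx
    obtain ⟨i, hi⟩ := hσc.exists_pow_eq ha (mem_support.1 hx)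
    have h3p : σ ^ 3 = 1 := hσ3.orderOf ▸ pow_orderOf_eq_one σ
    rw [pow_eq_pow_mod i h3p] at hi
    have : i % 3 = 0 ∨ i % 3 = 1 ∨ i % 3 = 2 := by omega
    rcases this with h | h | h <;> rw [h] at hi
    · exact h1 (by simpa using hi.symm)
    · exact h3' (by simpa using hi.symm)
    · exact h2' (by simpa [sq, mul_apply] using hi.symm)
  have hRa : R a (σ (σ a)) := Or.inr ⟨σ a, Ne.symm hσa2, Ne.symm ha, fun h => ha (σ.injective h), e.symm ▸ hσ⟩
  refine ⟨M0, lift_of hM le_sup_left hπ0 ⟨Equiv.swap a (σ (σ a)),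
    (le_sup_right : N ≤ M0) (Subgroup.subset_closure ⟨_, _, hRa, rfl⟩), ?_⟩⟩
  rw [mem_alternatingGroup, sign_swap (Ne.symm hσa2)]
  decide

theorem klein_conj {a b c d : α} (hac : a ≠ c) (had : a ≠ d) (hbc : b ≠ c) (hbd : b ≠ d) (hab : a ≠ b) (hcd : c ≠ d) :
    Commute (Equiv.swap a b * Equiv.swap c d) (Equiv.swap a c * Equiv.swap b d) := by
  set t := Equiv.swap a b * Equiv.swap c d with ht
  have hta : t a = b := by simp [ht, Equiv.swap_apply_of_ne_of_ne hac had]
  have htb : t b = a := by simp [ht, Equiv.swap_apply_of_ne_of_ne hbc hbd]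
  have htc : t c = d := by simp [ht, Equiv.swap_apply_of_ne_of_ne (Ne.symm had) (Ne.symm hbd)]
  have htd : t d = c := by simp [ht, Equiv.swap_apply_of_ne_of_ne (Ne.symm hac) (Ne.symm hbc)]
  rw [commute_iff_eq, ← mul_inv_eq_iff_eq_mul]
  calc t * (Equiv.swap a c * Equiv.swap b d) * t⁻¹
      = (t * Equiv.swap a c * t⁻¹) * (t * Equiv.swap b d * t⁻¹) := by group
    _ = Equiv.swap (t a) (t c) * Equiv.swap (t b) (t d) := by rw [Equiv.swap_apply_apply, Equiv.swap_apply_apply]
    _ = _ := by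
      rw [hta, htb, htc, htd]
      exact (swap_commute (Ne.symm hab) hbc (Ne.symm had) (Ne.symm hcd)).eq

theorem klein_commute {A : Finset α} (hA : A.card = 4) {a b c d a' b' c' d' : α} (ha : a ∈ A) (hb : b ∈ A)
    (hc : c ∈ A) (hd : d ∈ A) (ha' : a' ∈ A) (hb' : b' ∈ A) (hc' : c' ∈ A) (hd' : d' ∈ A)
    (hab : a ≠ b) (hac : a ≠ c) (had : a ≠ d) (hbc : b ≠ c) (hbd : b ≠ d) (hcd : c ≠ d)
    (hab' : a' ≠ b') (hac' : a' ≠ c') (had' : a' ≠ d') (hbc' : b' ≠ c') (hbd' : b' ≠ d') (hcd' : c' ≠ d') :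
    Commute (Equiv.swap a b * Equiv.swap c d) (Equiv.swap a' b' * Equiv.swap c' d') := by
  have hcov : ∀ {u v w x : α}, u ∈ A → v ∈ A → w ∈ A → x ∈ A → u ≠ v → u ≠ w → u ≠ x → v ≠ w → v ≠ x →
      w ≠ x → ∀ z ∈ A, z = u ∨ z = v ∨ z = w ∨ z = x := by
    intro u v w x hu hv hw hx h1 h2 h3 h4 h5 h6 z hz
    by_contra h
    push Not at h
    have hsub : ({z, u, v, w, x} : Finset α) ⊆ A := by
      simp [Finset.insert_subset_iff, hz, hu, hv, hw, hx]
    have := Finset.card_le_card hsub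
    rw [hA, Finset.card_insert_of_notMem (by simp [h]), Finset.card_insert_of_notMem (by simp [h1, h2, h3]),
      Finset.card_insert_of_notMem (by simp [h4, h5]), Finset.card_pair h6] at this
    omega
  obtain ⟨b₁, c₁, d₁, hb₁, hc₁, hd₁, n1, n2, n3, n4, n5, n6, heq⟩ : ∃ b₁ c₁ d₁, b₁ ∈ A ∧ c₁ ∈ A ∧ d₁ ∈ A ∧
      a ≠ b₁ ∧ a ≠ c₁ ∧ a ≠ d₁ ∧ b₁ ≠ c₁ ∧ b₁ ≠ d₁ ∧ c₁ ≠ d₁ ∧
      Equiv.swap a' b' * Equiv.swap c' d' = Equiv.swap a b₁ * Equiv.swap c₁ d₁ := by
    rcases hcov ha' hb' hc' hd' hab' hac' had' hbc' hbd' hcd' a ha with rfl | rfl | rfl | rfl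
    · exact ⟨b', c', d', hb', hc', hd', hab', hac', had', hbc', hbd', hcd', rfl⟩
    · exact ⟨a', c', d', ha', hc', hd', Ne.symm hab', hbc', hbd', hac', had', hcd', by rw [Equiv.swap_comm a' a]⟩
    · exact ⟨d', a', b', hd', ha', hb', hcd', Ne.symm hac', Ne.symm hbc', Ne.symm had', Ne.symm hbd', hab',
        (swap_commute hac' had' hbc' hbd').eq⟩
    · exact ⟨c', a', b', hc', ha', hb', Ne.symm hcd', Ne.symm had', Ne.symm hbd', Ne.symm hac', Ne.symm hbc',
        hab', by rw [(swap_commute hac' had' hbc' hbd').eq, Equiv.swap_comm c' a]⟩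
  rw [heq]
  have key : ∀ {u v}, u ∈ A → u ≠ a → u ≠ b₁ → v ∈ A → v ≠ a → v ≠ b₁ → u ≠ v →
      ∀ {p q}, p ∈ A → q ∈ A → p ≠ a → p ≠ b₁ → q ≠ a → q ≠ b₁ → p ≠ q →
        Equiv.swap u v = Equiv.swap p q := by
    intro u v hu hua hub hv hva hvb huv p q hp hq hpa hpb hqa hqb hpq
    rcases hcov ha hb₁ hp hq n1 (Ne.symm hpa) (Ne.symm hqa) (Ne.symm hpb) (Ne.symm hqb) hpq u hu with
      rfl | rfl | rfl | rfl
    · exact absurd rfl hua
    · exact absurd rfl hub
    · rcases hcov ha hb₁ hp hq n1 (Ne.symm hpa) (Ne.symm hqa) (Ne.symm hpb) (Ne.symm hqb) hpq v hv with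
        rfl | rfl | rfl | rfl
      · exact absurd rfl hva
      · exact absurd rfl hvb
      · exact absurd rfl huv
      · rfl
    · rcases hcov ha hb₁ hp hq n1 (Ne.symm hpa) (Ne.symm hqa) (Ne.symm hpb) (Ne.symm hqb) hpq v hv with
        rfl | rfl | rfl | rfl
      · exact absurd rfl hva
      · exact absurd rfl hvb
      · exact Equiv.swap_comm _ _
      · exact absurd rfl huv
  rcases hcov ha hb hc hd hab hac had hbc hbd hcd b₁ hb₁ with h | h | h | h
  · exact absurd h.symm n1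
  · subst h
    rw [key hc₁ (Ne.symm n2) (Ne.symm n4) hd₁ (Ne.symm n3) (Ne.symm n5) n6 hc hd (Ne.symm hac) (Ne.symm hbc)
      (Ne.symm had) (Ne.symm hbd) hcd]
  · subst h
    rw [key hc₁ (Ne.symm n2) (Ne.symm n4) hd₁ (Ne.symm n3) (Ne.symm n5) n6 hb hd (Ne.symm hab) hbc
      (Ne.symm had) (Ne.symm hcd) hbd]
    exact klein_conj hac had hbc hbd hab hcd
  · subst h
    rw [key hc₁ (Ne.symm n2) (Ne.symm n4) hd₁ (Ne.symm n3) (Ne.symm n5) n6 hb hc (Ne.symm hab) hbd
      (Ne.symm hac) hcd hbc, Equiv.swap_comm c b₁]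
    exact klein_conj had hac hbd hbc hab (Ne.symm hcd)

/-- The double transpositions of `M` on a set of four points. -/
def IsKlein (H : Subgroup (Perm α)) (B : Finset α) : Prop :=
  B.card = 4 ∧ ∀ x ∈ B, ∀ b ∈ B, x ≠ b → ∃ y c, y ∈ B ∧ c ∈ B ∧ y ≠ c ∧ y ≠ x ∧ y ≠ b ∧ c ≠ x ∧ c ≠ b ∧
    Equiv.swap x b * Equiv.swap y c ∈ H

theorem klein_eq_of_meet {H : Subgroup (Perm α)} (h3 : ¬ 3 ∣ Nat.card H) {B B' : Finset α}
    (hB : IsKlein H B) (hB' : IsKlein H B') {x : α} (hx : x ∈ B) (hx' : x ∈ B') : B = B' := by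
  by_contra hne
  obtain ⟨b, hb, hb'⟩ : ∃ b ∈ B, b ∉ B' := by
    by_contra h
    push Not at h
    exact hne (Finset.eq_of_subset_of_card_le h (by rw [hB.1, hB'.1]))
  obtain ⟨b', hc', hc⟩ : ∃ b' ∈ B', b' ∉ B := by
    by_contra h
    push Not at h
    exact hne (Finset.eq_of_subset_of_card_le h (by rw [hB.1, hB'.1])).symm
  have hxb : x ≠ b := fun e => hb' (e ▸ hx')
  have hxb' : x ≠ b' := fun e => hc (e ▸ hx)
  obtain ⟨y, c, hy, hcB, hyc, hyx, hyb, hcx, hcb, ht⟩ := hB.2 x hx b hb hxb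
  obtain ⟨y', c', hy', hcB', hyc', hyx', hyb', hcx', hcb', ht'⟩ := hB'.2 x hx' b' hc' hxb'
  have hbb' : b ≠ b' := fun e => hc (e ▸ hb)
  have hyb'0 : y ≠ b' := fun e => hc (e ▸ hy)
  have hcb'0 : c ≠ b' := fun e => hc (e ▸ hcB)
  have hy'b : y' ≠ b := fun e => hb' (e ▸ hy')
  have hc'b : c' ≠ b := fun e => hb' (e ▸ hcB')
  set u := Equiv.swap x b * Equiv.swap x b' with hu
  set v := Equiv.swap y c * Equiv.swap y' c' with hv
  have hz : Equiv.swap x b * Equiv.swap y c * (Equiv.swap x b' * Equiv.swap y' c') = u * v := by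
    have e : Equiv.swap y c * Equiv.swap x b' = Equiv.swap x b' * Equiv.swap y c :=
      (swap_commute hyx hyb'0 hcx hcb'0).eq
    rw [hu, hv, mul_assoc, ← mul_assoc (Equiv.swap y c), e]
    group
  have hcom : Commute u v := by
    refine ((swap_commute ?_ ?_ ?_ ?_).mul_right (swap_commute ?_ ?_ ?_ ?_)).mul_left
      ((swap_commute ?_ ?_ ?_ ?_).mul_right (swap_commute ?_ ?_ ?_ ?_)) <;>
      first | assumption | exact Ne.symm ‹_›
  have hmem : u * v ∈ H := hz ▸ H.mul_mem ht ht'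
  have h6 : (u * v) ^ 6 = 1 := by
    rw [hcom.mul_pow, hu, swap_swap_pow_six hxb hxb', hv, swap_swap_pow_six hyc hyc', one_mul]
  have h2 : (u * v) ^ 2 ≠ 1 := by
    intro h
    have hv1 : v x = x := by
      simp [hv, Equiv.swap_apply_of_ne_of_ne (Ne.symm hyx') (Ne.symm hcx'),
        Equiv.swap_apply_of_ne_of_ne (Ne.symm hyx) (Ne.symm hcx)]
    have hv2 : v b' = b' := by
      simp [hv, Equiv.swap_apply_of_ne_of_ne (Ne.symm hyb') (Ne.symm hcb'),
        Equiv.swap_apply_of_ne_of_ne (Ne.symm hyb'0) (Ne.symm hcb'0)]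
    have hu1 : u x = b' := by simp [hu, Equiv.swap_apply_of_ne_of_ne (Ne.symm hxb') (Ne.symm hbb')]
    have hu2 : u b' = b := by simp [hu]
    have := congrArg (fun g : Perm α => g x) h
    simp only [sq, mul_apply, hv1, hu1, hv2, hu2, one_apply] at this
    exact hxb this.symm
  refine h3 ?_
  have ho : orderOf (⟨u * v, hmem⟩ : H) ∣ 6 := orderOf_dvd_of_pow_eq_one (Subtype.ext h6)
  have ho2 : ¬ orderOf (⟨u * v, hmem⟩ : H) ∣ 2 := fun h => h2 (by
    simpa using congrArg Subtype.val (orderOf_dvd_iff_pow_eq_one.1 h))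
  have hle := Nat.le_of_dvd (by norm_num) ho
  refine dvd_trans ?_ (orderOf_dvd_natCard (⟨u * v, hmem⟩ : H))
  revert ho ho2 hle
  generalize orderOf (⟨u * v, hmem⟩ : H) = o
  intro ho ho2 hle
  interval_cases o <;> revert ho ho2 <;> norm_num

/-- With `3 ∉ π` no Hall subgroup of the alternating group involves an odd prime `≥ 5`. -/
theorem no_hall_without_three (h2 : 2 ∈ π) (h3 : 3 ∉ π) {p : ℕ} (hp : p.Prime) (hp5 : 5 ≤ p)
    (hpπ : p ∈ π) (hpn : p ≤ Fintype.card α) {M : Subgroup ↥(alternatingGroup α)}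
    (hM : Cfsg.IsPiHall π M) : False := by
  classical
  haveI : Nontrivial α := Fintype.one_lt_card_iff_nontrivial.1 (by omega)
  set H := M.map (alternatingGroup α).subtype with hH
  have hcard : Nat.card H = Nat.card M :=
    Subgroup.card_map_of_injective (alternatingGroup α).subtype_injective
  have hH3 : ¬ 3 ∣ Nat.card H := fun h => h3 (hM.1 3 Nat.prime_three (hcard ▸ h))
  haveI := Fact.mk hp
  haveI : Fact (Nat.Prime 2) := ⟨Nat.prime_two⟩
  have hidx : ¬ p ∣ H.index := by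
    rw [hH, map_index, alternatingGroup.index_eq_two, hp.dvd_mul, not_or]
    exact ⟨hM.2 p hp hpπ, fun h => by have := Nat.le_of_dvd two_pos h; omega⟩
  obtain ⟨𝒯, h𝒯, h𝒯'⟩ := exists_cycle_cover (p := p) H hidx
  obtain ⟨T, hT⟩ : 𝒯.Nonempty := by
    rw [Finset.nonempty_iff_ne_empty]
    rintro rfl
    simp at h𝒯'
    omega
  obtain ⟨hTc, σ, hσ, hσc, hσs⟩ := h𝒯 T hT
  obtain ⟨𝒮, h1, h2', h3'⟩ := exists_disjoint_family 4 (by norm_num) (Finset.univ : Finset α)
  -- double transpositions on the blocks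
  set S : Set ↥(alternatingGroup α) := {t | ∃ A ∈ 𝒮, ∃ a b c d, a ∈ A ∧ b ∈ A ∧ c ∈ A ∧ d ∈ A ∧
    a ≠ b ∧ a ≠ c ∧ a ≠ d ∧ b ≠ c ∧ b ≠ d ∧ c ≠ d ∧ (t : Perm α) = Equiv.swap a b * Equiv.swap c d} with hS
  have hfour : ∀ A ∈ 𝒮, ∀ x b, x ∈ A → b ∈ A → x ≠ b → ∃ y c, y ∈ A ∧ c ∈ A ∧ y ≠ c ∧
      A \ {x, b} = {y, c} ∧ y ≠ x ∧ y ≠ b ∧ c ≠ x ∧ c ≠ b := by
    intro A hA x b hx hb hxb
    have hc2 : (A \ {x, b}).card = 2 := by
      rw [Finset.card_sdiff_of_subset (by simp [Finset.insert_subset_iff, hx, hb]), (h1 A hA).1,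
        Finset.card_pair hxb]
    obtain ⟨y, c, hyc, e⟩ := Finset.card_eq_two.1 hc2
    have hy : y ∈ A \ {x, b} := by rw [e]; simp
    have hc : c ∈ A \ {x, b} := by rw [e]; simp
    simp only [Finset.mem_sdiff, Finset.mem_insert, Finset.mem_singleton, not_or] at hy hc
    exact ⟨y, c, hy.1, hc.1, hyc, e, hy.2.1, hy.2.2, hc.2.1, hc.2.2⟩
  have hcomm : ∀ t ∈ S, ∀ t' ∈ S, Commute t t' := by
    rintro t ⟨A, hA, a, b, c, d, ha, hb, hc, hd, hab, hac, had, hbc, hbd, hcd, e⟩
      t' ⟨A', hA', a', b', c', d', ha', hb', hc', hd', hab', hac', had', hbc', hbd', hcd', e'⟩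
    refine Subtype.ext ?_
    show (t : Perm α) * t' = (t' : Perm α) * t
    rcases eq_or_ne A A' with rfl | hne
    · -- the four-group on `A`
      rw [e, e']
      exact (klein_commute (h1 A hA).1 ha hb hc hd ha' hb' hc' hd' hab hac had hbc hbd hcd
        hab' hac' had' hbc' hbd' hcd').eq
    · have hdis : ∀ u ∈ A, ∀ w ∈ A', u ≠ w := fun u hu w hw h =>
        Finset.disjoint_left.1 (h2' A hA A' hA' hne) hu (h ▸ hw)
      rw [e, e']
      exact (((swap_commute (hdis a ha a' ha') (hdis a ha b' hb') (hdis b hb a' ha') (hdis b hb b' hb')).mul_right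
        (swap_commute (hdis a ha c' hc') (hdis a ha d' hd') (hdis b hb c' hc') (hdis b hb d' hd'))).mul_left
        ((swap_commute (hdis c hc a' ha') (hdis c hc b' hb') (hdis d hd a' ha') (hdis d hd b' hb')).mul_right
        (swap_commute (hdis c hc c' hc') (hdis c hc d' hd') (hdis d hd c' hc') (hdis d hd d' hd')))).eq
  have hsq : ∀ t ∈ S, t ^ 2 = 1 := by
    rintro t ⟨A, hA, a, b, c, d, ha, hb, hc, hd, hab, hac, had, hbc, hbd, hcd, e⟩
    refine Subtype.ext ?_
    rw [SubmonoidClass.coe_pow, e, (swap_commute hac had hbc hbd).mul_pow, sq, sq, Equiv.swap_mul_self,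
      Equiv.swap_mul_self, one_mul, OneMemClass.coe_one]
  obtain ⟨g, hg⟩ := conj_into M (hM.2 2 Nat.prime_two h2) S hcomm hsq
  set h : Perm α := ((g : Perm α))⁻¹ with hh
  have hklein : ∀ A ∈ 𝒮, IsKlein H (A.image h) := by
    intro A hA
    refine ⟨by rw [Finset.card_image_of_injective _ h.injective, (h1 A hA).1], fun x hx b hb hxb => ?_⟩
    obtain ⟨x, hxA, rfl⟩ := Finset.mem_image.1 hx
    obtain ⟨b, hbA, rfl⟩ := Finset.mem_image.1 hb
    have hxb0 : x ≠ b := fun e => hxb (by rw [e])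
    obtain ⟨y, c, hy, hc, hyc, -, hyx, hyb, hcx, hcb⟩ := hfour A hA x b hxA hbA hxb0
    refine ⟨h y, h c, Finset.mem_image_of_mem _ hy, Finset.mem_image_of_mem _ hc, h.injective.ne hyc,
      h.injective.ne hyx, h.injective.ne hyb, h.injective.ne hcx, h.injective.ne hcb, ?_⟩
    have hev : Equiv.swap x b * Equiv.swap y c ∈ alternatingGroup α := by
      rw [mem_alternatingGroup, map_mul, sign_swap hxb0, sign_swap hyc]; decide
    have hin := hg ⟨_, hev⟩ ⟨A, hA, x, b, y, c, hxA, hbA, hy, hc, hxb0, Ne.symm hyx, Ne.symm hcx,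
      Ne.symm hyb, Ne.symm hcb, hyc, rfl⟩
    refine ⟨_, hin, ?_⟩
    rw [Equiv.swap_apply_apply, Equiv.swap_apply_apply, hh]
    simp [mul_assoc]
  -- the long cycle meets a block
  obtain ⟨w, hwT, hw⟩ : ∃ w ∈ T, ∃ A ∈ 𝒮, w ∈ A.image h := by
    by_contra hcon
    push Not at hcon
    have hsub : T.image ⇑h⁻¹ ⊆ Finset.univ \ 𝒮.biUnion id := by
      intro u hu
      obtain ⟨w, hw, rfl⟩ := Finset.mem_image.1 hu
      rw [Finset.mem_sdiff]
      refine ⟨Finset.mem_univ _, fun hu' => ?_⟩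
      obtain ⟨A, hA, hwA⟩ := Finset.mem_biUnion.1 hu'
      exact hcon w hw A hA (Finset.mem_image.2 ⟨_, hwA, by simp⟩)
    have := Finset.card_le_card hsub
    rw [Finset.card_image_of_injective _ (Equiv.injective _), hTc] at this
    omega
  obtain ⟨A, hA, hwA⟩ := hw
  set B := A.image h with hBdef
  have hB := hklein A hA
  have hpowimg : ∀ g' ∈ H, IsKlein H (B.image g') := by
    intro g' hg'
    refine ⟨by rw [Finset.card_image_of_injective _ g'.injective, hB.1], fun x hx b hb hxb => ?_⟩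
    obtain ⟨x, hxA, rfl⟩ := Finset.mem_image.1 hx
    obtain ⟨b, hbA, rfl⟩ := Finset.mem_image.1 hb
    obtain ⟨y, c, hy, hc, hyc, hyx, hyb, hcx, hcb, ht⟩ := hB.2 x hxA b hbA fun e => hxb (by rw [e])
    refine ⟨g' y, g' c, Finset.mem_image_of_mem _ hy, Finset.mem_image_of_mem _ hc, g'.injective.ne hyc,
      g'.injective.ne hyx, g'.injective.ne hyb, g'.injective.ne hcx, g'.injective.ne hcb, ?_⟩
    have := H.mul_mem (H.mul_mem hg' ht) (H.inv_mem hg')
    rw [Equiv.swap_apply_apply, Equiv.swap_apply_apply]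
    simpa [mul_assoc] using this
  -- a power of `σ` fixing `B` setwise and moving a point of it
  have hstab : ∀ τ ∈ H, τ.IsCycle → τ.support = T → τ.support.card = p → B.image τ = B → False := by
    intro τ hτ hτc hτs hτp hfix
    have hsub : τ.support ⊆ B := by
      intro z hz
      obtain ⟨i, hi⟩ := hτc.exists_pow_eq (mem_support.1 (hτs ▸ hwT)) (mem_support.1 hz)
      rw [← hi]
      clear hi
      induction i with
      | zero => simpa using hwA
      | succ i ih =>
        rw [pow_succ', mul_apply, ← hfix]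
        exact Finset.mem_image_of_mem _ ih
    have := Finset.card_le_card hsub
    rw [hτp, hB.1] at this
    omega
  have hTσ : σ.support.card = p := by rw [hσs, hTc]
  have hBT : B ⊆ T := by
    intro z hz
    by_contra hzT
    refine hstab σ hσ hσc hσs hTσ ?_
    have hzfix : σ z = z := notMem_support.1 (hσs ▸ hzT)
    exact (klein_eq_of_meet hH3 (hpowimg σ hσ) hB (Finset.mem_image.2 ⟨z, hz, hzfix⟩) hz)
  obtain ⟨b, hbB, hbw⟩ : ∃ b ∈ B, b ≠ w := Finset.exists_mem_ne (by rw [hB.1]; norm_num) w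
  obtain ⟨i, hi⟩ := hσc.exists_pow_eq (mem_support.1 (hσs ▸ hwT)) (mem_support.1 (hσs ▸ hBT hbB))
  have hord : orderOf σ = p := by rw [hσc.orderOf, hTσ]
  have hco : Nat.Coprime i (orderOf σ) := by
    rw [hord, Nat.coprime_comm, hp.coprime_iff_not_dvd]
    intro hpi
    rw [← hord, orderOf_dvd_iff_pow_eq_one] at hpi
    rw [hpi, one_apply] at hi
    exact hbw hi.symm
  have hs : (σ ^ i).support = T := by rw [support_pow_coprime hco, hσs]
  refine hstab (σ ^ i) (H.pow_mem hσ i) ((IsCycle.pow_iff hσc).2 hco) hs (by rw [hs, hTc]) ?_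
  exact klein_eq_of_meet hH3 (hpowimg _ (H.pow_mem hσ i)) hB (Finset.mem_image.2 ⟨w, hwA, hi⟩) hbB

/-- Every Hall subgroup of the alternating group extends, `2 ∈ π`. -/
theorem alt_lift (h2 : 2 ∈ π) {M : Subgroup ↥(alternatingGroup α)} (hM : Cfsg.IsPiHall π M) :
    ∃ M0 : Subgroup (Perm α), Cfsg.IsPiHall π M0 ∧ M = M0.subgroupOf (alternatingGroup α) := by
  classical
  rcases Nat.lt_or_ge (Fintype.card α) 2 with hn | hn
  · haveI : Subsingleton α := Fintype.card_le_one_iff_subsingleton.1 (by omega)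
    refine ⟨⊤, ⟨fun p hp hd => ?_, fun p hp _ hd => ?_⟩, ?_⟩
    · rw [Nat.card_unique, Nat.dvd_one] at hd
      exact absurd hd hp.ne_one
    · rw [Subgroup.index_top, Nat.dvd_one] at hd
      exact hp.ne_one hd
    · ext x
      rw [Subgroup.top_subgroupOf, show x = 1 from Subtype.ext (Subsingleton.elim _ _)]
      exact iff_of_true M.one_mem trivial
  haveI : Nontrivial α := Fintype.one_lt_card_iff_nontrivial.1 (by omega)
  by_cases hT : TwoOnly π (Fintype.card α)
  · haveI : Fact (Nat.Prime 2) := ⟨Nat.prime_two⟩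
    have hpow : ∀ p : ℕ, p.Prime → p ∈ π → p ∣ Nat.card (Perm α) → p = 2 := fun p hp hpπ hd => by
      rw [card_perm_eq] at hd
      exact hT p hp hpπ (hp.dvd_factorial.1 hd)
    have h2g : IsPGroup 2 ↥(M.map (alternatingGroup α).subtype) := by
      refine IsPGroup.of_card (Nat.eq_prime_pow_of_unique_prime_dvd Nat.card_pos.ne' fun {d} hd hdd => ?_)
      refine hpow d hd (hM.1 d hd ?_) (hdd.trans (Subgroup.card_subgroup_dvd_card _))
      rwa [Subgroup.card_map_of_injective (alternatingGroup α).subtype_injective] at hdd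
    obtain ⟨Q, hQ⟩ := h2g.exists_le_sylow
    obtain ⟨x, y, hxy⟩ := Nontrivial.exists_pair_ne (α := α)
    obtain ⟨g, hg⟩ := conj_into (p := 2) (Q : Subgroup (Perm α)) Q.not_dvd_index {Equiv.swap x y}
      (by rintro _ rfl _ rfl; exact Commute.refl _) (by rintro _ rfl; rw [sq, Equiv.swap_mul_self])
    refine ⟨Q, lift_of hM hQ (fun p hp hd => ?_) ⟨_, hg _ rfl, ?_⟩⟩
    · obtain ⟨k, hk⟩ := IsPGroup.iff_card.1 Q.isPGroup'
      rw [hk] at hd
      rwa [(Nat.prime_dvd_prime_iff_eq hp Nat.prime_two).1 (hp.dvd_of_dvd_pow hd)]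
    · rw [mem_alternatingGroup, map_mul, map_mul, mul_right_comm, ← map_mul, inv_mul_cancel, map_one,
        one_mul, sign_swap hxy]
      decide
  · simp only [TwoOnly, not_forall] at hT
    obtain ⟨p, hp, hpπ, hpn, hp2⟩ := hT
    by_cases h3 : 3 ∈ π
    · exact lift_three h2 h3 (by have := hp.two_le; omega) hM
    · exfalso
      refine no_hall_without_three h2 h3 hp ?_ hpπ hpn hM
      have h4 : p ≠ 3 := fun e => h3 (e ▸ hpπ)
      have := hp.two_le
      by_contra hh
      have : p = 4 := by omega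
      subst this
      norm_num at hp

end Cfsg.Agent.Screen.HallSym
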