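import Mathlib

/-! # Arithmetic for Hall subgroups of symmetric groups -/

set_option autoImplicit false

namespace Cfsg.Agent.Screen.HallSym

/-- No carry when `p` does not divide the binomial coefficient. -/
theorem no_carry {p a b : ℕ} (hp : p.Prime) (h : ¬ p ∣ (a + b).choose b) (e : ℕ) :
    a % p ^ e + b % p ^ e < p ^ e := by
  rcases Nat.eq_zero_or_pos e with rfl | he
  · simp [Nat.mod_one]
  by_contra hc
  push Not at hc
  apply h
  have hne : (a + b).choose b ≠ 0 := (Nat.choose_pos (Nat.le_add_left _ _)).ne'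
  rw [hp.dvd_iff_one_le_factorization hne,
    Nat.factorization_choose hp (Nat.le_add_left _ _)
      (b := max (Nat.log p (a + b) + 1) (e + 1)) (by omega)]
  refine Finset.card_pos.2 ⟨e, Finset.mem_filter.2 ⟨Finset.mem_Ico.2 ⟨he, by omega⟩, ?_⟩⟩
  rw [Nat.add_sub_cancel]
  omega

theorem mod_eq_sub {a d j : ℕ} (hj : 0 < j) (hjd : j ≤ d) (h : d ∣ a + j) : a % d = d - j := by
  obtain ⟨c, hc⟩ := h
  obtain ⟨c', rfl⟩ : ∃ c', c = c' + 1 := ⟨c - 1, by
    rcases Nat.eq_zero_or_pos c with rfl | h
    · simp at hc; omega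
    · omega⟩
  rw [Nat.mul_succ] at hc
  have : a = (d - j) + d * c' := by omega
  rw [this, Nat.add_mul_mod_self_left, Nat.mod_eq_of_lt (by omega)]

/-- If `d ∣ a + j` and there is no carry, the residue of `b` is small. -/
theorem mod_small {p a b e j : ℕ} (hp : p.Prime) (h : ¬ p ∣ (a + b).choose b) (hj : 0 < j)
    (hjd : j ≤ p ^ e) (hd : p ^ e ∣ a + j) : b % p ^ e < j := by
  have h1 := no_carry hp h e
  rw [mod_eq_sub hj hjd hd] at h1
  omega

/-- All prime factors of `a + 1` in `π` and no carries force `a + 1 ∣ b`. -/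
theorem succ_dvd {a b : ℕ} (h : ∀ p : ℕ, p.Prime → p ∣ a + 1 → ¬ p ∣ (a + b).choose b) :
    a + 1 ∣ b := by
  rw [Nat.dvd_iff_prime_pow_dvd_dvd]
  intro p k hp hk
  rcases Nat.eq_zero_or_pos k with rfl | hk0
  · simp
  have hpd : p ∣ a + 1 := (dvd_pow_self p hk0.ne').trans hk
  have h1 := mod_small hp (h p hp hpd) Nat.one_pos (Nat.one_le_pow _ _ hp.pos) hk
  exact Nat.dvd_of_mod_eq_zero (Nat.lt_one_iff.1 h1)

/-- The two parts of a partition with no carries for all primes below `r`. -/
theorem pair_five {r a b : ℕ} (hr : r.Prime) (ha : a + 1 = r) (hb : 2 ≤ b) (hba : b ≤ a)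
    (h : ∀ p : ℕ, p.Prime → p < r → ¬ p ∣ (a + b).choose b) : a = 4 ∧ b = 3 := by
  have h2r : 3 ≤ r := by omega
  have hodd : r % 2 = 1 := hr.eq_two_or_odd.resolve_left (by omega)
  have hne : b ≠ a := by
    rintro rfl
    refine h 2 Nat.prime_two (by omega) ?_
    rw [← two_mul]
    exact Nat.two_dvd_centralBinom_of_one_le (by omega)
  -- `b + 1 ∣ a`
  have hB : b + 1 ∣ a := succ_dvd fun p hp hd => by
    have := Nat.le_of_dvd (by omega) hd
    rw [add_comm b a, Nat.choose_symm_add]
    exact h p hp (by omega)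
  obtain ⟨l, hl⟩ := hB
  -- `a + 2 ∣ b (b - 1)`
  have h2 : a + 2 ∣ b * (b - 1) := by
    rw [Nat.dvd_iff_prime_pow_dvd_dvd]
    intro p k hp hk
    rcases Nat.eq_zero_or_pos k with rfl | hk0
    · simp
    have hpd : p ∣ a + 2 := (dvd_pow_self p hk0.ne').trans hk
    have hplt : p < r := by
      rcases hp.eq_two_or_odd with rfl | hpo
      · omega
      · obtain ⟨c, hc⟩ := hpd
        have : c % 2 = 0 := by
          rcases Nat.mod_two_eq_zero_or_one c with h0 | h0
          · exact h0
          · exfalso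
            have : (p * c) % 2 = 1 := by rw [Nat.mul_mod, hpo, h0]
            omega
        have hc2 : p * 2 ≤ p * c := Nat.mul_le_mul_left _ (by
          rcases Nat.eq_zero_or_pos c with rfl | _
          · simp at hc
          · omega)
        omega
    have h1 := mod_small hp (h p hp hplt) two_pos
      (le_trans hp.two_le (Nat.le_self_pow hk0.ne' p)) hk
    have := Nat.div_add_mod b (p ^ k)
    rcases Nat.lt_or_ge (b % p ^ k) 1 with h0 | h0
    · exact dvd_mul_of_dvd_left (Nat.dvd_of_mod_eq_zero (Nat.lt_one_iff.1 h0)) _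
    · exact dvd_mul_of_dvd_right ⟨b / p ^ k, by
        generalize b % p ^ k = u at *
        omega⟩ _
  -- solve
  obtain ⟨c, hc⟩ := h2
  have hl0 : 1 ≤ l := by
    rcases Nat.eq_zero_or_pos l with rfl | h
    · simp at hl; omega
    · exact h
  have hz : ((b : ℤ) + 1) * l = a := by rw [hl]; push_cast; ring
  have hcz : (b : ℤ) * ((b : ℤ) - 1) = ((a : ℤ) + 2) * c := by
    have : ((b * (b - 1) : ℕ) : ℤ) = (((a + 2) * c : ℕ) : ℤ) := by rw [hc]
    push_cast [Nat.cast_sub (show 1 ≤ b by omega)] at this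
    exact this
  -- `a + 2 ∣ 2 (b - 2 - l)`
  have hkey : ((a : ℤ) + 2) * (((b : ℤ) - 2 - l) - (c - 1) * l) = 2 * ((b : ℤ) - 2 - l) := by
    linear_combination (l : ℤ) * hcz - ((b : ℤ) - 2) * hz
  have hfam : b = l + 2 ∨ (l = 1 ∧ b = 9) := by
    set X := (b : ℤ) - 2 - l with hX
    set Y := X - ((c : ℤ) - 1) * l with hY
    by_contra hne'
    push Not at hne'
    have hX0 : X ≠ 0 := by omega
    have hab : (b : ℤ) + 1 ≤ a := by
      rw [← hz]
      exact le_mul_of_one_le_right (by positivity) (by exact_mod_cast hl0)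
    have hY0 : Y ≠ 0 := by
      intro h0
      rw [h0, mul_zero] at hkey
      omega
    rcases Nat.lt_or_ge l 2 with hl1 | hl2
    · have hl1' : l = 1 := by omega
      subst hl1'
      rw [mul_one] at hl
      have hY3 : Y ≤ -2 ∨ Y = -1 ∨ Y = 1 ∨ 2 ≤ Y := by omega
      have hA : (a : ℤ) + 2 = (b : ℤ) + 3 := by omega
      rw [hA] at hkey
      rcases hY3 with hY3 | hY3 | hY3 | hY3
      · nlinarith
      · rw [hY3] at hkey; omega
      · rw [hY3] at hkey; omega
      · nlinarith
    · have h2B : ((b : ℤ) + 1) * 2 ≤ a := by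
        rw [← hz]
        exact mul_le_mul_of_nonneg_left (by exact_mod_cast hl2) (by positivity)
      have hlB : (l : ℤ) * 3 ≤ a := by
        rw [← hz, mul_comm ((b : ℤ) + 1)]
        exact mul_le_mul_of_nonneg_left (by omega) (by positivity)
      rcases lt_or_gt_of_ne hY0 with hY' | hY'
      · nlinarith
      · nlinarith
  rcases hfam with hfam | ⟨rfl, rfl⟩
  · rcases Nat.lt_or_ge b 4 with hb4 | hb4
    · have hb3 : b = 3 := by omega
      subst hb3
      have hl1 : l = 1 := by omega
      subst hl1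
      omega
    · exfalso
      -- `a + 4 ∣ 8 (b - 1)`
      have h4 : a + 4 ∣ b * (b - 1) * (b - 2) * (b - 3) := by
        rw [Nat.dvd_iff_prime_pow_dvd_dvd]
        intro p k hp hk
        rcases Nat.eq_zero_or_pos k with rfl | hk0
        · simp
        have hpd : p ∣ a + 4 := (dvd_pow_self p hk0.ne').trans hk
        rcases Nat.lt_or_ge (p ^ k) 4 with hsmall | hbig
        · -- a product of four consecutive numbers
          have hmod := Nat.mod_lt b (pow_pos hp.pos k)
          have hdm := Nat.div_add_mod b (p ^ k)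
          have hj : b % p ^ k = 0 ∨ b % p ^ k = 1 ∨ b % p ^ k = 2 := by
            generalize b % p ^ k = u at *
            omega
          rcases hj with hj | hj | hj
          · exact dvd_mul_of_dvd_left (dvd_mul_of_dvd_left (dvd_mul_of_dvd_left
              (Nat.dvd_of_mod_eq_zero hj) _) _) _
          · exact dvd_mul_of_dvd_left (dvd_mul_of_dvd_left (dvd_mul_of_dvd_right
              ⟨b / p ^ k, by omega⟩ _) _) _
          · exact dvd_mul_of_dvd_left (dvd_mul_of_dvd_right ⟨b / p ^ k, by omega⟩ _) _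
        · have hplt : p < r := by
            rcases hp.eq_two_or_odd with rfl | hpo
            · omega
            · obtain ⟨d, hd⟩ := hpd
              have : d % 2 = 0 := by
                rcases Nat.mod_two_eq_zero_or_one d with h0 | h0
                · exact h0
                · exfalso
                  have : (p * d) % 2 = 1 := by rw [Nat.mul_mod, hpo, h0]
                  omega
              have hd2 : p * 2 ≤ p * d := Nat.mul_le_mul_left _ (by
                rcases Nat.eq_zero_or_pos d with rfl | _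
                · simp at hd
                · omega)
              omega
          have h1 := mod_small hp (h p hp hplt) (by norm_num : 0 < 4) hbig hk
          have hdm := Nat.div_add_mod b (p ^ k)
          have hj : b % p ^ k = 0 ∨ b % p ^ k = 1 ∨ b % p ^ k = 2 ∨ b % p ^ k = 3 := by
            generalize b % p ^ k = u at *
            omega
          rcases hj with hj | hj | hj | hj
          · exact dvd_mul_of_dvd_left (dvd_mul_of_dvd_left (dvd_mul_of_dvd_left
              (Nat.dvd_of_mod_eq_zero hj) _) _) _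
          · exact dvd_mul_of_dvd_left (dvd_mul_of_dvd_left (dvd_mul_of_dvd_right
              ⟨b / p ^ k, by omega⟩ _) _) _
          · exact dvd_mul_of_dvd_left (dvd_mul_of_dvd_right ⟨b / p ^ k, by omega⟩ _) _
          · exact dvd_mul_of_dvd_right ⟨b / p ^ k, by omega⟩ _
      have hz4 : ((a : ℤ) + 4) ∣ 8 * ((b : ℤ) - 1) := by
        have h' : ((a + 4 : ℕ) : ℤ) ∣ ((b * (b - 1) * (b - 2) * (b - 3) : ℕ) : ℤ) :=
          Int.natCast_dvd_natCast.2 h4
        push_cast [Nat.cast_sub (show 1 ≤ b by omega), Nat.cast_sub (show 2 ≤ b by omega),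
          Nat.cast_sub (show 3 ≤ b by omega)] at h'
        have hA : (a : ℤ) + 4 = (b : ℤ) * ((b : ℤ) - 1) + 2 := by
          rw [← hz, show (l : ℤ) = (b : ℤ) - 2 by omega]; ring
        obtain ⟨k, hk⟩ := h'
        refine ⟨k - ((b : ℤ) - 2) * ((b : ℤ) - 3) - (-2), ?_⟩
        rw [hA] at hk ⊢
        linear_combination hk
      obtain ⟨k, hk⟩ := hz4
      have hA : (a : ℤ) + 4 = (b : ℤ) * ((b : ℤ) - 1) + 2 := by
        rw [← hz, show (l : ℤ) = (b : ℤ) - 2 by omega]; ring
      rw [hA] at hk
      have hk0 : 0 < k := by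
        by_contra hk'
        push Not at hk'
        nlinarith
      have hb7 : b ≤ 7 := by nlinarith
      interval_cases b <;> norm_num at hk <;> omega
  · exfalso
    rw [mul_one] at hl
    subst hl
    refine h 2 Nat.prime_two (by omega) ?_
    norm_num [Nat.choose_eq_factorial_div_factorial]

/-- The factor by which `(a!)^b b!` differs from `(b a)!`. -/
def wreathQuot (a b : ℕ) : ℕ := ∏ j ∈ Finset.range b, (j * a + a - 1).choose (a - 1)

theorem wreathQuot_pos (a b : ℕ) : 0 < wreathQuot a b :=
  Finset.prod_pos fun j _ => Nat.choose_pos (by omega)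

theorem factorial_wreath {a : ℕ} (ha : 1 ≤ a) (b : ℕ) :
    (b * a).factorial = wreathQuot a b * a.factorial ^ b * b.factorial := by
  induction b with
  | zero => simp [wreathQuot]
  | succ b ih =>
    rw [wreathQuot, Finset.prod_range_succ, ← wreathQuot, Nat.succ_mul, pow_succ, Nat.factorial_succ b,
      ← Nat.add_choose_mul_factorial_mul_factorial (b * a) a, ih]
    obtain ⟨c, rfl⟩ : ∃ c, a = c + 1 := ⟨a - 1, by omega⟩
    have h := Nat.add_one_mul_choose_eq (b * (c + 1) + c) c
    rw [show b * (c + 1) + (c + 1) - 1 = b * (c + 1) + c by omega, Nat.add_sub_cancel]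
    rw [show b * (c + 1) + (c + 1) = b * (c + 1) + c + 1 by omega]
    have h' : (b * (c + 1) + c + 1).choose (c + 1) = (b + 1) * (b * (c + 1) + c).choose c := by
      refine Nat.eq_of_mul_eq_mul_right (show 0 < c + 1 by omega) ?_
      rw [← h]; ring
    rw [h']
    ring

theorem dvd_wreathQuot {a b j : ℕ} (hj : j < b) :
    (j * a + a - 1).choose (a - 1) ∣ wreathQuot a b :=
  Finset.dvd_prod_of_mem (fun j => (j * a + a - 1).choose (a - 1)) (Finset.mem_range.2 hj)

theorem two_mul_choose_half {a : ℕ} (ha : 1 ≤ a) :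
    (a + a).choose a = 2 * (1 * a + a - 1).choose (a - 1) := by
  obtain ⟨c, rfl⟩ : ∃ c, a = c + 1 := ⟨a - 1, by omega⟩
  have h := Nat.add_one_mul_choose_eq (c + 1 + c) c
  rw [show c + 1 + (c + 1) = c + 1 + c + 1 by omega, Nat.add_sub_cancel,
    show 1 * (c + 1) + (c + 1) - 1 = c + 1 + c by omega]
  refine Nat.eq_of_mul_eq_mul_right (show 0 < c + 1 by omega) ?_
  rw [← h]
  ring

/-- The block size of a transitive Hall subgroup containing a transposition. -/
theorem wreath_shape {π : Set ℕ} (h2 : 2 ∈ π) {a b : ℕ} (ha : 2 ≤ a) (hb : 2 ≤ b)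
    (hsmall : ∀ p : ℕ, p.Prime → p ≤ a → p ∈ π)
    (h : ∀ p : ℕ, p.Prime → p ∈ π → ¬ p ∣ wreathQuot a b) :
    (a = 2 ∧ ∀ p : ℕ, p.Prime → p ∈ π → p ≤ 2 * b → p = 2) ∨
      (a = 4 ∧ b = 2 ∧ 3 ∈ π ∧ 5 ∉ π ∧ 7 ∉ π) := by
  rcases Nat.lt_or_ge a 3 with ha3 | ha3
  · have ha2 : a = 2 := by omega
    subst ha2
    refine Or.inl ⟨rfl, fun p hp hpπ hple => ?_⟩
    by_contra hne
    have hodd : p % 2 = 1 := hp.eq_two_or_odd.resolve_left hne
    refine h p hp hpπ (dvd_trans ?_ (dvd_wreathQuot (j := p / 2) (by omega)))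
    rw [show p / 2 * 2 + 2 - 1 = p by omega, Nat.choose_one_right]
  have h2' := h 2 Nat.prime_two h2
  have hC : ∀ p : ℕ, p.Prime → p ∈ π → ¬ p ∣ (1 * a + a - 1).choose (a - 1) := fun p hp hpπ hd =>
    h p hp hpπ (hd.trans (dvd_wreathQuot (by omega)))
  have hne : (a + a).choose a ≠ 0 := (Nat.choose_pos (Nat.le_add_left _ _)).ne'
  -- `a` is a power of two
  have hv : ((a + a).choose a).factorization 2 = 1 := by
    rw [two_mul_choose_half (by omega), Nat.factorization_mul two_ne_zero
      (Nat.choose_pos (by omega)).ne', Finsupp.add_apply, Nat.prime_two.factorization_self,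
      Nat.factorization_eq_zero_of_not_dvd (hC 2 Nat.prime_two h2)]
  have hpow : a = 2 ^ Nat.log 2 a := by
    by_contra hnp
    set l := Nat.log 2 a with hl
    have hlo : 2 ^ l ≤ a := Nat.pow_log_le_self 2 (by omega)
    have hhi : a < 2 ^ (l + 1) := Nat.lt_pow_succ_log_self (by norm_num) a
    obtain ⟨m, c, hc, hac⟩ := Nat.exists_eq_two_pow_mul_odd (show a ≠ 0 by omega)
    have hml : m < l := by
      by_contra hml
      have h1 : 2 ^ l ≤ 2 ^ m := Nat.pow_le_pow_right two_pos (by omega)
      obtain ⟨c', rfl⟩ := hc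
      rcases Nat.eq_zero_or_pos c' with rfl | hc'
      · rw [mul_zero, zero_add, mul_one] at hac
        have : l = m := by
          rw [hl, hac, Nat.log_pow (by norm_num)]
        rw [this] at hnp
        exact hnp hac
      · have : 2 ^ m * 3 ≤ a := hac ▸ Nat.mul_le_mul_left _ (by omega)
        have : 2 ^ (l + 1) = 2 * 2 ^ l := by ring
        nlinarith
    rw [Nat.factorization_choose Nat.prime_two (Nat.le_add_left _ _)
      (b := max (Nat.log 2 (a + a) + 1) (l + 2)) (by omega)] at hv
    have hsub : ({m + 1, l + 1} : Finset ℕ) ⊆ {i ∈ Finset.Ico 1 (max (Nat.log 2 (a + a) + 1) (l + 2)) |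
        2 ^ i ≤ a % 2 ^ i + (a + a - a) % 2 ^ i} := by
      intro i hi
      rw [Finset.mem_insert, Finset.mem_singleton] at hi
      rw [Finset.mem_filter, Finset.mem_Ico, Nat.add_sub_cancel]
      rcases hi with rfl | rfl
      · refine ⟨⟨by omega, by omega⟩, ?_⟩
        have : a % 2 ^ (m + 1) = 2 ^ m := by
          obtain ⟨c', rfl⟩ := hc
          rw [hac, pow_succ, Nat.mul_mod_mul_left, Nat.mul_add_mod]; simp
        rw [this, pow_succ]
        omega
      · refine ⟨⟨by omega, by omega⟩, ?_⟩
        rw [Nat.mod_eq_of_lt hhi, pow_succ]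
        omega
    have := Finset.card_le_card hsub
    rw [Finset.card_pair (by omega), hv] at this
    omega
  have ha4 : 4 ∣ a := by
    have : 2 ≤ Nat.log 2 a := Nat.le_log_of_pow_le (by norm_num) (by
      by_contra hh
      have : a = 3 := by omega
      rw [this] at hpow
      norm_num at hpow)
    rw [hpow]
    exact dvd_trans (by norm_num) (pow_dvd_pow 2 this)
  by_cases ha8 : a = 4
  · subst ha8
    have h3 : 3 ∈ π := hsmall 3 Nat.prime_three (by norm_num)
    have hb2 : b = 2 := by
      by_contra hb2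
      refine h 3 Nat.prime_three h3 (dvd_trans ?_ (dvd_wreathQuot (j := 2) (by omega)))
      decide
    subst hb2
    exact Or.inr ⟨rfl, rfl, h3, fun h5 => h 5 (by norm_num) h5 (by decide),
      fun h7 => h 7 (by norm_num) h7 (by decide)⟩
  · exfalso
    obtain ⟨p, e, hp, hdvd, hbig, hodd⟩ : ∃ p e : ℕ, p.Prime ∧ p ^ e ∣ a / 2 + 1 ∧ 5 ≤ p ^ e ∧ p ≠ 2 := by
      have hodd : (a / 2 + 1) % 2 = 1 := by omega
      by_cases h5 : ∃ p, p.Prime ∧ p ∣ a / 2 + 1 ∧ 5 ≤ p
      · obtain ⟨p, hp, h1, h2⟩ := h5
        exact ⟨p, 1, hp, by rwa [pow_one], by rwa [pow_one], by omega⟩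
      · push Not at h5
        refine ⟨3, 2, Nat.prime_three, ?_, by norm_num, by norm_num⟩
        have e := Nat.eq_prime_pow_of_unique_prime_dvd (p := 3) (n := a / 2 + 1) (by omega)
          (fun {d} hd hdd => by
            have := h5 d hd hdd
            have := hd.two_le
            interval_cases d
            · omega
            · rfl
            · norm_num at hd)
        rw [e]
        refine pow_dvd_pow 3 ?_
        by_contra hlt
        have : (a / 2 + 1).primeFactorsList.length = 0 ∨ (a / 2 + 1).primeFactorsList.length = 1 := by omega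
        rcases this with h' | h' <;> rw [h'] at e <;> omega
    have hpa : p ≤ a := by
      rcases Nat.eq_zero_or_pos e with rfl | he
      · simp at hbig
      · have := Nat.le_of_dvd (by omega) hdvd
        have := Nat.le_self_pow he.ne' p
        omega
    have hnd : ¬ p ∣ (a + a).choose a := by
      rw [two_mul_choose_half (by omega), hp.dvd_mul, not_or]
      exact ⟨fun h' => hodd ((Nat.prime_dvd_prime_iff_eq hp Nat.prime_two).1 h'),
        hC p hp (hsmall p hp hpa)⟩
    have hd' : p ^ e ∣ a + 2 := by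
      refine hdvd.trans ⟨2, ?_⟩
      omega
    have h1 := mod_small hp hnd two_pos (by omega) hd'
    rw [mod_eq_sub two_pos (by omega) hd'] at h1
    omega

end Cfsg.Agent.Screen.HallSym
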