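import Cfsg.Prelude
import Mathlib

/-! # Generalities on Hall subgroups of permutation groups; odd `π` -/

set_option autoImplicit false
set_option linter.style.haveILetI false
set_option linter.unusedSectionVars false

namespace Cfsg.Agent.Screen.HallSym

open Equiv Equiv.Perm

variable {π : Set ℕ}

section Gen

variable {G : Type*} [Group G] [Finite G]

/-- A commuting family of elements of order `p` can be conjugated into a Hall subgroup. -/
theorem conj_into {p : ℕ} [hp : Fact p.Prime] (M : Subgroup G) (hM : ¬ p ∣ M.index) (S : Set G)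
    (hc : ∀ x ∈ S, ∀ y ∈ S, Commute x y) (hS : ∀ x ∈ S, x ^ p = 1) :
    ∃ g : G, ∀ x ∈ S, g⁻¹ * x * g ∈ M := by
  have hc' : ∀ x ∈ Subgroup.closure S, ∀ y ∈ Subgroup.closure S, Commute x y := by
    intro x hx y hy
    have hz : ∀ z ∈ S, Commute x z := fun z hz => by
      refine Subgroup.closure_induction (p := fun a _ => Commute a z) (fun a ha => hc a ha z hz)
        (Commute.one_left z) (fun a b _ _ ha hb => ha.mul_left hb) (fun a _ ha => ha.inv_left) hx
    refine Subgroup.closure_induction (p := fun a _ => Commute x a) (fun a ha => hz a ha)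
      (Commute.one_right x) (fun a b _ _ ha hb => ha.mul_right hb) (fun a _ ha => ha.inv_right) hy
  have hP : IsPGroup p (Subgroup.closure S) := by
    intro x
    refine ⟨1, Subtype.ext ?_⟩
    rw [pow_one, SubmonoidClass.coe_pow, OneMemClass.coe_one]
    refine Subgroup.closure_induction (p := fun a _ => a ^ p = 1) (fun a ha => hS a ha) (one_pow p)
      (fun a b ha hb ha' hb' => by rw [(hc' a ha b hb).mul_pow, ha', hb', one_mul])
      (fun a _ ha => by rw [inv_pow, ha, inv_one]) x.2
  letI : MulAction ↥(Subgroup.closure S) (G ⧸ M) := MulAction.compHom _ (Subgroup.closure S).subtype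
  obtain ⟨c, hc⟩ := hP.nonempty_fixed_point_of_prime_not_dvd_card (G ⧸ M)
    (by rwa [← Subgroup.index_eq_card])
  obtain ⟨g, rfl⟩ := QuotientGroup.mk_surjective c
  refine ⟨g, fun x hx => ?_⟩
  have h := hc ⟨x, Subgroup.subset_closure hx⟩
  have h' : ((x * g : G) : G ⧸ M) = (g : G ⧸ M) := h
  have h2 := QuotientGroup.eq.1 h'.symm
  simpa [mul_assoc] using h2

/-- Two comparable Hall subgroups are equal. -/
theorem hall_eq_of_le {H W : Subgroup G} (hH : Cfsg.IsPiHall π H) (hW : Cfsg.IsPiHall π W)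
    (hle : H ≤ W) : H = W := by
  refine Subgroup.eq_of_le_of_card_ge hle (Nat.le_of_dvd Nat.card_pos ?_)
  have h1 : H.relIndex W = 1 := by
    by_contra hne
    obtain ⟨p, hp, hpd⟩ := Nat.exists_prime_and_dvd hne
    exact hH.2 p hp (hW.1 p hp (hpd.trans (Subgroup.relIndex_dvd_card _ _)))
      (hpd.trans (Subgroup.relIndex_dvd_index_of_le hle))
  exact (Subgroup.card_dvd_of_le (Subgroup.relIndex_eq_one.1 h1))

theorem hall_map_conj {H : Subgroup G} (hH : Cfsg.IsPiHall π H) (g : G) :
    Cfsg.IsPiHall π (H.map (MulAut.conj g).toMonoidHom) := by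
  have e1 : (H.map (MulAut.conj g).toMonoidHom).index = H.index := H.index_map_equiv (MulAut.conj g)
  have e2 : Nat.card ↥(H.map (MulAut.conj g).toMonoidHom) = Nat.card H :=
    Subgroup.card_map_of_injective (MulAut.conj g).injective
  exact ⟨fun p hp hd => hH.1 p hp (e2 ▸ hd), fun p hp hpπ hd => hH.2 p hp hpπ (e1 ▸ hd)⟩

/-- Conjugacy of Hall subgroups when `π` meets the order in at most one prime. -/
theorem hall_conj_single
    (h : ∀ p q : ℕ, p.Prime → q.Prime → p ∈ π → q ∈ π → p ∣ Nat.card G → q ∣ Nat.card G → p = q) :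
    (∃ H : Subgroup G, Cfsg.IsPiHall π H) ∧ ∀ H K : Subgroup G, Cfsg.IsPiHall π H → Cfsg.IsPiHall π K →
      ∃ g : G, K = H.map (MulAut.conj g).toMonoidHom := by
  by_cases hne : ∃ p : ℕ, p.Prime ∧ p ∈ π ∧ p ∣ Nat.card G
  · obtain ⟨p, hp, hpπ, hpG⟩ := hne
    haveI := Fact.mk hp
    have key : ∀ H : Subgroup G, Cfsg.IsPiHall π H → ∃ P : Sylow p G, (P : Subgroup G) = H := by
      intro H hH
      have hpg : IsPGroup p H := IsPGroup.of_card (Nat.eq_prime_pow_of_unique_prime_dvd Nat.card_pos.ne'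
        fun {d} hd hdd => h d p hd hp (hH.1 d hd hdd) hpπ
          (hdd.trans (Subgroup.card_subgroup_dvd_card H)) hpG)
      obtain ⟨P, hP⟩ := hpg.exists_le_sylow
      refine ⟨P, (Subgroup.eq_of_le_of_card_ge hP (Nat.le_of_dvd Nat.card_pos ?_)).symm⟩
      have h1 := P.card_eq_multiplicity
      rw [h1, ← H.card_mul_index,
        Nat.factorization_mul Nat.card_pos.ne' H.index_ne_zero_of_finite, Finsupp.add_apply,
        Nat.factorization_eq_zero_of_not_dvd (hH.2 p hp hpπ), add_zero]
      exact Nat.ordProj_dvd _ _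
    refine ⟨?_, fun H K hH hK => ?_⟩
    · let P : Sylow p G := default
      refine ⟨P, fun d hd hdd => ?_, fun d hd hdπ hdd => ?_⟩
      · obtain ⟨k, hk⟩ := IsPGroup.iff_card.1 P.isPGroup'
        rw [hk] at hdd
        rwa [(Nat.prime_dvd_prime_iff_eq hd hp).1 (hd.dvd_of_dvd_pow hdd)]
      · rw [h d p hd hp hdπ hpπ (hdd.trans (Subgroup.index_dvd_card _)) hpG] at hdd
        exact P.not_dvd_index hdd
    · obtain ⟨P, rfl⟩ := key H hH
      obtain ⟨Q, rfl⟩ := key K hK
      obtain ⟨g, rfl⟩ := MulAction.exists_smul_eq G P Q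
      exact ⟨g, Sylow.coe_subgroup_smul⟩
  · push Not at hne
    refine ⟨⟨⊥, fun p hp hd => ?_, fun p hp hpπ hd => hne p hp hpπ (hd.trans (Subgroup.index_dvd_card _))⟩,
      fun H K hH hK => ⟨1, ?_⟩⟩
    · rw [Subgroup.card_bot, Nat.dvd_one] at hd
      exact absurd hd hp.ne_one
    · have key : ∀ H : Subgroup G, Cfsg.IsPiHall π H → H = ⊥ := fun H hH => by
        by_contra hne'
        obtain ⟨p, hp, hd⟩ := Nat.exists_prime_and_dvd (mt (Subgroup.eq_bot_of_card_eq H) hne')
        exact hne p hp (hH.1 p hp hd) (hd.trans (Subgroup.card_subgroup_dvd_card H))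
      rw [key H hH, key K hK, Subgroup.map_bot]

end Gen

variable {α : Type*} [Fintype α] [DecidableEq α]

theorem card_perm_eq : Nat.card (Perm α) = (Fintype.card α).factorial := by
  rw [Nat.card_eq_fintype_card, Fintype.card_perm]

/-- The cycle along a finite set. -/
noncomputable def cyc (s : Finset α) : Perm α := s.toList.formPerm

theorem cyc_support {s : Finset α} (hs : 2 ≤ s.card) : (cyc s).support = s := by
  rw [cyc, List.support_formPerm_of_nodup _ s.nodup_toList (fun x h => by
    have := congrArg List.length h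
    simp at this
    omega), Finset.toList_toFinset]

theorem cyc_isCycle {s : Finset α} (hs : 2 ≤ s.card) : (cyc s).IsCycle :=
  List.isCycle_formPerm s.nodup_toList (by rw [Finset.length_toList]; exact hs)

theorem cyc_pow_card {s : Finset α} (hs : 2 ≤ s.card) : cyc s ^ s.card = 1 := by
  rw [← cyc_support hs, ← (cyc_isCycle hs).orderOf, cyc_support hs, pow_orderOf_eq_one]

theorem exists_disjoint_family (p : ℕ) (hp : 0 < p) (s : Finset α) :
    ∃ 𝒮 : Finset (Finset α), (∀ A ∈ 𝒮, A.card = p ∧ A ⊆ s) ∧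
      (∀ A ∈ 𝒮, ∀ B ∈ 𝒮, A ≠ B → Disjoint A B) ∧ (s \ 𝒮.biUnion id).card < p := by
  induction s using Finset.strongInductionOn with
  | _ s ih =>
    by_cases hs : s.card < p
    · exact ⟨∅, by simp, by simp, by simpa using hs⟩
    · obtain ⟨A, hA, hAc⟩ := Finset.exists_subset_card_eq (show p ≤ s.card by omega)
      obtain ⟨𝒮, h1, h2, h3⟩ := ih (s \ A) (Finset.sdiff_ssubset hA (Finset.card_pos.1 (hAc ▸ hp)))
      refine ⟨insert A 𝒮, ?_, ?_, ?_⟩
      · intro B hB
        rcases Finset.mem_insert.1 hB with rfl | hB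
        · exact ⟨hAc, hA⟩
        · exact ⟨(h1 B hB).1, (h1 B hB).2.trans Finset.sdiff_subset⟩
      · have hdis : ∀ B ∈ 𝒮, Disjoint A B := fun B hB =>
          Finset.disjoint_sdiff.mono_right (h1 B hB).2
        intro B hB C hC hne
        rcases Finset.mem_insert.1 hB with hB | hB <;> rcases Finset.mem_insert.1 hC with hC | hC
        · exact absurd (hB.trans hC.symm) hne
        · exact hB ▸ hdis C hC
        · exact hC ▸ (hdis B hB).symm
        · exact h2 B hB C hC hne
      · rwa [Finset.biUnion_insert, id_eq, Finset.sdiff_union_distrib,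
          ← Finset.inf_eq_inter, show (s \ A) ⊓ (s \ 𝒮.biUnion id) = (s \ A) \ 𝒮.biUnion id from by
            ext x; simp; tauto]

theorem cyc_disjoint {A B : Finset α} (hA : 2 ≤ A.card) (hB : 2 ≤ B.card) (h : Disjoint A B) :
    Perm.Disjoint (cyc A) (cyc B) := by
  rw [disjoint_iff_disjoint_support, cyc_support hA, cyc_support hB]
  exact h

theorem cyc_commute {p : ℕ} (hp : 2 ≤ p) {𝒮 : Finset (Finset α)} (h1 : ∀ A ∈ 𝒮, A.card = p)
    (h2 : ∀ A ∈ 𝒮, ∀ B ∈ 𝒮, A ≠ B → Disjoint A B) :
    ∀ x ∈ cyc '' (𝒮 : Set (Finset α)), ∀ y ∈ cyc '' (𝒮 : Set (Finset α)), Commute x y := by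
  rintro _ ⟨A, hA, rfl⟩ _ ⟨B, hB, rfl⟩
  rcases eq_or_ne A B with rfl | hne
  · exact Commute.refl _
  · exact (cyc_disjoint (by rw [h1 A hA]; exact hp) (by rw [h1 B hB]; exact hp) (h2 A hA B hB hne)).commute

/-- Some conjugate of a subgroup of index prime to `p` contains a covering family of `p`-cycles. -/
theorem exists_cycle_cover {p : ℕ} [hp : Fact p.Prime] (H : Subgroup (Perm α)) (hH : ¬ p ∣ H.index) :
    ∃ 𝒮 : Finset (Finset α), (∀ A ∈ 𝒮, A.card = p ∧ ∃ σ ∈ H, σ.IsCycle ∧ σ.support = A) ∧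
      (Finset.univ \ 𝒮.biUnion id).card < p := by
  obtain ⟨𝒮, h1, h2, h3⟩ := exists_disjoint_family p hp.out.pos (Finset.univ : Finset α)
  have h2' : ∀ A ∈ 𝒮, 2 ≤ A.card := fun A hA => (h1 A hA).1 ▸ hp.out.two_le
  obtain ⟨g, hg⟩ := conj_into H hH _ (cyc_commute hp.out.two_le (fun A hA => (h1 A hA).1) h2)
    (by rintro _ ⟨A, hA, rfl⟩; rw [← (h1 A hA).1]; exact cyc_pow_card (h2' A hA))
  refine ⟨𝒮.image (fun A => A.image ⇑g⁻¹), ?_, ?_⟩
  · intro B hB
    obtain ⟨A, hA, rfl⟩ := Finset.mem_image.1 hB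
    refine ⟨by rw [Finset.card_image_of_injective _ (Equiv.injective _), (h1 A hA).1], g⁻¹ * cyc A * g,
      hg _ ⟨A, hA, rfl⟩, ?_, ?_⟩
    · simpa using (cyc_isCycle (h2' A hA)).conj (g := g⁻¹)
    · have := support_conj (σ := g⁻¹) (τ := cyc A)
      rw [inv_inv, cyc_support (h2' A hA), Finset.map_eq_image] at this
      exact this
  · refine lt_of_le_of_lt (le_of_eq ?_) h3
    rw [← Finset.card_image_of_injective (Finset.univ \ 𝒮.biUnion id) (Equiv.injective g⁻¹),
      Finset.image_sdiff _ _ (Equiv.injective _), Finset.image_univ_equiv, Finset.image_biUnion]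
    congr 2
    rw [Finset.biUnion_image]
    rfl

/-- In a subgroup of odd order, a cycle of prime length more than half the degree fixes nothing
and is the only prime cycle length, for transitive groups. -/
theorem no_two_cycles {β : Type*} [Fintype β] [DecidableEq β] (K : Subgroup (Perm β))
    (hK : Odd (Nat.card K)) (htr : ∀ a b : β, ∃ k ∈ K, k a = b) {x y : Perm β} (hx : x ∈ K) (hy : y ∈ K)
    (hxc : x.IsCycle) (hyc : y.IsCycle) {p q : ℕ} (hp : p.Prime) (hq : q.Prime) (hp3 : 3 ≤ p)
    (hpq : p < q) (hxs : x.support.card = p) (hys : y.support.card = q)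
    (hsmall : Fintype.card β < 2 * q) : False := by
  classical
  have hswap : ∀ k ∈ K, ∀ u v : β, k u = v → k v = u → u = v := by
    intro k hk u v h1 h2
    obtain ⟨l, hl⟩ := hK
    have e1 : k ^ (2 * l + 1) = 1 := by
      have : (⟨k, hk⟩ : K) ^ Nat.card K = 1 := pow_card_eq_one'
      rw [hl] at this
      exact congrArg Subtype.val this
    have e2 : ∀ n : ℕ, (k ^ (2 * n + 1)) u = v := by
      intro n
      induction n with
      | zero => simpa using h1
      | succ n ih =>
        rw [show 2 * (n + 1) + 1 = (2 * n + 1) + 1 + 1 by ring, pow_succ', pow_succ', mul_apply,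
          mul_apply, ih, h2, h1]
    rw [← e2 l, e1, one_apply]
  by_cases hfull : y.support = Finset.univ
  · -- prime degree
    have hcard : Nat.card β = q := by
      rw [Nat.card_eq_fintype_card, ← Finset.card_univ, ← hfull, hys]
    haveI : MulAction.IsPretransitive K β := ⟨fun a b => by
      obtain ⟨k, hk, hkab⟩ := htr a b; exact ⟨⟨k, hk⟩, hkab⟩⟩
    have hprim : MulAction.IsPreprimitive K β := MulAction.IsPreprimitive.of_prime_card (hcard ▸ hq)
    have hs : Set.ncard ((x.support : Set β)ᶜ) = (q - p - 1) + 1 := by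
      rw [Set.ncard_compl, hcard, Set.ncard_coe_finset, hxs]
      omega
    have h2 := hprim.is_two_pretransitive hs (by omega) (isPretransitive_of_isCycle_mem hxc hx)
    obtain ⟨a, ha⟩ : ∃ a : β, y a ≠ a := by
      obtain ⟨a, ha⟩ := Finset.card_pos.1 (by rw [hys]; exact hq.pos : 0 < y.support.card)
      exact ⟨a, mem_support.1 ha⟩
    rw [MulAction.is_two_pretransitive_iff] at h2
    obtain ⟨k, hk1, hk2⟩ := h2 (a := a) (b := y a) (c := y a) (d := a) (Ne.symm ha) ha
    exact ha (hswap k k.2 a (y a) hk1 hk2).symm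
  · obtain ⟨u, hu⟩ : ∃ u, y u = u := by
      by_contra h
      push Not at h
      exact hfull (Finset.eq_univ_iff_forall.2 fun z => mem_support.2 (h z))
    obtain ⟨a, ha⟩ : ∃ a, y a ≠ a := by
      obtain ⟨a, ha⟩ := Finset.card_pos.1 (by rw [hys]; exact hq.pos : 0 < y.support.card)
      exact ⟨a, mem_support.1 ha⟩
    obtain ⟨k, hk, hka⟩ := htr u a
    set b := k⁻¹ u with hb
    have hkb : k b = u := by simp [hb]
    set Ku := MulAction.stabilizer K u with hKu
    set Ka := MulAction.stabilizer K a with hKa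
    set Kb := MulAction.stabilizer K b with hKb
    have horb : ∀ z : β, (MulAction.orbit Ku z).ncard * Nat.card ↥(Ku ⊓ MulAction.stabilizer K z) =
        Nat.card Ku := by
      intro z
      have h1 := (MulAction.stabilizer Ku z).index_mul_card
      rw [MulAction.index_stabilizer] at h1
      rw [← h1]
      congr 1
      refine Nat.card_congr ⟨fun g => ⟨⟨g.1, g.2.1⟩, g.2.2⟩, fun g => ⟨g.1.1, g.1.2, g.2⟩,
        fun g => rfl, fun g => rfl⟩
    -- conjugation by `k` carries the pair `(b, u)` to `(u, a)`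
    set c : K := ⟨k, hk⟩ with hc
    have hcu : c • u = a := hka
    have hcb : c • b = u := hkb
    have e1 : Nat.card Ka = Nat.card Ku := by
      rw [hKa, ← hcu]
      exact (Nat.card_congr (MulAction.stabilizerEquivStabilizer (g := c) rfl).toEquiv).symm
    have e2 : Nat.card ↥(Ku ⊓ Kb) = Nat.card ↥(Ka ⊓ Ku) := by
      refine Nat.card_congr ⟨fun g => ⟨c * g.1 * c⁻¹, ?_, ?_⟩, fun g => ⟨c⁻¹ * g.1 * c, ?_, ?_⟩,
        fun g => Subtype.ext (by simp [mul_assoc]), fun g => Subtype.ext (by simp [mul_assoc])⟩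
      · show (c * g.1 * c⁻¹) • a = a
        rw [← hcu, mul_smul, inv_smul_smul, mul_smul, show g.1 • u = u from g.2.1]
      · show (c * g.1 * c⁻¹) • u = u
        rw [← hcb, mul_smul, inv_smul_smul, mul_smul, show g.1 • b = b from g.2.2]
      · show (c⁻¹ * g.1 * c) • u = u
        rw [mul_smul, mul_smul, hcu, show g.1 • a = a from g.2.1, ← hcu, inv_smul_smul]
      · show (c⁻¹ * g.1 * c) • b = b
        rw [mul_smul, mul_smul, hcb, show g.1 • u = u from g.2.2, ← hcb, inv_smul_smul]
    have hlen : (MulAction.orbit Ku b).ncard = (MulAction.orbit Ku a).ncard := by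
      have h1 := horb b
      have h2 := horb a
      rw [← hKb, e2, inf_comm] at h1
      rw [← hKa] at h2
      exact Nat.eq_of_mul_eq_mul_right Nat.card_pos (h1.trans h2.symm)
    have hyu : (⟨⟨y, hy⟩, hu⟩ : Ku) ∈ (⊤ : Subgroup Ku) := trivial
    have hbig : q ≤ (MulAction.orbit Ku a).ncard := by
      rw [← hys, ← Set.ncard_coe_finset]
      refine Set.ncard_le_ncard (fun z hz => ?_) (Set.toFinite _)
      obtain ⟨i, hi⟩ := hyc.exists_zpow_eq ha (mem_support.1 hz)
      refine ⟨(⟨⟨y, hy⟩, hu⟩ : Ku) ^ i, ?_⟩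
      rw [← hi]
      show ((⟨⟨y, hy⟩, hu⟩ : Ku) ^ i).1.1 a = _
      simp
    have hdis : Disjoint (MulAction.orbit Ku a) (MulAction.orbit Ku b) := by
      rw [Set.disjoint_left]
      intro z hz hz'
      rw [← MulAction.orbit_eq_iff] at hz hz'
      obtain ⟨g, hg⟩ : b ∈ MulAction.orbit Ku a := by
        rw [← hz, hz']; exact MulAction.mem_orbit_self b
      -- `g` fixes `u` and sends `a` to `b`
      have hgu : g.1.1 u = u := g.2
      have hga : g.1.1 a = b := hg
      have hl := hswap (k * g.1.1) (K.mul_mem hk g.1.2) a u (by rw [mul_apply, hga, hkb])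
        (by rw [mul_apply, hgu, hka])
      exact ha (hl ▸ hu)
    have hnot : u ∉ MulAction.orbit Ku a := by
      rintro ⟨g, hg⟩
      have hgu : g.1.1 u = u := g.2
      exact ha ((g.1.1.injective ((hg : g.1.1 a = u).trans hgu.symm)) ▸ hu)
    have h3 := Set.ncard_union_eq hdis (Set.toFinite _) (Set.toFinite _)
    have h4 : (MulAction.orbit Ku a ∪ MulAction.orbit Ku b).ncard ≤ Fintype.card β := by
      rw [← Nat.card_eq_fintype_card]
      exact Set.ncard_le_card _
    omega

/-- A subgroup of odd order cannot contain meeting cycles of lengths `p < q`, both prime. -/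
theorem no_meeting_cycles (H : Subgroup (Perm α)) (hodd : Odd (Nat.card H)) {x y : Perm α} (hx : x ∈ H)
    (hy : y ∈ H) (hxc : x.IsCycle) (hyc : y.IsCycle) {p q : ℕ} (hp : p.Prime) (hq : q.Prime)
    (hp3 : 3 ≤ p) (hpq : p < q) (hxs : x.support.card = p) (hys : y.support.card = q)
    (hmeet : ¬ Disjoint x.support y.support) : False := by
  classical
  set K := Subgroup.closure ({x, y} : Set (Perm α)) with hK
  have hKH : K ≤ H := (Subgroup.closure_le _).2 (Set.insert_subset hx (Set.singleton_subset_iff.2 hy))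
  set U := x.support ∪ y.support with hU
  have hinv : ∀ k ∈ K, ∀ z, z ∈ U ↔ k z ∈ U := by
    intro k hk
    induction hk using Subgroup.closure_induction with
    | mem g hg =>
      intro z
      have hgU : g.support ⊆ U := by
        rcases hg with rfl | rfl
        · exact Finset.subset_union_left
        · exact Finset.subset_union_right
      by_cases hz : g z = z
      · rw [hz]
      · exact iff_of_true (hgU (mem_support.2 hz)) (hgU (apply_mem_support.2 (mem_support.2 hz)))
    | one => intro z; rw [one_apply]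
    | mul g h _ _ hg hh => intro z; rw [mul_apply, ← hg, ← hh]
    | inv g _ hg =>
      intro z
      rw [hg (g⁻¹ z), ← mul_apply, mul_inv_cancel, one_apply]
  let φ : K →* Perm {z // z ∈ U} :=
    { toFun := fun k => (k : Perm α).subtypePerm fun z => (hinv k k.2 z).symm
      map_one' := by ext z; simp
      map_mul' := fun g h => by ext z; rfl }
  have hval : ∀ (k : K) (z : {z // z ∈ U}), ((φ k) z : α) = (k : Perm α) z := fun k z => rfl
  have hxK : x ∈ K := Subgroup.subset_closure (by simp)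
  have hyK : y ∈ K := Subgroup.subset_closure (by simp)
  have hcardU : Fintype.card {z // z ∈ U} = U.card := by simp
  have hlt : U.card < 2 * q := by
    have h1 := Finset.card_union_add_card_inter x.support y.support
    rw [← hU] at h1
    omega
  have hsup : ∀ (k : K), (k : Perm α).support ⊆ U →
      (φ k).support.card = (k : Perm α).support.card := by
    intro k hkU
    rw [← Finset.card_map (Function.Embedding.subtype fun z => z ∈ U)]
    congr 1
    ext z
    simp only [Finset.mem_map, mem_support, Function.Embedding.coe_subtype]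
    constructor
    · rintro ⟨w, hw, rfl⟩
      intro h
      exact hw (Subtype.ext ((hval k w).trans h))
    · intro hz
      exact ⟨⟨z, hkU (mem_support.2 hz)⟩, fun h => hz ((hval k _).symm.trans (congrArg Subtype.val h)), rfl⟩
  have hcyc : ∀ (k : K), (k : Perm α).IsCycle → (k : Perm α).support ⊆ U → (φ k).IsCycle := by
    intro k hk hkU
    obtain ⟨w, hw, hall⟩ := hk
    refine ⟨⟨w, hkU (mem_support.2 hw)⟩, fun h => hw ((hval k _).symm.trans (congrArg Subtype.val h)),
      fun z hz => ?_⟩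
    obtain ⟨i, hi⟩ := hall (fun h => hz (Subtype.ext ((hval k z).trans h)))
    exact ⟨i, Subtype.ext (by rw [← map_zpow, hval]; simpa using hi)⟩
  refine no_two_cycles φ.range ?_ ?_ ⟨⟨x, hxK⟩, rfl⟩ ⟨⟨y, hyK⟩, rfl⟩
    (hcyc ⟨x, hxK⟩ hxc Finset.subset_union_left) (hcyc ⟨y, hyK⟩ hyc Finset.subset_union_right)
    hp hq hp3 hpq ((hsup ⟨x, hxK⟩ Finset.subset_union_left).trans hxs)
    ((hsup ⟨y, hyK⟩ Finset.subset_union_right).trans hys) (by rw [hcardU]; exact hlt)
  · exact hodd.of_dvd_nat ((Subgroup.card_range_dvd φ).trans (Subgroup.card_dvd_of_le hKH))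
  · obtain ⟨w, hwx, hwy⟩ := Finset.not_disjoint_iff.1 hmeet
    have hto : ∀ z : {z // z ∈ U}, ∃ k : K, (k : Perm α) w = z := by
      rintro ⟨z, hz⟩
      rcases Finset.mem_union.1 hz with hz | hz
      · obtain ⟨i, hi⟩ := hxc.exists_zpow_eq (mem_support.1 hwx) (mem_support.1 hz)
        exact ⟨⟨x, hxK⟩ ^ i, by simpa using hi⟩
      · obtain ⟨i, hi⟩ := hyc.exists_zpow_eq (mem_support.1 hwy) (mem_support.1 hz)
        exact ⟨⟨y, hyK⟩ ^ i, by simpa using hi⟩
    intro a b
    obtain ⟨k, hk⟩ := hto a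
    obtain ⟨l, hl⟩ := hto b
    refine ⟨φ (l * k⁻¹), ⟨_, rfl⟩, Subtype.ext ?_⟩
    rw [hval, Subgroup.coe_mul, mul_apply, Subgroup.coe_inv, ← hk, ← hl]
    simp

/-- No Hall subgroup for a set of odd primes meeting the degree twice. -/
theorem no_hall_odd {H : Subgroup (Perm α)} (hH : Cfsg.IsPiHall π H) (h2 : 2 ∉ π) {p q : ℕ}
    (hp : p.Prime) (hq : q.Prime) (hpπ : p ∈ π) (hqπ : q ∈ π) (hpq : p < q)
    (hqn : q ≤ Fintype.card α) : False := by
  classical
  haveI := Fact.mk hp
  haveI := Fact.mk hq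
  have hodd : Odd (Nat.card H) := by
    rw [← Nat.not_even_iff_odd, even_iff_two_dvd]
    exact fun h => h2 (hH.1 2 Nat.prime_two h)
  have hp3 : 3 ≤ p := by
    rcases Nat.lt_or_ge p 3 with h | h
    · exact absurd hpπ (by rw [show p = 2 by have := hp.two_le; omega]; exact h2)
    · exact h
  obtain ⟨𝒮, h1, h3⟩ := exists_cycle_cover (p := p) H (hH.2 p hp hpπ)
  obtain ⟨𝒯, g1, g3⟩ := exists_cycle_cover (p := q) H (hH.2 q hq hqπ)
  obtain ⟨B, hB⟩ : 𝒯.Nonempty := by
    rw [Finset.nonempty_iff_ne_empty]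
    rintro rfl
    simp at g3
    omega
  obtain ⟨hBc, y, hy, hyc, hys⟩ := g1 B hB
  obtain ⟨w, hwB, hw⟩ : ∃ w ∈ B, w ∈ 𝒮.biUnion id := by
    by_contra h
    push Not at h
    have : B ⊆ Finset.univ \ 𝒮.biUnion id := fun w hw => Finset.mem_sdiff.2 ⟨Finset.mem_univ w, h w hw⟩
    have := Finset.card_le_card this
    omega
  obtain ⟨A, hA, hwA⟩ := Finset.mem_biUnion.1 hw
  obtain ⟨hAc, x, hx, hxc, hxs⟩ := h1 A hA
  exact no_meeting_cycles H hodd hx hy hxc hyc hp hq hp3 hpq (by rw [hxs, hAc]) (by rw [hys, hBc])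
    (Finset.not_disjoint_iff.2 ⟨w, hxs ▸ hwA, hys ▸ hwB⟩)

end Cfsg.Agent.Screen.HallSym
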