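import Cfsg.Agent.Screen.HallArith
import Cfsg.Agent.Screen.HallBasic

/-! # The shape of the Hall subgroups of symmetric groups -/

set_option autoImplicit false
set_option linter.style.haveILetI false
set_option linter.unusedSectionVars false

namespace Cfsg.Agent.Screen.HallSym

open Equiv Equiv.Perm

universe u

variable {π : Set ℕ}

/-- Every prime `≤ n` lies in `π`. -/
def AllIn (π : Set ℕ) (n : ℕ) : Prop := ∀ p : ℕ, p.Prime → p ≤ n → p ∈ π

/-- `2` is the only prime of `π` that is `≤ n`. -/
def TwoOnly (π : Set ℕ) (n : ℕ) : Prop := ∀ p : ℕ, p.Prime → p ∈ π → p ≤ n → p = 2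

/-- The exceptional cases, with the size of the invariant set. -/
def Shape (π : Set ℕ) (n k : ℕ) : Prop :=
  (n.Prime ∧ 5 ≤ n ∧ (∀ r : ℕ, r.Prime → r ≤ n → (r ∈ π ↔ r < n)) ∧ k = n - 1) ∨
    (n = 7 ∧ k = 4 ∧ ∀ r : ℕ, r.Prime → r ≤ n → (r ∈ π ↔ (r = 2 ∨ r = 3))) ∨
    (n = 8 ∧ k = 4 ∧ ∀ r : ℕ, r.Prime → r ≤ n → (r ∈ π ↔ (r = 2 ∨ r = 3)))

theorem shape_unique {n k k' : ℕ} (h : Shape π n k) (h' : Shape π n k') : k = k' := by
  rcases h with ⟨hn, h5, hπ, rfl⟩ | ⟨rfl, rfl, hπ⟩ | ⟨rfl, rfl, hπ⟩ <;>
    rcases h' with ⟨hn', h5', hπ', rfl⟩ | ⟨h7, rfl, hπ'⟩ | ⟨h8, rfl, hπ'⟩ <;>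
    first
      | rfl
      | omega
      | (norm_num at hn'; done)
      | (subst h8; norm_num at hn; done)
      | (subst h7
         have h1 := (hπ 5 (by norm_num) (by norm_num)).2 (by norm_num)
         have h2 := (hπ' 5 (by norm_num) (by norm_num)).1 h1
         omega)
      | (have h1 := (hπ' 5 (by norm_num) (by norm_num)).2 (by norm_num)
         have h2 := (hπ 5 (by norm_num) (by norm_num)).1 h1
         omega)

section

variable {α : Type u} [Fintype α] [DecidableEq α]

theorem img_compl (g : Perm α) (T : Finset α) : Tᶜ.image g = (T.image g)ᶜ := by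
  ext y
  obtain ⟨z, rfl⟩ := g.surjective y
  simp

/-- The permutations that map `S` to itself or to its complement. -/
def setW (S : Finset α) : Subgroup (Perm α) where
  carrier := {g | S.image g = S ∨ S.image g = Sᶜ}
  mul_mem' := by
    intro g h hg hh
    have e : ∀ T : Finset α, T.image (g * h) = (T.image h).image g := fun T => by
      rw [Finset.image_image]; rfl
    have ec : Sᶜ.image g = (S.image g)ᶜ := img_compl g S
    show S.image (g * h) = S ∨ S.image (g * h) = Sᶜ
    rw [e]
    rcases hh with hh | hh <;> rcases hg with hg | hg <;> rw [hh] <;>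
      first
        | (rw [hg]; exact Or.inl rfl)
        | (rw [hg]; exact Or.inr rfl)
        | (rw [ec, hg]; first | exact Or.inr rfl | exact Or.inl (compl_compl S))
  one_mem' := Or.inl (by simp)
  inv_mem' := by
    intro g hg
    have e : ∀ T : Finset α, (T.image g).image ⇑g⁻¹ = T := fun T => by
      rw [Finset.image_image]; simp
    have ec : Sᶜ.image ⇑g⁻¹ = (S.image ⇑g⁻¹)ᶜ := img_compl g⁻¹ S
    show S.image ⇑g⁻¹ = S ∨ S.image ⇑g⁻¹ = Sᶜ
    rcases hg with hg | hg
    · left
      conv_lhs => rw [← hg]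
      exact e S
    · right
      have h := e S
      rw [hg, ec] at h
      rw [← compl_compl (S.image ⇑g⁻¹), h]

theorem mem_setW {S : Finset α} {g : Perm α} : g ∈ setW S ↔ S.image g = S ∨ S.image g = Sᶜ := Iff.rfl

theorem image_eq_of_inv {S : Finset α} {g : Perm α} (h : ∀ x, x ∈ S → g x ∈ S) : S.image g = S :=
  Finset.eq_of_subset_of_card_le (Finset.image_subset_iff.2 h)
    (by rw [Finset.card_image_of_injective _ g.injective])

/-- An invariant set cuts a Hall subgroup into Hall subgroups of the parts. -/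
theorem split_data {H : Subgroup (Perm α)} (hH : Cfsg.IsPiHall π H) (S : Finset α)
    (hS : ∀ g ∈ H, ∀ x, x ∈ S → g x ∈ S) :
    (∃ P : Subgroup (Perm {x // x ∈ S}), Cfsg.IsPiHall π P) ∧
      ∀ p : ℕ, p.Prime → p ∈ π → ¬ p ∣ (Fintype.card α).choose S.card := by
  classical
  have hiff : ∀ g ∈ H, ∀ x, g x ∈ S ↔ x ∈ S := fun g hg x => ⟨fun h => by
    have := hS g⁻¹ (H.inv_mem hg) _ h
    simpa using this, hS g hg x⟩
  have hiff' : ∀ g ∈ H, ∀ x, g x ∉ S ↔ x ∉ S := fun g hg x => (hiff g hg x).not
  let φ : H →* Perm {x // x ∈ S} :=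
    { toFun := fun g => (g : Perm α).subtypePerm (hiff g g.2)
      map_one' := by ext z; rfl
      map_mul' := fun g h => by ext z; rfl }
  let ψ : H →* Perm {x // x ∉ S} :=
    { toFun := fun g => (g : Perm α).subtypePerm (hiff' g g.2)
      map_one' := by ext z; rfl
      map_mul' := fun g h => by ext z; rfl }
  have hinj : Function.Injective (φ.prod ψ) := by
    intro g h e
    rw [MonoidHom.prod_apply, MonoidHom.prod_apply, Prod.mk.injEq] at e
    refine Subtype.ext (Equiv.ext fun z => ?_)
    by_cases hz : z ∈ S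
    · exact congrArg Subtype.val (DFunLike.congr_fun e.1 ⟨z, hz⟩)
    · exact congrArg Subtype.val (DFunLike.congr_fun e.2 ⟨z, hz⟩)
  have hle : (φ.prod ψ).range ≤ φ.range.prod ψ.range := by
    rintro _ ⟨g, rfl⟩
    exact ⟨⟨g, rfl⟩, ⟨g, rfl⟩⟩
  have hdvd : Nat.card H ∣ Nat.card φ.range * Nat.card ψ.range := by
    have h1 := Subgroup.card_dvd_of_le hle
    rwa [← Nat.card_congr (MonoidHom.ofInjective hinj).toEquiv, Nat.card_congr (Subgroup.prodEquiv _ _).toEquiv,
      Nat.card_prod] at h1
  set n := Fintype.card α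
  set a := S.card
  have han : a ≤ n := Finset.card_le_univ S
  have hP : Nat.card φ.range * φ.range.index = a.factorial := by
    rw [Subgroup.card_mul_index, card_perm_eq, Fintype.card_coe]
  have hQ : Nat.card ψ.range * ψ.range.index = (n - a).factorial := by
    rw [Subgroup.card_mul_index, card_perm_eq, Fintype.card_subtype_compl, Fintype.card_coe]
  have key : ∀ p : ℕ, p.Prime → p ∈ π →
      φ.range.index.factorization p = 0 ∧ (n.choose a).factorization p = 0 := by
    intro p hp hpπ
    have h1 : n.factorial.factorization p ≤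
        (Nat.card φ.range).factorization p + (Nat.card ψ.range).factorization p := by
      rw [← card_perm_eq, ← H.card_mul_index, Nat.factorization_mul Nat.card_pos.ne'
        H.index_ne_zero_of_finite, Finsupp.add_apply,
        Nat.factorization_eq_zero_of_not_dvd (hH.2 p hp hpπ), add_zero, ← Finsupp.add_apply,
        ← Nat.factorization_mul Nat.card_pos.ne' Nat.card_pos.ne']
      exact Nat.factorization_le_factorization_of_dvd_right hdvd Nat.card_pos.ne'
        (Nat.mul_ne_zero Nat.card_pos.ne' Nat.card_pos.ne')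
    rw [← Nat.choose_mul_factorial_mul_factorial han, ← hP, ← hQ,
      Nat.factorization_mul (Nat.mul_ne_zero (Nat.choose_pos han).ne' (Nat.mul_ne_zero Nat.card_pos.ne'
        φ.range.index_ne_zero_of_finite)) (Nat.mul_ne_zero Nat.card_pos.ne' ψ.range.index_ne_zero_of_finite),
      Nat.factorization_mul (Nat.choose_pos han).ne' (Nat.mul_ne_zero Nat.card_pos.ne'
        φ.range.index_ne_zero_of_finite),
      Nat.factorization_mul Nat.card_pos.ne' φ.range.index_ne_zero_of_finite,
      Nat.factorization_mul Nat.card_pos.ne' ψ.range.index_ne_zero_of_finite] at h1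
    simp only [Finsupp.add_apply] at h1
    omega
  refine ⟨⟨φ.range, fun p hp hd => hH.1 p hp (hd.trans (Subgroup.card_range_dvd φ)), fun p hp hpπ hd => ?_⟩,
    fun p hp hpπ hd => ?_⟩
  · have := (key p hp hpπ).1
    exact absurd this (hp.factorization_pos_of_dvd φ.range.index_ne_zero_of_finite hd).ne'
  · have := (key p hp hpπ).2
    exact absurd this (hp.factorization_pos_of_dvd (Nat.choose_pos han).ne' hd).ne'

/-- Lists of points pairwise exchanged in `H` give cycles in `H`. -/
theorem formPerm_mem {H : Subgroup (Perm α)} :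
    ∀ (l : List α), (∀ x ∈ l, ∀ y ∈ l, x = y ∨ Equiv.swap x y ∈ H) → l.formPerm ∈ H
  | [], _ => by simp
  | [x], _ => by simp
  | x :: y :: l, h => by
    rw [List.formPerm_cons_cons]
    refine H.mul_mem ?_ (formPerm_mem (y :: l) fun a ha b hb => h a (by simp_all) b (by simp_all))
    rcases h x (by simp) y (by simp) with e | e
    · rw [e, Equiv.swap_self]; exact H.one_mem
    · exact e

end

/-- Arithmetic of an invariant split. -/
theorem intrans_arith (h2 : 2 ∈ π) {a b : ℕ} (hb : 1 ≤ b) (hba : b ≤ a)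
    (hC : ∀ p : ℕ, p.Prime → p ∈ π → ¬ p ∣ (a + b).choose b)
    (hA : AllIn π a ∨ TwoOnly π a ∨ ∃ k, Shape π a k) :
    AllIn π (a + b) ∨ TwoOnly π (a + b) ∨
      (b = 1 ∧ (a + b).Prime ∧ 5 ≤ a + b ∧ ∀ r : ℕ, r.Prime → r ≤ a + b → (r ∈ π ↔ r < a + b)) ∨
      (a = 4 ∧ b = 3 ∧ ∀ r : ℕ, r.Prime → r ≤ a + b → (r ∈ π ↔ (r = 2 ∨ r = 3))) := by
  classical
  by_cases hall : AllIn π (a + b)
  · exact Or.inl hall
  by_cases hT : TwoOnly π (a + b)
  · exact Or.inr (Or.inl hT)
  refine Or.inr (Or.inr ?_)
  simp only [TwoOnly, not_forall] at hT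
  obtain ⟨p, hp, hpπ, hpn, hp2⟩ := hT
  have hpa : p ≤ a := by
    by_contra hpa
    have := no_carry hp (hC p hp hpπ) 1
    rw [pow_one, Nat.mod_eq_of_lt (by omega), Nat.mod_eq_of_lt (by omega)] at this
    omega
  have hp3 : 3 ≤ p := by have := hp.two_le; omega
  have hex : ∃ r, r.Prime ∧ r ≤ a + b ∧ r ∉ π := by
    simpa [AllIn] using hall
  obtain ⟨hr, hrn, hrπ⟩ := Nat.find_spec hex
  set r := Nat.find hex with hrdef
  have hmin : ∀ s : ℕ, s.Prime → s < r → s ∈ π := fun s hs hsr => by
    by_contra hsπ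
    exact Nat.find_min hex hsr ⟨hs, by omega, hsπ⟩
  have hnot : ¬ ∀ s : ℕ, s.Prime → s ∣ a + 1 → s ∈ π := fun h => by
    have := Nat.le_of_dvd hb (succ_dvd fun s hs hd => hC s hs (h s hs hd))
    omega
  have hAa : AllIn π a := by
    rcases hA with h | h | ⟨k, h⟩
    · exact h
    · exact absurd (h p hp hpπ hpa) hp2
    · exfalso
      refine hnot fun s hs hd => ?_
      rcases h with ⟨hn, h5, hπ, -⟩ | ⟨rfl, -, hπ⟩ | ⟨rfl, -, hπ⟩
      · have hodd : a % 2 = 1 := hn.eq_two_or_odd.resolve_left (by omega)
        have hd' : s ∣ 2 * ((a + 1) / 2) := by rwa [show 2 * ((a + 1) / 2) = a + 1 by omega]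
        rcases hs.dvd_mul.1 hd' with h' | h'
        · rw [(Nat.prime_dvd_prime_iff_eq hs Nat.prime_two).1 h']; exact h2
        · have := Nat.le_of_dvd (by omega) h'
          exact (hπ s hs (by omega)).2 (by omega)
      · have : s = 2 := (Nat.prime_dvd_prime_iff_eq hs Nat.prime_two).1 (hs.dvd_of_dvd_pow (n := 3) (by simpa using hd))
        rw [this]; exact h2
      · have : s = 3 := (Nat.prime_dvd_prime_iff_eq hs Nat.prime_three).1 (hs.dvd_of_dvd_pow (n := 2) (by simpa using hd))
        rw [this]; exact (hπ 3 Nat.prime_three (by norm_num)).2 (Or.inr rfl)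
  have hra : a < r := by
    by_contra h
    exact hrπ (hAa r hr (by omega))
  have hr1 : a + 1 = r := by
    by_contra h
    exact hnot fun s hs hd => hmin s hs (by have := Nat.le_of_dvd (by omega) hd; omega)
  rcases Nat.lt_or_ge b 2 with hb2 | hb2
  · obtain rfl : b = 1 := by omega
    refine Or.inl ⟨rfl, hr1 ▸ hr, ?_, fun s hs hsn => ⟨fun h => ?_, fun h => hmin s hs (by omega)⟩⟩
    · rcases hr.eq_two_or_odd with h | h
      · omega
      · omega
    · rcases Nat.lt_or_ge s (a + 1) with h' | h'
      · exact h'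
      · exfalso
        exact hrπ (show s = r by omega ▸ h)
  · obtain ⟨rfl, rfl⟩ := pair_five hr hr1 hb2 hba fun s hs hsr => hC s hs (hmin s hs hsr)
    refine Or.inr ⟨rfl, rfl, fun s hs hsn => ⟨fun h => ?_, fun h => ?_⟩⟩
    · have h5 : s ≠ 5 := fun e => hrπ (by rw [show r = 5 by omega, ← e]; exact h)
      have h7 : s ≠ 7 := fun e => hC 7 (by norm_num) (e ▸ h) (by decide)
      have := hs.two_le
      interval_cases s <;> first | omega | (norm_num at hs)
    · exact hmin s hs (by omega)

/-- The shape of a Hall subgroup of a symmetric group, `2 ∈ π`. -/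
theorem shape_theorem (h2 : 2 ∈ π) :
    ∀ (n : ℕ) (α : Type u) [Fintype α] [DecidableEq α] (H : Subgroup (Perm α)),
      Fintype.card α = n → Cfsg.IsPiHall π H →
      AllIn π n ∨ TwoOnly π n ∨ ∃ S : Finset α, Shape π n S.card ∧ H ≤ setW S := by
  intro n
  induction n using Nat.strong_induction_on with
  | _ n ih =>
  intro α _ _ H hn hH
  classical
  rcases Nat.lt_or_ge n 2 with hn2 | hn2
  · exact Or.inl fun p hp hpn => absurd hp.two_le (by omega)
  obtain ⟨x₀⟩ : Nonempty α := Fintype.card_pos_iff.1 (by omega)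
  set O : Finset α := Finset.univ.filter (fun y => ∃ g ∈ H, g x₀ = y) with hO
  by_cases htr : O = Finset.univ
  · -- transitive
    have htrans : ∀ y, ∃ g ∈ H, g x₀ = y := fun y => by
      have := htr ▸ Finset.mem_univ y
      simpa [hO] using this
    let R : α → α → Prop := fun x y => x = y ∨ Equiv.swap x y ∈ H
    have hequiv : Equivalence R := by
      refine ⟨fun x => Or.inl rfl, fun {x y} h => h.imp Eq.symm fun h => by rwa [Equiv.swap_comm], ?_⟩
      intro x y z hxy hyz
      by_cases hxz : x = z
      · exact Or.inl hxz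
      rcases hxy with rfl | hxy
      · exact hyz
      rcases hyz with rfl | hyz
      · exact Or.inr hxy
      by_cases hyz' : y = z
      · exact Or.inr (hyz' ▸ hxy)
      right
      have := H.mul_mem (H.mul_mem hxy hyz) hxy
      by_cases hxy' : x = y
      · rw [hxy']; exact hyz
      have e : Equiv.swap x y * Equiv.swap y z * Equiv.swap x y = Equiv.swap x z := by
        have h1 := (Equiv.swap_apply_apply (Equiv.swap x y) y z).symm
        rw [Equiv.swap_apply_right, Equiv.swap_apply_of_ne_of_ne (Ne.symm hxz) (Ne.symm hyz'),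
          Equiv.swap_inv] at h1
        exact h1
      rwa [e] at this
    have hRg : ∀ g ∈ H, ∀ x y, R x y → R (g x) (g y) := by
      intro g hg x y h
      refine h.imp (congrArg g) fun h => ?_
      rw [Equiv.swap_apply_apply]
      exact H.mul_mem (H.mul_mem hg h) (H.inv_mem hg)
    let st : Setoid α := ⟨R, hequiv⟩
    let Qt := Quotient st
    haveI : Fintype Qt := Fintype.ofFinite _
    let cls : α → Finset α := fun x => Finset.univ.filter (fun y => R x y)
    set S := cls x₀ with hS
    have hcls : ∀ g ∈ H, ∀ x, (cls x).image g = cls (g x) := by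
      intro g hg x
      ext y
      simp only [cls, Finset.mem_image, Finset.mem_filter, Finset.mem_univ, true_and]
      constructor
      · rintro ⟨z, hz, rfl⟩; exact hRg g hg _ _ hz
      · intro h
        refine ⟨g⁻¹ y, ?_, by simp⟩
        have := hRg g⁻¹ (H.inv_mem hg) _ _ h
        simpa using this
    have hsize : ∀ x, (cls x).card = S.card := by
      intro x
      obtain ⟨g, hg, rfl⟩ := htrans x
      rw [← hcls g hg, Finset.card_image_of_injective _ g.injective]
    -- a transposition
    haveI : Fact (Nat.Prime 2) := ⟨Nat.prime_two⟩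
    obtain ⟨𝒮, h𝒮, h𝒮'⟩ := exists_cycle_cover (p := 2) H (hH.2 2 Nat.prime_two h2)
    obtain ⟨A, hA⟩ : 𝒮.Nonempty := by
      rw [Finset.nonempty_iff_ne_empty]
      rintro rfl
      simp at h𝒮'
      omega
    obtain ⟨hAc, σ, hσ, -, hσs⟩ := h𝒮 A hA
    obtain ⟨u, v, huv, rfl⟩ := card_support_eq_two.1 (hσs ▸ hAc)
    have ha2 : 2 ≤ S.card := by
      rw [← hsize u]
      exact Finset.one_lt_card.2 ⟨u, by simp [cls, R], v, by simp [cls, R, hσ], huv⟩
    set a := S.card with hadef
    set b := Fintype.card Qt with hbdef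
    have hfib : ∀ q : Qt, Fintype.card {x // Quotient.mk st x = q} = a := by
      intro q
      obtain ⟨x, rfl⟩ := Quotient.exists_rep q
      rw [Fintype.card_subtype, ← hsize x]
      refine congrArg Finset.card (Finset.filter_congr fun y _ => ?_)
      exact ⟨fun h => hequiv.symm (Quotient.exact h), fun h => Quotient.sound (hequiv.symm h)⟩
    have hnab : n = b * a := by
      rw [← hn, ← Fintype.card_congr (Equiv.sigmaFiberEquiv (Quotient.mk st)), Fintype.card_sigma,
        Finset.sum_congr rfl fun q _ => hfib q, Finset.sum_const, Finset.card_univ, smul_eq_mul]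
    have hsmall : ∀ p : ℕ, p.Prime → p ≤ a → p ∈ π := by
      intro p hp hpa
      obtain ⟨T, hTS, hTc⟩ := Finset.exists_subset_card_eq (show p ≤ S.card from hpa)
      have hT2 : 2 ≤ T.card := hTc ▸ hp.two_le
      have hmem : cyc T ∈ H := formPerm_mem _ fun x hx y hy => by
        rw [Finset.mem_toList] at hx hy
        have h1 := hTS hx
        have h2 := hTS hy
        simp only [hS, cls, Finset.mem_filter] at h1 h2
        exact hequiv.trans (hequiv.symm h1.2) h2.2
      have ho : orderOf (⟨cyc T, hmem⟩ : H) = p := by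
        rw [Subgroup.orderOf_mk, (cyc_isCycle hT2).orderOf, cyc_support hT2, hTc]
      exact hH.1 p hp (ho ▸ orderOf_dvd_natCard _)
    by_cases hb1 : b ≤ 1
    · refine Or.inl fun p hp hpn => hsmall p hp ?_
      have : b * a ≤ 1 * a := Nat.mul_le_mul_right a hb1
      omega
    -- the block system
    let θ : H →* Perm Qt :=
      { toFun := fun g =>
          { toFun := Quotient.map (g : Perm α) fun x y h => hRg g g.2 x y h
            invFun := Quotient.map ⇑(g : Perm α)⁻¹ fun x y h => hRg _ (H.inv_mem g.2) x y h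
            left_inv := fun q => Quotient.inductionOn q fun x => by simp
            right_inv := fun q => Quotient.inductionOn q fun x => by simp }
        map_one' := Equiv.ext fun q => Quotient.inductionOn q fun x => rfl
        map_mul' := fun g h => Equiv.ext fun q => Quotient.inductionOn q fun x => rfl }
    have hker : ∀ k : θ.ker, ∀ q : Qt, ∀ x, Quotient.mk st ((k.1 : Perm α) x) = q ↔ Quotient.mk st x = q := by
      intro k q x
      have h := DFunLike.congr_fun (show θ k.1 = 1 from k.2) (Quotient.mk st x)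
      have h' : Quotient.mk st ((k.1 : Perm α) x) = Quotient.mk st x := h
      rw [h']
    let ψ : θ.ker →* ((q : Qt) → Perm {x // Quotient.mk st x = q}) :=
      { toFun := fun k q => (k.1 : Perm α).subtypePerm (hker k q)
        map_one' := by funext q; ext z; rfl
        map_mul' := fun g h => by funext q; ext z; rfl }
    have hψ : Function.Injective ψ := by
      intro g h e
      refine Subtype.ext (Subtype.ext (Equiv.ext fun z => ?_))
      exact congrArg Subtype.val (DFunLike.congr_fun (congrFun e (Quotient.mk st z)) ⟨z, rfl⟩)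
    have hdvd : Nat.card H ∣ b.factorial * a.factorial ^ b := by
      rw [Subgroup.card_eq_card_quotient_mul_card_subgroup θ.ker,
        Nat.card_congr (QuotientGroup.quotientKerEquivRange θ).toEquiv]
      refine mul_dvd_mul ?_ ?_
      · rw [← card_perm_eq (α := Qt)]; exact Subgroup.card_subgroup_dvd_card _
      · refine (Subgroup.card_dvd_of_injective ψ hψ).trans (dvd_of_eq ?_)
        rw [Nat.card_pi]
        simp only [card_perm_eq, hfib]
        rw [Finset.prod_const, Finset.card_univ]
    have hW : ∀ p : ℕ, p.Prime → p ∈ π → ¬ p ∣ wreathQuot a b := by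
      intro p hp hpπ hd
      have h1 := hp.factorization_pos_of_dvd (wreathQuot_pos a b).ne' hd
      have h3 : n.factorial.factorization p ≤ (b.factorial * a.factorial ^ b).factorization p := by
        rw [← hn, ← card_perm_eq, ← H.card_mul_index, Nat.factorization_mul Nat.card_pos.ne'
          H.index_ne_zero_of_finite, Finsupp.add_apply,
          Nat.factorization_eq_zero_of_not_dvd (hH.2 p hp hpπ), add_zero]
        exact Nat.factorization_le_factorization_of_dvd_right hdvd Nat.card_pos.ne' (by positivity)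
      rw [hnab, factorial_wreath (by omega), mul_assoc, mul_comm (a.factorial ^ b),
        Nat.factorization_mul (wreathQuot_pos a b).ne' (by positivity), Finsupp.add_apply] at h3
      omega
    rcases wreath_shape h2 ha2 (by omega) hsmall hW with ⟨ha, hT⟩ | ⟨ha, hb, h3, h5, h7⟩
    · exact Or.inr (Or.inl fun p hp hpπ hpn => hT p hp hpπ (by rw [hnab, ha] at hpn; omega))
    · refine Or.inr (Or.inr ⟨S, Or.inr (Or.inr ⟨by rw [hnab, ha, hb], ha, fun r hr hrn => ?_⟩), fun g hg => ?_⟩)
      · rw [hnab, ha, hb] at hrn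
        have := hr.two_le
        interval_cases r <;> first | (norm_num at hr; done) | simp [h2, h3, h5, h7]
      · rw [mem_setW, hS, hcls g hg x₀]
        by_cases hR : R x₀ (g x₀)
        · left
          ext y
          simp only [cls, Finset.mem_filter, Finset.mem_univ, true_and]
          exact ⟨fun h => hequiv.trans hR h, fun h => hequiv.trans (hequiv.symm hR) h⟩
        · right
          refine Finset.eq_of_subset_of_card_le (fun y hy => ?_) ?_
          · simp only [cls, Finset.mem_filter, Finset.mem_univ, true_and, Finset.mem_compl] at hy ⊢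
            exact fun h => hR (hequiv.trans h (hequiv.symm hy))
          · have h4 := hsize (g x₀)
            have h4' := hsize x₀
            rw [Finset.card_compl, hn, hnab, hb]
            omega
  · -- intransitive
    have hOinv : ∀ g ∈ H, ∀ x, x ∈ O → g x ∈ O := by
      intro g hg x hx
      simp only [hO, Finset.mem_filter, Finset.mem_univ, true_and] at hx ⊢
      obtain ⟨h, hh, rfl⟩ := hx
      exact ⟨g * h, H.mul_mem hg hh, rfl⟩
    have hcinv : ∀ g ∈ H, ∀ x, x ∈ Oᶜ → g x ∈ Oᶜ := by
      intro g hg x hx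
      rw [Finset.mem_compl] at hx ⊢
      intro h
      exact hx (by simpa using hOinv g⁻¹ (H.inv_mem hg) _ h)
    have hx₀ : x₀ ∈ O := by simp only [hO, Finset.mem_filter, Finset.mem_univ, true_and]; exact ⟨1, H.one_mem, rfl⟩
    have hOlt : O.card < n := by
      rw [← hn]
      exact lt_of_le_of_ne (Finset.card_le_univ O) fun h => htr (Finset.eq_univ_of_card O h)
    have hOpos : 1 ≤ O.card := Finset.card_pos.2 ⟨x₀, hx₀⟩
    obtain ⟨S, hSinv, hSlt, hSbig⟩ : ∃ S : Finset α, (∀ g ∈ H, ∀ x, x ∈ S → g x ∈ S) ∧ S.card < n ∧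
        n - S.card ≤ S.card := by
      rcases Nat.le_total (n - O.card) O.card with h | h
      · exact ⟨O, hOinv, hOlt, h⟩
      · refine ⟨Oᶜ, hcinv, ?_, ?_⟩ <;> rw [Finset.card_compl, hn] <;> omega
    obtain ⟨⟨P, hP⟩, hC⟩ := split_data hH S hSinv
    have hA := ih S.card hSlt {x // x ∈ S} P (Fintype.card_coe S) hP
    have hW : H ≤ setW S := fun g hg => Or.inl (image_eq_of_inv (hSinv g hg))
    have hab : S.card + (n - S.card) = n := by omega
    have := intrans_arith h2 (a := S.card) (b := n - S.card) (by omega) hSbig (fun p hp hpπ => by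
      rw [hab, Nat.choose_symm (by omega), ← hn]; exact hC p hp hpπ)
      (hA.imp id (Or.imp id fun ⟨T, hT, _⟩ => ⟨T.card, hT⟩))
    rw [hab] at this
    rcases this with h | h | ⟨h1, h, h5, hπ⟩ | ⟨h4, h3, hπ⟩
    · exact Or.inl h
    · exact Or.inr (Or.inl h)
    · exact Or.inr (Or.inr ⟨S, Or.inl ⟨h, h5, hπ, by omega⟩, hW⟩)
    · exact Or.inr (Or.inr ⟨S, Or.inr (Or.inl ⟨by omega, h4, hπ⟩), hW⟩)

end Cfsg.Agent.Screen.HallSym
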