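import Cfsg.Agent.SmallOrder.Exclude
import Cfsg.Agent.Transfer.Thompson
import Cfsg.Agent.Screen.CyclicIndexTwo
import Cfsg.Agent.Screen.SylowAux
import Cfsg.Agent.S0989
import Cfsg.Agent.S0990
import Mathlib

/-! # Tools for the sieve of simple groups of order at most 1092 -/

set_option autoImplicit false

namespace Cfsg.Agent.Screen.Thousand

open Equiv Cfsg.Agent.SmallOrder
open scoped commutatorElement

variable {G : Type*} [Group G] [Finite G] [IsSimpleGroup G]

/-- A proper subgroup of `A_n`, `n ≥ 5`, has index at least `n`; in contradiction form. -/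
theorem false_of_small_index (hG : ¬ IsMulCommutative G) (H : Subgroup G) (hH : H ≠ ⊤) {n k : ℕ}
    (hn : H.index = n) (hn5 : 5 ≤ n) (hcard : 2 * Nat.card G * k = n.factorial) (hk1 : 1 < k) (hkn : k < n) :
    False := by
  classical
  subst hn
  obtain ⟨f, hf⟩ := embeds_alternating hG H hH
  haveI : Nontrivial (Fin H.index) := Fin.nontrivial_iff_two_le.mpr (by omega)
  haveI : IsSimpleGroup (alternatingGroup (Fin H.index)) :=
    alternatingGroup.isSimpleGroup (by rwa [Nat.card_eq_fintype_card, Fintype.card_fin])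
  have hnA : ¬ IsMulCommutative (alternatingGroup (Fin H.index)) := by
    intro h
    have hp := prime_card_of_comm h
    rw [Nat.card_eq_fintype_card, card_alternatingGroup, Fintype.card_fin] at hp
    · have h3 : 3 ∣ H.index.factorial / 2 := by
        have : (6 : ℕ) ∣ H.index.factorial :=
          (show 6 ∣ (3 : ℕ).factorial from dvd_rfl).trans (Nat.factorial_dvd_factorial (by omega))
        omega
      rcases hp.eq_one_or_self_of_dvd 3 h3 with h3 | h3
      · omega
      · have : (5 : ℕ).factorial ≤ H.index.factorial := Nat.factorial_le hn5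
        rw [show (5 : ℕ).factorial = 120 from rfl] at this
        omega
  have hA : 2 * Nat.card (alternatingGroup (Fin H.index)) = H.index.factorial := by
    rw [Nat.card_eq_fintype_card, two_mul_card_alternatingGroup, Fintype.card_perm, Fintype.card_fin]
  have hr : f.range.index = k := by
    have h := f.range.card_mul_index
    rw [Nat.card_congr (MonoidHom.ofInjective hf).toEquiv.symm] at h
    have h0 : 0 < Nat.card G := Nat.card_pos
    refine Nat.eq_of_mul_eq_mul_left h0 ?_
    refine Nat.eq_of_mul_eq_mul_left (by norm_num : 0 < 2) ?_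
    rw [h, hA, ← hcard, mul_assoc]
  have hne : f.range ≠ ⊤ := fun e => by rw [e, Subgroup.index_top] at hr; omega
  have hd := two_mul_card_dvd_factorial hnA f.range hne
  rw [hA, hr] at hd
  have := (Nat.factorial_lt (by omega : 0 < k)).2 hkn
  exact absurd (Nat.le_of_dvd (Nat.factorial_pos k) hd) (by omega)

variable {p : ℕ} [hp : Fact p.Prime]

/-- An injective map into the permutations of the Sylow subgroups. -/
theorem sylowPerm_injective (hG : ¬ IsMulCommutative G) (hd : p ∣ Nat.card G) :
    Function.Injective (MulAction.toPermHom G (Sylow p G)) := by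
  obtain ⟨P⟩ := (inferInstance : Nonempty (Sylow p G))
  rw [← MonoidHom.ker_eq_bot_iff]
  refine (MonoidHom.normal_ker _).eq_bot_or_eq_top.resolve_right fun htop => ?_
  apply normalizer_ne_top hG hd P
  rw [eq_top_iff]
  intro g _
  exact Sylow.smul_eq_iff_mem_normalizer.1
    (Equiv.Perm.congr_fun (MonoidHom.mem_ker.1 (htop ▸ Subgroup.mem_top g)) P)

/-- `N(P)` in degree `p + 1`. -/
theorem false_of_succ (hG : ¬ IsMulCommutative G) (hp2 : p ≠ 2) (P : Sylow p G) (hP : Nat.card P = p)
    (hn : Nat.card (Sylow p G) = p + 1) {r : ℕ} (hc : Nat.card G = p * r * (p + 1))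
    (hnd : ¬ 2 * (p * r) ∣ p * (p - 1)) : False := by
  classical
  have hd : p ∣ Nat.card G := hP ▸ (P : Subgroup G).card_subgroup_dvd_card
  have hindex : (Subgroup.normalizer ((P : Subgroup G) : Set G)).index = p + 1 := by
    exact P.card_eq_index_normalizer.symm.trans hn
  have hN : Nat.card (Subgroup.normalizer ((P : Subgroup G) : Set G)) = p * r := by
    have h := card_normalizer_mul_card_sylow P
    rw [hn, hc] at h
    exact Nat.eq_of_mul_eq_mul_right (Nat.succ_pos p) h
  obtain ⟨n, hn', f, hf⟩ : ∃ n : ℕ, n = p + 1 ∧ ∃ f : G →* alternatingGroup (Fin n), Function.Injective f :=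
    ⟨_, hindex, embeds_alternating hG _ (normalizer_ne_top hG hd P)⟩
  haveI : Fintype (Subgroup.normalizer ((P : Subgroup G) : Set G)) := Fintype.ofFinite _
  set Q0 := (P : Subgroup G).map f with hQ0
  set Q1 := Q0.map (alternatingGroup (Fin n)).subtype with hQ1
  have hQ1c : Nat.card Q1 = p := by
    rw [hQ1, hQ0, Nat.card_congr (Subgroup.equivMapOfInjective _ _ (alternatingGroup (Fin n)).subtype_injective).symm.toEquiv,
      Nat.card_congr (Subgroup.equivMapOfInjective _ _ hf).symm.toEquiv, hP]
  let S : Sylow p (Equiv.Perm (Fin n)) := Sylow.ofCard Q1 (by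
    rw [hQ1c, Nat.card_eq_fintype_card, Fintype.card_perm, Fintype.card_fin, hn', Nat.factorial_succ,
      Nat.factorization_mul (Nat.succ_ne_zero p) (Nat.factorial_ne_zero p),
      ← Nat.mul_factorial_pred hp.out.ne_zero,
      Nat.factorization_mul hp.out.ne_zero (Nat.factorial_ne_zero _)]
    rw [Finsupp.add_apply, Finsupp.add_apply, hp.out.factorization_self,
      Nat.factorization_eq_zero_of_not_dvd, Nat.factorization_eq_zero_of_not_dvd, zero_add, add_zero, pow_one]
    · rw [hp.out.dvd_factorial]; have := hp.out.two_le; omega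
    · intro h
      have := Nat.le_of_dvd Nat.one_pos ((Nat.dvd_add_right (dvd_refl p)).1 h)
      have := hp.out.two_le
      omega)
  have hS : (S : Subgroup (Equiv.Perm (Fin n))) = Q1 := rfl
  obtain ⟨-, h990⟩ := Cfsg.Agent.S0990.result (α := Fin n) (by rw [Fintype.card_fin, hn']; have := hp.out.two_le; omega) p hp2 S
  have h989 := Cfsg.Agent.S0989.result (α := Fin n) p (Or.inr (by rw [Fintype.card_fin, hn'])) S
  rw [h989, hS, hQ1, ← Subgroup.comap_subtype, Subgroup.comap_map_eq_self_of_injective
    (alternatingGroup (Fin n)).subtype_injective] at h990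
  have hle : (Subgroup.normalizer ((P : Subgroup G) : Set G)).map f ≤ Subgroup.normalizer (Q0 : Set _) :=
    Subgroup.le_normalizer_map f
  have hdvd := Subgroup.card_dvd_of_le hle
  rw [Nat.card_congr (Subgroup.equivMapOfInjective _ _ hf).symm.toEquiv, hN] at hdvd
  exact hnd (h990 ▸ Nat.mul_dvd_mul_left 2 hdvd)

/-- An element of order `p` in a Sylow subgroup of order `p` fixes only that Sylow subgroup. -/
theorem eq_of_smul_eq (P : Sylow p G) (hP : Nat.card P = p) {x : G} (hx : orderOf x = p)
    (hxP : x ∈ (P : Subgroup G)) (R : Sylow p G) (hR : x • R = R) : R = P := by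
  replace hR := Sylow.smul_eq_iff_mem_normalizer.1 hR
  have hpg : IsPGroup p (Subgroup.zpowers x) := IsPGroup.of_card (n := 1) (by rw [Nat.card_zpowers, hx, pow_one])
  have h : x ∈ Subgroup.zpowers x ⊓ Subgroup.normalizer (R : Set G) :=
    ⟨Subgroup.mem_zpowers x, hR⟩
  rw [hpg.inf_normalizer_sylow R] at h
  have hxeq : Subgroup.zpowers x = (P : Subgroup G) :=
    Subgroup.eq_of_le_of_card_ge (Subgroup.zpowers_le.2 hxP) (by rw [Nat.card_zpowers, hx, hP])
  apply Sylow.ext
  exact P.3 R.2 (hxeq ▸ Subgroup.zpowers_le.2 h.2)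

omit [IsSimpleGroup G] in
/-- The centralizer of a subgroup of order `p` contains elements commuting with a generator. -/
theorem exists_commuting (P : Sylow p G) (hP : Nat.card P = p) {q : ℕ} [Fact q.Prime]
    (hq : q ∣ Nat.card (Subgroup.centralizer ((P : Subgroup G) : Set G))) :
    ∃ x y : G, orderOf x = p ∧ x ∈ (P : Subgroup G) ∧ orderOf y = q ∧ Commute x y := by
  obtain ⟨x, hx⟩ := exists_prime_orderOf_dvd_card' (G := (P : Subgroup G)) p (dvd_of_eq hP.symm)
  obtain ⟨y, hy⟩ := exists_prime_orderOf_dvd_card' (G := Subgroup.centralizer ((P : Subgroup G) : Set G)) q hq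
  rw [← Subgroup.orderOf_coe] at hx hy
  exact ⟨x, y, hx, x.2, hy, Subgroup.mem_centralizer_iff.1 y.2 x x.2⟩

/-- An involution commuting with `x` when there are `2p + 1` Sylow subgroups. -/
theorem false_of_commuting_two_succ (hG : ¬ IsMulCommutative G) (P : Sylow p G)
    (hP : Nat.card P = p) (hn : Nat.card (Sylow p G) = 2 * p + 1) (hp2 : Odd p)
    (hC : 2 ∣ Nat.card (Subgroup.centralizer ((P : Subgroup G) : Set G))) : False := by
  classical
  haveI : Fact (Nat.Prime 2) := ⟨Nat.prime_two⟩
  haveI : Fintype (Sylow p G) := Fintype.ofFinite _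
  obtain ⟨x, t, hx, hxP, ht, hc⟩ := exists_commuting P hP hC
  have hd : p ∣ Nat.card G := hP ▸ (P : Subgroup G).card_subgroup_dvd_card
  set φ := MulAction.toPermHom G (Sylow p G) with hφ
  have ht2 : φ t ^ 2 = 1 := by rw [← map_pow, ← ht, pow_orderOf_eq_one, map_one]
  have hs := sign_eq_one hG φ t
  rw [Equiv.Perm.sign_of_pow_two_eq_one ht2, ← Nat.card_eq_fintype_card, hn] at hs
  set F := Function.fixedPoints (φ t) with hF
  have hinv : ∀ R : Sylow p G, R ∈ F → ∀ z ∈ Subgroup.zpowers x, z • R ∈ F := by
    intro R hR z hz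
    have hzt : Commute z t := by
      obtain ⟨i, rfl⟩ := Subgroup.mem_zpowers_iff.1 hz
      exact hc.zpow_left i
    show t • z • R = z • R
    rw [smul_smul, ← hzt.eq, ← smul_smul, show t • R = R from hR]
  letI : MulAction (Subgroup.zpowers x) F :=
    { smul := fun z R => ⟨(z : G) • R.1, hinv R.1 R.2 z z.2⟩
      one_smul := fun R => Subtype.ext (one_smul G R.1)
      mul_smul := fun a b R => Subtype.ext (mul_smul (a : G) b R.1) }
  have hPF : P ∈ F := by
    show t • P = P
    have hsub : Subgroup.zpowers x = (P : Subgroup G) :=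
      Subgroup.eq_of_le_of_card_ge (Subgroup.zpowers_le.2 hxP) (by rw [Nat.card_zpowers, hx, hP])
    refine Sylow.smul_eq_iff_mem_normalizer.2 ?_
    refine Subgroup.centralizer_le_normalizer _ (Subgroup.mem_centralizer_iff.2 fun z hz => ?_)
    replace hz : z ∈ Subgroup.zpowers x := hsub.symm ▸ hz
    obtain ⟨i, rfl⟩ := Subgroup.mem_zpowers_iff.1 hz
    exact hc.zpow_left i
  have hpg : IsPGroup p (Subgroup.zpowers x) := IsPGroup.of_card (n := 1) (by rw [Nat.card_zpowers, hx, pow_one])
  have hmod := hpg.card_modEq_card_fixedPoints F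
  have hone : Nat.card (MulAction.fixedPoints (Subgroup.zpowers x) F) = 1 := by
    refine Nat.card_eq_one_iff_unique.2 ⟨⟨fun a b => ?_⟩, ⟨⟨⟨P, hPF⟩, fun z => Subtype.ext ?_⟩⟩⟩
    · have key : ∀ c : MulAction.fixedPoints (Subgroup.zpowers x) F, c.1.1 = P := fun c =>
        eq_of_smul_eq P hP hx hxP _ (congrArg Subtype.val (c.2 ⟨x, Subgroup.mem_zpowers x⟩))
      exact Subtype.ext (Subtype.ext ((key a).trans (key b).symm))
    · show (z : G) • P = P
      refine Sylow.smul_eq_iff_mem_normalizer.2 ?_
      exact Subgroup.le_normalizer ((Subgroup.zpowers_le.2 hxP) z.2)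
  rw [hone] at hmod
  have hFle : Nat.card F ≤ 2 * p + 1 := hn ▸ Finite.card_subtype_le _
  have hFne : Nat.card F ≠ 2 * p + 1 := fun h => by
    have : φ t = 1 := by
      refine Equiv.ext fun R => ?_
      by_contra hR
      have := Finite.card_subtype_lt (p := fun R => R ∈ F) (x := R) hR
      rw [hn] at this
      exact absurd h (Nat.ne_of_lt this)
    have := sylowPerm_injective hG hd (this.trans (map_one φ).symm)
    rw [this, orderOf_one] at ht
    omega
  rw [← Nat.card_eq_fintype_card] at hs
  obtain ⟨k, hk⟩ := hp2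
  have hcases : Nat.card F = 1 ∨ Nat.card F = p + 1 := by
    have h1 : Nat.card F % p = 1 := by
      have := hp.out.one_lt
      rwa [Nat.ModEq, Nat.mod_eq_of_lt this] at hmod
    have h2 := Nat.div_add_mod (Nat.card F) p
    have h4 : Nat.card F / p ≤ 2 := by
      by_contra hlt
      have : 3 ≤ Nat.card F / p := by omega
      have := Nat.mul_le_mul_left p this
      have := hp.out.two_le
      omega
    interval_cases hq : Nat.card F / p <;> omega
  have hev : Even ((2 * p + 1 - Nat.card F) / 2) := by
    by_contra hodd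
    rw [(Nat.not_even_iff_odd.1 hodd).neg_one_pow] at hs
    exact absurd hs (by decide)
  rcases hcases with h | h
  · rw [h, show (2 * p + 1 - 1) / 2 = p by omega] at hev
    obtain ⟨m, hm⟩ := hev
    omega
  · rw [h] at hev
    -- the moved points of an involution come in pairs
    have hpair : Even (2 * p + 1 - Nat.card F) := by
      have h2 := Equiv.Perm.sum_cycleType (φ t)
      have h3 := Equiv.Perm.cycleType_of_pow_prime_eq_one ht2
      rw [h3, Multiset.sum_replicate, smul_eq_mul] at h2
      have h4 : (φ t).support.card = 2 * p + 1 - Nat.card F := by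
        have : (φ t).support = (Finset.univ.filter fun R => φ t R = R)ᶜ := by ext R; simp
        rw [this, Finset.card_compl, ← Nat.card_eq_fintype_card, hn, ← Fintype.card_subtype,
          ← Nat.card_eq_fintype_card]
        rfl
      rw [← h4, ← h2]
      exact even_two.mul_left _
    obtain ⟨m, hm⟩ := hpair
    omega

omit hp in
/-- An involution whose centralizer has order not divisible by 8, Sylow 2-subgroups of order 16. -/
theorem false_of_four_centralizer (hG : ¬ IsMulCommutative G) {m : ℕ} (hcard : Nat.card G = 16 * m)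
    (hm : Odd m) {t : G} (ht : orderOf t = 2)
    (hC : ¬ 8 ∣ Nat.card (Subgroup.centralizer ({t} : Set G))) : False := by
  classical
  haveI : Fact (Nat.Prime 2) := ⟨Nat.prime_two⟩
  have htp : IsPGroup 2 (Subgroup.zpowers t) := IsPGroup.of_card (n := 1) (by rw [Nat.card_zpowers, ht, pow_one])
  obtain ⟨S, hS⟩ := htp.exists_le_sylow
  have htS : t ∈ (S : Subgroup G) := hS (Subgroup.mem_zpowers t)
  have hS16 : Nat.card S = 16 :=
    (sylow_arith S (a := 4) (m := m) (by rw [hcard]; norm_num) (Nat.two_dvd_ne_zero.2 (Nat.odd_iff.1 hm))).1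
  set t' : (S : Subgroup G) := ⟨t, htS⟩ with ht'
  have hcl : 4 ≤ Nat.card (commutator (S : Subgroup G)) := by
    set Z := Subgroup.centralizer ({t'} : Set (S : Subgroup G)) with hZ
    have hZd : Nat.card Z ∣ Nat.card (Subgroup.centralizer ({t} : Set G)) := by
      refine Subgroup.card_dvd_of_injective (((S : Subgroup G).subtype.comp Z.subtype).codRestrict _ fun z => ?_) ?_
      · exact Subgroup.mem_centralizer_singleton_iff.2
          (congrArg Subtype.val (Subgroup.mem_centralizer_singleton_iff.1 z.2))
      · intro a b h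
        exact Subtype.ext (Subtype.ext (congrArg Subtype.val h :))
    have hZ16 : Nat.card Z ∣ 16 := hS16 ▸ Z.card_subgroup_dvd_card
    have hZle : Nat.card Z ≤ 4 := by
      obtain ⟨i, hi, hi'⟩ := (Nat.dvd_prime_pow Nat.prime_two).1 (show Nat.card Z ∣ 2 ^ 4 from hZ16)
      rw [hi'] at hZd ⊢
      by_contra hlt
      apply hC
      refine (show 2 ^ 3 ∣ 2 ^ i from pow_dvd_pow 2 ?_).trans hZd
      by_contra h3
      exact hlt (le_trans (Nat.pow_le_pow_right two_pos (show i ≤ 2 by omega)) le_rfl)
    have hidx : 4 ≤ Z.index := by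
      have := Z.card_mul_index
      rw [hS16] at this
      nlinarith [Nat.card_pos (α := Z)]
    rw [Subgroup.index_eq_card] at hidx
    refine hidx.trans (Nat.card_le_card_of_injective (fun q : (S : Subgroup G) ⧸ Z =>
      (⟨⁅q.out, t'⁆, Subgroup.commutator_mem_commutator (Subgroup.mem_top _) (Subgroup.mem_top _)⟩ : commutator (S : Subgroup G))) ?_)
    intro a b h
    have h' : ⁅a.out, t'⁆ = ⁅b.out, t'⁆ := congrArg Subtype.val h
    rw [← QuotientGroup.out_eq' a, ← QuotientGroup.out_eq' b, QuotientGroup.eq]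
    refine Subgroup.mem_centralizer_singleton_iff.2 ?_
    simp only [commutatorElement_def, mul_left_inj] at h'
    calc a.out⁻¹ * b.out * t' = a.out⁻¹ * (b.out * t' * b.out⁻¹) * b.out := by group
      _ = a.out⁻¹ * (a.out * t' * a.out⁻¹) * b.out := by rw [h']
      _ = t' * (a.out⁻¹ * b.out) := by group
  have hci : (commutator (S : Subgroup G)).index ≤ 4 := by
    have := (commutator (S : Subgroup G)).card_mul_index
    rw [hS16] at this
    nlinarith
  obtain ⟨C, hC1, hC2⟩ := CyclicIndexTwo.exists_cyclic_of_index_le_four S.2 hci (by rw [hS16]; norm_num)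
  set H := C.map (S : Subgroup G).subtype with hH
  have hHi : H.index = 2 * m := by
    have h := Subgroup.relIndex_mul_index (Subgroup.map_subtype_le C : H ≤ (S : Subgroup G))
    have hrel : H.relIndex (S : Subgroup G) = 2 := by
      rw [Subgroup.relIndex, hH, ← Subgroup.comap_subtype,
        Subgroup.comap_map_eq_self_of_injective (S : Subgroup G).subtype_injective, hC2]
    rw [hrel, (sylow_arith S (a := 4) (m := m) (by rw [hcard]; norm_num)
      (Nat.two_dvd_ne_zero.2 (Nat.odd_iff.1 hm))).2.1] at h
    exact h.symm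
  have ht2 : t ^ 2 = 1 := by rw [← ht]; exact pow_orderOf_eq_one t
  by_cases hno : ∀ g : G, g * t * g⁻¹ ∉ H
  · obtain ⟨M, hM, hM2, -⟩ := Transfer.exists_index_two_of_forall_notMem H hHi hm ht2 hno
    rcases hM.eq_bot_or_eq_top with h | h
    · rw [h, Subgroup.index_bot, hcard] at hM2; omega
    · rw [h, Subgroup.index_top] at hM2; omega
  push Not at hno
  obtain ⟨g, c, hcC, hc⟩ := hno
  have hc' : (c : G) = g * t * g⁻¹ := hc
  have hoc : orderOf c = 2 := by
    rw [← Subgroup.orderOf_coe, hc', ← ht]
    exact MulEquiv.orderOf_eq (MulAut.conj g) t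
  haveI := hC1
  haveI hCn : C.Normal := Subgroup.normal_of_index_eq_two hC2
  have hcen : ∀ s : (S : Subgroup G), s * c * s⁻¹ = c := by
    intro s
    have h := hCn.conj_mem c hcC s
    exact Screen.eq_of_orderOf_eq_two_of_isCyclic hC1 h hcC
      ((MulEquiv.orderOf_eq (MulAut.conj s) c).trans hoc) hoc
  apply hC
  have h8 : 8 ∣ Nat.card (Subgroup.centralizer ({g * t * g⁻¹} : Set G)) := by
    refine ((show 8 ∣ 16 by norm_num).trans (dvd_of_eq hS16.symm)).trans (Subgroup.card_dvd_of_le fun s hs => ?_)
    rw [Subgroup.mem_centralizer_singleton_iff, ← hc']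
    exact mul_inv_eq_iff_eq_mul.1 (congrArg Subtype.val (hcen ⟨s, hs⟩))
  rwa [Nat.card_congr (show Subgroup.centralizer ({t} : Set G) ≃ Subgroup.centralizer ({g * t * g⁻¹} : Set G) from
    { toFun := fun y => ⟨g * y * g⁻¹, Subgroup.mem_centralizer_singleton_iff.2 (by
        have := Subgroup.mem_centralizer_singleton_iff.1 y.2
        calc g * y * g⁻¹ * (g * t * g⁻¹) = g * ((y : G) * t) * g⁻¹ := by group
          _ = g * (t * y) * g⁻¹ := by rw [this]
          _ = g * t * g⁻¹ * (g * y * g⁻¹) := by group)⟩
      invFun := fun y => ⟨g⁻¹ * y * g, Subgroup.mem_centralizer_singleton_iff.2 (by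
        have := Subgroup.mem_centralizer_singleton_iff.1 y.2
        calc g⁻¹ * y * g * t = g⁻¹ * ((y : G) * (g * t * g⁻¹)) * g := by group
          _ = g⁻¹ * (g * t * g⁻¹ * y) * g := by rw [this]
          _ = t * (g⁻¹ * y * g) := by group)⟩
      left_inv := fun y => by ext; simp [mul_assoc]
      right_inv := fun y => by ext; simp [mul_assoc] })]

end Cfsg.Agent.Screen.Thousand
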